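import Cfsg.Agent.GeoClasses.TransvGen
import Cfsg.Agent.MaxSub.SubfieldMax.Basic

/-!
An irreducible subgroup of `GL(3, F)` containing a full transvection group contains `SL(3, F)`.
-/

set_option autoImplicit false
set_option linter.unusedSectionVars false

namespace Cfsg.Agent.SLThree

open Matrix Cfsg.Geo Cfsg.Agent.GeoClasses Cfsg.Agent.MaxSub.SubfieldMax
open scoped MatrixGroups Matrix

variable {F : Type*} [Field F] {X : Subgroup (GL (Fin 3) F)}

/-- All transvections with centre `u` and axis `a` (any parameter) lie in `X`. -/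
def RootIn (X : Subgroup (GL (Fin 3) F)) (u a : Fin 3 → F) : Prop := ∀ c : F, InM X u (c • a)

theorem RootIn.conj {u a : Fin 3 → F} (h : RootIn X u a) {g : GL (Fin 3) F} (hg : g ∈ X) :
    RootIn X ((g : Matrix (Fin 3) (Fin 3) F) *ᵥ u)
      (a ᵥ* ((g⁻¹ : GL (Fin 3) F) : Matrix (Fin 3) (Fin 3) F)) := fun c => by
  have := (h c).conj hg
  rwa [smul_vecMul] at this

theorem dot_conj (g : GL (Fin 3) F) (a v : Fin 3 → F) :
    (a ᵥ* ((g⁻¹ : GL (Fin 3) F) : Matrix (Fin 3) (Fin 3) F)) ⬝ᵥ
      ((g : Matrix (Fin 3) (Fin 3) F) *ᵥ v) = a ⬝ᵥ v := by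
  rw [← dotProduct_mulVec, Matrix.mulVec_mulVec, ← Units.val_mul, inv_mul_cancel, Units.val_one,
    Matrix.one_mulVec]

/-- Commutator of two transvection groups. -/
theorem RootIn.comm {u a w b : Fin 3 → F} (h : RootIn X u a) (h' : RootIn X w b) (ha : a ⬝ᵥ u = 0)
    (hb : b ⬝ᵥ w = 0) (hbu : b ⬝ᵥ u = 0) (haw : a ⬝ᵥ w ≠ 0) : RootIn X u b := fun c => by
  have := (h 1).comm (h' (c / (a ⬝ᵥ w))) (by rw [smul_dotProduct, ha, smul_zero])
    (by rw [smul_dotProduct, hb, smul_zero]) (by rw [smul_dotProduct, hbu, smul_zero])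
  rw [one_smul, inM_smul_left, smul_smul, mul_div_cancel₀ _ haw] at this
  exact this

/-- A root group in matrix form is a root group of transvections. -/
theorem transv_mem_of_inM {u a : Fin 3 → F} (h : InM X u a) (φ : (Fin 3 → F) →ₗ[F] F)
    (hφ : ∀ v, φ v = a ⬝ᵥ v) (h0 : φ u = 0) : transv φ u h0 ∈ X := by
  obtain ⟨g, hg, e⟩ := h
  convert hg using 1
  refine gl_ext_mulVec fun v => ?_
  rw [transv_mulVec, e, Matrix.add_mulVec, Matrix.one_mulVec, Matrix.vecMulVec_mulVec, hφ,
    op_smul_eq_smul]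

/-- Two independent axes through a centre give every transvection with that centre. -/
theorem mem_centres_of_two {u a b v : Fin 3 → F} (hu : u ≠ 0) (ha : a ⬝ᵥ u = 0) (hb : b ⬝ᵥ u = 0)
    (hb0 : b ≠ 0) (hav : a ⬝ᵥ v ≠ 0) (hbv : b ⬝ᵥ v = 0) (hA : RootIn X u a) (hB : RootIn X u b) :
    u ∈ centres X := by
  classical
  intro φ hφ
  set d : Fin 3 → F := fun i => φ (Pi.single i 1) with hd
  have hφd : ∀ x, φ x = d ⬝ᵥ x := fun x => by
    conv_lhs => rw [pi_eq_sum_univ' x, map_sum]
    simp [dotProduct, hd, mul_comm]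
  have hli : LinearIndependent F ![a, b] := by
    rw [LinearIndependent.pair_iff]
    intro s t hst
    have hs : s = 0 := by
      have := congrArg (· ⬝ᵥ v) hst
      simpa [add_dotProduct, smul_dotProduct, hbv, hav] using this
    refine ⟨hs, ?_⟩
    simpa [hs, hb0] using hst
  let L : (Fin 3 → F) →ₗ[F] F := (dotProductBilin F F).flip u
  have hL : ∀ x, L x = x ⬝ᵥ u := fun x => rfl
  have hker : Module.finrank F (LinearMap.ker L) = 2 := by
    have h := L.finrank_range_add_finrank_ker
    rw [Module.finrank_pi] at h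
    have hne : L ≠ 0 := by
      intro h0
      obtain ⟨i, hi⟩ := Function.ne_iff.1 hu
      have := hL (Pi.single i 1)
      rw [h0] at this
      simp at this
      exact hi this.symm
    have hr : LinearMap.range L = ⊤ := by
      rcases eq_bot_or_eq_top (LinearMap.range L) with h' | h'
      · exact absurd (LinearMap.range_eq_bot.1 h') hne
      · exact h'
    rw [hr, finrank_top, Module.finrank_self, Fintype.card_fin] at h
    omega
  have hle : Submodule.span F (Set.range ![a, b]) ≤ LinearMap.ker L := by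
    rw [Submodule.span_le]
    rintro x ⟨i, rfl⟩
    fin_cases i
    · simpa [hL] using ha
    · simpa [hL] using hb
  have heq : Submodule.span F (Set.range ![a, b]) = LinearMap.ker L :=
    Submodule.eq_of_le_of_finrank_le hle (by rw [hker, finrank_span_eq_card hli]; simp)
  have hdk : d ∈ LinearMap.ker L := by
    rw [LinearMap.mem_ker, hL, ← hφd, hφ]
  rw [← heq, show Set.range ![a, b] = {a, b} from by simp [Matrix.range_cons, Set.pair_comm],
    Submodule.mem_span_pair] at hdk
  obtain ⟨s, t, hst⟩ := hdk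
  have := (hA s).add_right (hB t) (by rw [smul_dotProduct, ha, smul_zero])
  rw [hst] at this
  exact transv_mem_of_inM this φ hφd hφ

theorem add_mem_centres {u w : Fin 3 → F} (hu : u ∈ centres X) (hw : w ∈ centres X) :
    u + w ∈ centres X := by
  by_cases h : u ∈ Submodule.span F {w}
  · obtain ⟨c, rfl⟩ := Submodule.mem_span_singleton.1 h
    rw [show c • w + w = (c + 1) • w from by rw [add_smul, one_smul]]
    exact smul_mem_centres hw _
  obtain ⟨φ, hφu, hφ⟩ := exists_functional h
  have h0 : φ w = 0 := hφ w (Submodule.mem_span_singleton_self w)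
  have := mulVec_mem_centres hu (hw φ h0)
  rwa [transv_mulVec, hφu, one_smul] at this

/-- An irreducible group with one full centre contains `SL`. -/
theorem sl_le_of_centre (hirr : ActsIrreducibly (matrixSet X)) {u : Fin 3 → F} (hu : u ≠ 0)
    (h : u ∈ centres X) : specialLinear (Fin 3) F ≤ X := by
  let C : Submodule F (Fin 3 → F) :=
    { carrier := centres X
      add_mem' := fun hx hy => add_mem_centres hx hy
      zero_mem' := by simpa using smul_mem_centres h 0
      smul_mem' := fun c _ hx => smul_mem_centres hx c }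
  have hC : C = ⊤ := by
    refine (hirr C ?_).resolve_left fun hb => hu ?_
    · rintro _ ⟨g, hg, rfl⟩ _ ⟨x, hx, rfl⟩
      rw [Matrix.toLin'_apply]
      exact mulVec_mem_centres hx hg
    · have : u ∈ C := h
      rwa [hb, Submodule.mem_bot] at this
  exact specialLinear_le_of_transv_mem fun φ v hv => (show v ∈ C from hC ▸ Submodule.mem_top) φ hv

/-- Linear algebra: a functional vanishing on two spanning pieces. -/
theorem eq_smul_of_dot_zero {b c w x u : Fin 3 → F}
    (hspan : Submodule.span F ({u, w, x} : Set (Fin 3 → F)) = ⊤) (hbu : b ⬝ᵥ u ≠ 0)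
    (hbw : b ⬝ᵥ w = 0) (hbx : b ⬝ᵥ x = 0) (hcw : c ⬝ᵥ w = 0) (hcx : c ⬝ᵥ x = 0) :
    c = ((c ⬝ᵥ u) / (b ⬝ᵥ u)) • b := by
  set k := (c ⬝ᵥ u) / (b ⬝ᵥ u)
  have h0 : ∀ y ∈ Submodule.span F ({u, w, x} : Set (Fin 3 → F)), (c - k • b) ⬝ᵥ y = 0 := by
    intro y hy
    induction hy using Submodule.span_induction with
    | mem y hy =>
      rcases hy with rfl | rfl | rfl
      · rw [sub_dotProduct, smul_dotProduct, smul_eq_mul, div_mul_cancel₀ _ hbu, sub_self]
      · simp [sub_dotProduct, smul_dotProduct, hbw, hcw]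
      · simp [sub_dotProduct, smul_dotProduct, hbx, hcx]
    | zero => simp
    | add _ _ _ _ h h' => simp [dotProduct_add, h, h']
    | smul _ _ _ h => simp [dotProduct_smul, h]
  have h1 : c - k • b = 0 := dotProduct_eq_zero _ fun y => h0 y (hspan ▸ Submodule.mem_top)
  exact sub_eq_zero.1 h1

theorem span_triple_top {u w x : Fin 3 → F} (hu : u ≠ 0) (hw : w ∉ Submodule.span F {u})
    (hx : x ∉ Submodule.span F {u, w}) :
    Submodule.span F ({u, w, x} : Set (Fin 3 → F)) = ⊤ := by
  have h2 : LinearIndependent F ![w, u] := by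
    rw [LinearIndependent.pair_iff]
    intro s t hst
    have hs : s = 0 := by
      by_contra hs
      refine hw (Submodule.mem_span_singleton.2 ⟨-t / s, ?_⟩)
      have : s • w = -(t • u) := eq_neg_of_add_eq_zero_left hst
      rw [div_eq_inv_mul, mul_smul, neg_smul, ← this, smul_smul, inv_mul_cancel₀ hs, one_smul]
    subst hs
    simpa [hu] using hst
  have h3 : LinearIndependent F ![x, w, u] := by
    rw [show ![x, w, u] = Matrix.vecCons x ![w, u] from rfl]
    exact linearIndependent_finCons.2 ⟨h2, by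
      rwa [show Set.range ![w, u] = {u, w} from by simp [Matrix.range_cons, Set.pair_comm]]⟩
  have h4 := h3.span_eq_top_of_card_eq_finrank (by simp)
  rw [← h4]
  congr 1
  ext y
  simp [Matrix.range_cons]

/-- The main step of `sl_le_of_root`, after normalising. -/
theorem centre_of_triple {u a w b x c : Fin 3 → F} (hA : RootIn X u a) (hB : RootIn X w b)
    (hC : RootIn X x c) (ha : a ⬝ᵥ u = 0) (hb : b ⬝ᵥ w = 0) (hc : c ⬝ᵥ x = 0) (haw : a ⬝ᵥ w ≠ 0)
    (hbu : b ⬝ᵥ u ≠ 0) (hc0 : c ≠ 0) (hspan : Submodule.span F ({u, w, x} : Set (Fin 3 → F)) = ⊤)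
    (hax : a ⬝ᵥ x ≠ 0) (hbx : b ⬝ᵥ x = 0) : ∃ y, y ≠ 0 ∧ y ∈ centres X := by
  have hx : x ≠ 0 := fun h => hax (by rw [h, dotProduct_zero])
  have hb0 : b ≠ 0 := fun h => hbu (by rw [h, zero_dotProduct])
  by_cases hcw : c ⬝ᵥ w = 0
  · have hk := eq_smul_of_dot_zero hspan hbu hb hbx hcw hc
    set k := (c ⬝ᵥ u) / (b ⬝ᵥ u)
    have hk0 : k ≠ 0 := fun h => hc0 (by rw [hk, h, zero_smul])
    have hxb : RootIn X x b := fun t => by
      have := hC (t / k)
      rwa [hk, smul_smul, div_mul_cancel₀ _ hk0] at this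
    set y := (a ⬝ᵥ x) • w - (a ⬝ᵥ w) • x with hy
    have hyB : RootIn X y b := fun t => by
      refine (hB (t * (a ⬝ᵥ x))).mul (hxb (t * (-(a ⬝ᵥ w)))) ?_ ?_
      · rw [smul_dotProduct, hbx, smul_zero]
      · rw [hy]
        ext i j
        simp [vecMulVec_apply]
        ring
    have hay : a ⬝ᵥ y = 0 := by simp [hy, dotProduct_sub, dotProduct_smul]; ring
    have hby : b ⬝ᵥ y = 0 := by simp [hy, dotProduct_sub, dotProduct_smul, hb, hbx]
    have hyA : RootIn X y a := hyB.comm hA hby ha hay hbu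
    have hy0 : y ≠ 0 := by
      intro h
      have hwx : w = ((a ⬝ᵥ w) / (a ⬝ᵥ x)) • x := by
        rw [div_eq_inv_mul, mul_smul, ← sub_eq_zero.1 h, smul_smul, inv_mul_cancel₀ hax, one_smul]
      have hle : Submodule.span F ({u, w, x} : Set (Fin 3 → F)) ≤ Submodule.span F (Set.range ![u, x]) := by
        rw [Submodule.span_le]
        rintro v (rfl | rfl | rfl)
        · exact Submodule.subset_span ⟨0, rfl⟩
        · rw [hwx]; exact Submodule.smul_mem _ _ (Submodule.subset_span ⟨1, rfl⟩)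
        · exact Submodule.subset_span ⟨1, rfl⟩
      rw [hspan, top_le_iff] at hle
      have h3 := finrank_range_le_card (R := F) ![u, x]
      rw [Set.finrank, hle, finrank_top, Module.finrank_pi, Fintype.card_fin, Fintype.card_fin] at h3
      omega
    exact ⟨y, hy0, mem_centres_of_two hy0 hay hby hb0 haw hb hyA hyB⟩
  · have hxB : RootIn X x b := hC.comm hB hc hb hbx hcw
    exact ⟨x, hx, mem_centres_of_two hx hc hbx hb0 hcw hb hC hxB⟩

/-- An irreducible group containing a full root group contains `SL`. -/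
theorem sl_le_of_root (hirr : ActsIrreducibly (matrixSet X)) {u a : Fin 3 → F} (hu : u ≠ 0)
    (ha0 : a ≠ 0) (ha : a ⬝ᵥ u = 0) (hA : RootIn X u a) : specialLinear (Fin 3) F ≤ X := by
  classical
  suffices h : ∃ y, y ≠ 0 ∧ y ∈ centres X by
    obtain ⟨y, hy0, hy⟩ := h
    exact sl_le_of_centre hirr hy0 hy
  let O : Submodule F (Fin 3 → F) :=
    Submodule.span F (Set.range fun g : X => ((g : GL (Fin 3) F) : Matrix (Fin 3) (Fin 3) F) *ᵥ u)
  have hO : O = ⊤ := by
    refine (hirr O ?_).resolve_left fun hb => hu ?_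
    · rintro _ ⟨g, hg, rfl⟩
      rw [Submodule.map_span, Submodule.span_le]
      rintro _ ⟨_, ⟨k, rfl⟩, rfl⟩
      refine Submodule.subset_span ⟨⟨g * k, mul_mem hg k.2⟩, ?_⟩
      simp [Matrix.mulVec_mulVec]
    · have : u ∈ O := Submodule.subset_span ⟨1, by simp⟩
      rwa [hb, Submodule.mem_bot] at this
  have hex : ∀ P : Submodule F (Fin 3 → F), P ≠ ⊤ → ∃ g ∈ X,
      (g : Matrix (Fin 3) (Fin 3) F) *ᵥ u ∉ P := by
    intro P hP
    by_contra hcon
    push Not at hcon
    refine hP (top_le_iff.1 (hO ▸ Submodule.span_le.2 ?_))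
    rintro _ ⟨g, rfl⟩
    exact hcon g g.2
  obtain ⟨g, hg, hgw⟩ := hex (LinearMap.ker (dotProductBilin F F a)) fun h => ha0 (dotProduct_eq_zero _ fun v => by
      have : v ∈ LinearMap.ker (dotProductBilin F F a) := h ▸ Submodule.mem_top
      simpa using this)
  set w := (g : Matrix (Fin 3) (Fin 3) F) *ᵥ u with hw
  set b := a ᵥ* ((g⁻¹ : GL (Fin 3) F) : Matrix (Fin 3) (Fin 3) F) with hb'
  have haw : a ⬝ᵥ w ≠ 0 := by simpa using hgw
  have hB : RootIn X w b := hA.conj hg
  have hb : b ⬝ᵥ w = 0 := by rw [hb', hw, dot_conj, ha]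
  have hb0 : b ≠ 0 := fun h => ha0 (dotProduct_eq_zero _ fun v => by
    rw [← dot_conj g a v, ← hb', h, zero_dotProduct])
  by_cases hbu : b ⬝ᵥ u = 0
  · exact ⟨u, hu, mem_centres_of_two hu ha hbu hb0 haw hb hA (hA.comm hB ha hb hbu haw)⟩
  have hwu : w ∉ Submodule.span F {u} := fun h => by
    obtain ⟨t, ht⟩ := Submodule.mem_span_singleton.1 h
    exact haw (by rw [← ht, dotProduct_smul, ha, smul_zero])
  obtain ⟨g', hg', hx⟩ := hex (Submodule.span F {u, w}) fun h => by
    have h2 := finrank_range_le_card (R := F) ![u, w]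
    rw [Set.finrank, show Set.range ![u, w] = {u, w} from by simp [Matrix.range_cons, Set.pair_comm],
      h, finrank_top, Module.finrank_pi, Fintype.card_fin, Fintype.card_fin] at h2
    omega
  set x := (g' : Matrix (Fin 3) (Fin 3) F) *ᵥ u with hxdef
  set c := a ᵥ* ((g'⁻¹ : GL (Fin 3) F) : Matrix (Fin 3) (Fin 3) F) with hcdef
  have hC : RootIn X x c := hA.conj hg'
  have hc : c ⬝ᵥ x = 0 := by rw [hcdef, hxdef, dot_conj, ha]
  have hc0 : c ≠ 0 := fun h => ha0 (dotProduct_eq_zero _ fun v => by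
    rw [← dot_conj g' a v, ← hcdef, h, zero_dotProduct])
  have hspan := span_triple_top hu hwu hx
  by_cases hax : a ⬝ᵥ x = 0
  · by_cases hbx : b ⬝ᵥ x = 0
    · have hx0 : x ≠ 0 := fun h => hx (h ▸ zero_mem _)
      by_cases hcu : c ⬝ᵥ u = 0
      · have hcw : c ⬝ᵥ w ≠ 0 := by
          intro hcw
          refine hc0 (dotProduct_eq_zero _ fun y => ?_)
          have hy : y ∈ Submodule.span F ({u, w, x} : Set (Fin 3 → F)) := hspan ▸ Submodule.mem_top
          induction hy using Submodule.span_induction with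
          | mem y hy => rcases hy with rfl | rfl | rfl <;> assumption
          | zero => simp
          | add _ _ _ _ h h' => simp [dotProduct_add, h, h']
          | smul _ _ _ h => simp [dotProduct_smul, h]
        exact ⟨x, hx0, mem_centres_of_two hx0 hbx hc hc0 hbu hcu (hC.comm hB hc hb hbx hcw) hC⟩
      · have hxA : RootIn X x a := hC.comm hA hc ha hax hcu
        by_cases hcw : c ⬝ᵥ w = 0
        · exact ⟨x, hx0, mem_centres_of_two hx0 hax hc hc0 haw hcw hxA hC⟩
        · exact ⟨x, hx0, mem_centres_of_two hx0 hax hbx hb0 haw hb hxA (hC.comm hB hc hb hbx hcw)⟩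
    · -- symmetric to the main step, roles of the two pairs exchanged
      exact centre_of_triple hB hA hC hb ha hc hbu haw hc0
        (by rw [Set.insert_comm]; exact hspan) hbx hax
  · obtain ⟨T, hT, eT⟩ := hA (-(b ⬝ᵥ x) / ((a ⬝ᵥ x) * (b ⬝ᵥ u)))
    set t := -(b ⬝ᵥ x) / ((a ⬝ᵥ x) * (b ⬝ᵥ u)) with ht
    set x' := (T : Matrix (Fin 3) (Fin 3) F) *ᵥ x with hx'
    set c' := c ᵥ* ((T⁻¹ : GL (Fin 3) F) : Matrix (Fin 3) (Fin 3) F) with hc'
    have ex : x' = x + (t * (a ⬝ᵥ x)) • u := by
      rw [hx', eT, Matrix.add_mulVec, Matrix.one_mulVec, Matrix.vecMulVec_mulVec, smul_dotProduct,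
        op_smul_eq_smul, smul_eq_mul]
    refine centre_of_triple (x := x') (c := c') hA hB (hC.conj hT) ha hb (by rw [hc', hx', dot_conj, hc]) haw hbu
      (fun h => hc0 (dotProduct_eq_zero _ fun v => by rw [← dot_conj T c v, ← hc', h, zero_dotProduct]))
      ?_ ?_ ?_
    · refine span_triple_top hu hwu fun h => hx ?_
      have := sub_mem h (Submodule.smul_mem _ (t * (a ⬝ᵥ x))
        (Submodule.subset_span (Set.mem_insert u {w})))
      rwa [ex, add_sub_cancel_right] at this
    · rw [ex, dotProduct_add, dotProduct_smul, ha, smul_zero, add_zero]; exact hax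
    · rw [ex, dotProduct_add, dotProduct_smul, smul_eq_mul, ht]
      field_simp
      ring

end Cfsg.Agent.SLThree
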