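import Cfsg.Agent.SLThree.SympStd

/-!
The standard group `3^{1+2}` of `GL₃(F)` and the shape of its normaliser in `SL₃(F)`.
-/

set_option autoImplicit false
set_option linter.unusedSectionVars false

namespace Cfsg.Agent.SLThree.Symp

open Matrix
open scoped MatrixGroups

variable {F : Type*} [Field F] [Finite F] (R : Root3 F)

namespace Root3

/-- The element `ω^a X^b Y^c`. -/
def el (a b c : ℕ) : GL (Fin 3) F := R.gZ ^ a * (R.gX ^ b * gY ^ c)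

theorem zpow_comm (a : ℕ) (g : GL (Fin 3) F) : R.gZ ^ a * g = g * R.gZ ^ a :=
  ((show Commute R.gZ g from R.gZ_comm g).pow_left a).eq

theorem gY_gX_pow (c b : ℕ) : gY ^ c * R.gX ^ b = R.gZ ^ (2 * (c * b)) * (R.gX ^ b * gY ^ c) := by
  have h1 : ∀ b, gY * R.gX ^ b = R.gZ ^ (2 * b) * (R.gX ^ b * gY) := by
    intro b
    induction b with
    | zero => simp
    | succ b ih =>
      rw [pow_succ R.gX b, ← mul_assoc, ih, mul_assoc, mul_assoc, R.gY_gX, ← mul_assoc (R.gX ^ b),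
        ← R.zpow_comm 2 (R.gX ^ b), Nat.mul_succ, pow_add]
      group
  induction c with
  | zero => simp
  | succ c ih =>
    rw [pow_succ' gY c, mul_assoc, ih, ← mul_assoc, ← R.zpow_comm, mul_assoc, ← mul_assoc gY, h1,
      show 2 * ((c + 1) * b) = 2 * (c * b) + 2 * b by ring, pow_add]
    group

theorem el_mul (a b c a' b' c' : ℕ) :
    R.el a b c * R.el a' b' c' = R.el (a + a' + 2 * (c * b')) (b + b') (c + c') := by
  unfold el
  calc R.gZ ^ a * (R.gX ^ b * gY ^ c) * (R.gZ ^ a' * (R.gX ^ b' * gY ^ c'))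
      = R.gZ ^ a * (R.gX ^ b * gY ^ c * R.gZ ^ a') * (R.gX ^ b' * gY ^ c') := by group
    _ = R.gZ ^ a * R.gZ ^ a' * (R.gX ^ b * (gY ^ c * R.gX ^ b') * gY ^ c') := by
        rw [← R.zpow_comm a' (R.gX ^ b * gY ^ c)]; group
    _ = R.gZ ^ a * R.gZ ^ a' * ((R.gX ^ b * R.gZ ^ (2 * (c * b'))) * (R.gX ^ b' * gY ^ c) * gY ^ c') := by
        rw [R.gY_gX_pow]; group
    _ = _ := by
        rw [← R.zpow_comm (2 * (c * b')) (R.gX ^ b), pow_add R.gZ, pow_add R.gZ, pow_add R.gX,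
          pow_add gY]
        group

theorem el_mod (a b c : ℕ) : R.el a b c = R.el (a % 3) (b % 3) (c % 3) := by
  have key : ∀ {g : GL (Fin 3) F}, g ^ 3 = 1 → ∀ n, g ^ n = g ^ (n % 3) := fun {g} h n => by
    conv_lhs => rw [← Nat.div_add_mod n 3, pow_add, pow_mul, h, one_pow, one_mul]
  rw [el, el, key R.gZ_cube a, key R.gX_cube b, key gY_cube c]

/-- The standard group `3^{1+2}`. -/
def Rs : Subgroup (GL (Fin 3) F) where
  carrier := {g | ∃ a b c, g = R.el a b c}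
  one_mem' := ⟨0, 0, 0, by simp [el]⟩
  mul_mem' := by
    rintro _ _ ⟨a, b, c, rfl⟩ ⟨a', b', c', rfl⟩
    exact ⟨_, _, _, R.el_mul a b c a' b' c'⟩
  inv_mem' := by
    rintro g ⟨a, b, c, rfl⟩
    have hp : ∀ n, ∃ a' b' c', R.el a b c ^ n = R.el a' b' c' := by
      intro n
      induction n with
      | zero => exact ⟨0, 0, 0, by simp [el]⟩
      | succ n ih =>
        obtain ⟨a', b', c', h⟩ := ih
        exact ⟨_, _, _, by rw [pow_succ, h]; exact R.el_mul a' b' c' a b c⟩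
    have hinv : (R.el a b c)⁻¹ = R.el a b c ^ (orderOf (R.el a b c) - 1) :=
      inv_eq_of_mul_eq_one_right (by
        rw [← pow_succ', Nat.sub_add_cancel (orderOf_pos _), pow_orderOf_eq_one])
    show ∃ a' b' c', (R.el a b c)⁻¹ = R.el a' b' c'
    rw [hinv]
    exact hp _

theorem mem_Rs {g : GL (Fin 3) F} : g ∈ R.Rs ↔ ∃ a b c, g = R.el a b c := Iff.rfl
theorem el_mem (a b c : ℕ) : R.el a b c ∈ R.Rs := ⟨a, b, c, rfl⟩
theorem gX_mem : R.gX ∈ R.Rs := ⟨0, 1, 0, by simp [el]⟩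
theorem gY_mem : gY ∈ R.Rs := ⟨0, 0, 1, by simp [el]⟩
theorem gZ_mem : R.gZ ∈ R.Rs := ⟨1, 0, 0, by simp [el]⟩

theorem val_el (a b c : ℕ) : (R.el a b c : Matrix (Fin 3) (Fin 3) F) =
    R.ω ^ a • (R.xM ^ b * yM ^ c) := by
  rw [el, Units.val_mul, R.gZ_pow_val, Matrix.smul_mul, one_mul, Units.val_mul,
    Units.val_pow_eq_pow_val, Units.val_pow_eq_pow_val, val_gX, val_gY]

theorem det_gZ : Matrix.det (R.gZ : Matrix (Fin 3) (Fin 3) F) = 1 := by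
  rw [val_gZ, Matrix.det_smul]; simp [R.cube]

theorem det_gX : Matrix.det (R.gX : Matrix (Fin 3) (Fin 3) F) = 1 := by
  simp [val_gX, xM, Matrix.det_fin_three]; linear_combination R.cube

theorem det_gY : Matrix.det ((gY : GL (Fin 3) F) : Matrix (Fin 3) (Fin 3) F) = 1 := by
  simp [val_gY, yM, Matrix.det_fin_three]

/-- Every element of the group is scalar or has trace zero. -/
theorem scalar_or_trace {g : GL (Fin 3) F} (hg : g ∈ R.Rs) :
    (∃ a, g = R.gZ ^ a) ∨ Matrix.trace (g : Matrix (Fin 3) (Fin 3) F) = 0 := by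
  obtain ⟨a, b, c, rfl⟩ := hg
  rw [R.el_mod]
  have hb : b % 3 < 3 := Nat.mod_lt _ (by norm_num)
  have hc : c % 3 < 3 := Nat.mod_lt _ (by norm_num)
  generalize b % 3 = b' at hb
  generalize c % 3 = c' at hc
  interval_cases b' <;> interval_cases c'
  · exact Or.inl ⟨a % 3, by simp [el]⟩
  all_goals refine Or.inr ?_
  all_goals rw [val_el, Matrix.trace_smul]
  all_goals simp [Matrix.trace_fin_three, xM, yM, pow_two, Matrix.mul_apply, Fin.sum_univ_three]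
  all_goals refine Or.inr ?_
  all_goals first | linear_combination R.eq | linear_combination (R.ω ^ 2 - R.ω + 1) * R.eq

theorem not_trace_scalar (a : ℕ) :
    Matrix.trace ((R.gZ ^ a : GL (Fin 3) F) : Matrix (Fin 3) (Fin 3) F) ≠ 0 := by
  rw [gZ_pow_val, Matrix.trace_smul, Matrix.trace_one]
  simp [R.ne_zero, R.three]

/-- The exponents modulo three of a noncentral element. -/
theorem exists_el_of_not_scalar {g : GL (Fin 3) F} (hg : g ∈ R.Rs) (hs : ∀ a, g ≠ R.gZ ^ a) :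
    ∃ a b c, b < 3 ∧ c < 3 ∧ (b ≠ 0 ∨ c ≠ 0) ∧ g = R.el a b c := by
  obtain ⟨a, b, c, rfl⟩ := hg
  refine ⟨a % 3, b % 3, c % 3, Nat.mod_lt _ (by norm_num), Nat.mod_lt _ (by norm_num), ?_,
    R.el_mod a b c⟩
  by_contra hcon
  push Not at hcon
  exact hs (a % 3) (by rw [R.el_mod, hcon.1, hcon.2]; simp [el])

theorem cube_eq_one {g : GL (Fin 3) F} (hg : g ∈ R.Rs) : g ^ 3 = 1 := by
  obtain ⟨a, b, c, rfl⟩ := hg
  rw [pow_succ, pow_two, R.el_mul, R.el_mul, R.el_mod]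
  have e1 : (a + a + 2 * (c * b) + a + 2 * ((c + c) * b)) % 3 = 0 := by
    rw [show a + a + 2 * (c * b) + a + 2 * ((c + c) * b) = 3 * (a + 2 * (c * b)) by ring]
    exact Nat.mul_mod_right 3 _
  rw [e1, show (b + b + b) % 3 = 0 by omega, show (c + c + c) % 3 = 0 by omega]
  simp [el]

/-! ### the normalisers -/

theorem map_conj_mem {w : GL (Fin 3) F} (hX : w * R.gX * w⁻¹ ∈ R.Rs) (hY : w * gY * w⁻¹ ∈ R.Rs)
    {g : GL (Fin 3) F} (hg : g ∈ R.Rs) : w * g * w⁻¹ ∈ R.Rs := by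
  obtain ⟨a, b, c, rfl⟩ := hg
  rw [el, ← mul_assoc w, ← R.zpow_comm a w, show R.gZ ^ a * w * (R.gX ^ b * gY ^ c) * w⁻¹ =
    R.gZ ^ a * ((w * R.gX * w⁻¹) ^ b * (w * gY * w⁻¹) ^ c) by rw [conj_pow, conj_pow]; group]
  exact mul_mem (pow_mem R.gZ_mem a) (mul_mem (pow_mem hX b) (pow_mem hY c))

theorem conj_gW₁_X : R.gW₁ * R.gX * R.gW₁⁻¹ = gY ^ 2 := by
  rw [R.gW₁_gX, mul_inv_cancel_right]

theorem conj_gW₁_Y : R.gW₁ * gY * R.gW₁⁻¹ = R.gX := by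
  rw [R.gW₁_gY, mul_inv_cancel_right]

theorem conj_gT_X : R.gT * R.gX * R.gT⁻¹ = R.gX := by
  rw [R.gT_gX, mul_inv_cancel_right]

theorem conj_gT_Y : R.gT * gY * R.gT⁻¹ = R.el 2 2 1 := by
  rw [R.gT_gY, mul_inv_cancel_right, el, pow_one]

theorem conj_gW₁_mem {g : GL (Fin 3) F} (hg : g ∈ R.Rs) : R.gW₁ * g * R.gW₁⁻¹ ∈ R.Rs :=
  R.map_conj_mem (by rw [conj_gW₁_X]; exact pow_mem R.gY_mem 2) (by rw [conj_gW₁_Y]; exact R.gX_mem) hg

theorem conj_gT_mem {g : GL (Fin 3) F} (hg : g ∈ R.Rs) : R.gT * g * R.gT⁻¹ ∈ R.Rs :=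
  R.map_conj_mem (by rw [conj_gT_X]; exact R.gX_mem) (by rw [conj_gT_Y]; exact R.el_mem _ _ _) hg

theorem mem_normalizer_of_conj {w : GL (Fin 3) F}
    (h : ∀ g ∈ R.Rs, w * g * w⁻¹ ∈ R.Rs) : w ∈ Subgroup.normalizer (R.Rs : Set (GL (Fin 3) F)) := by
  classical
  have hpow : ∀ n : ℕ, ∀ g ∈ R.Rs, w ^ n * g * (w ^ n)⁻¹ ∈ R.Rs := by
    intro n
    induction n with
    | zero => simp
    | succ n ih =>
      intro g hg
      have := h _ (ih g hg)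
      rwa [show w * (w ^ n * g * (w ^ n)⁻¹) * w⁻¹ = w ^ (n + 1) * g * (w ^ (n + 1))⁻¹ by
        rw [pow_succ']; group] at this
  rw [Subgroup.mem_normalizer_iff]
  refine fun g => ⟨h g, fun hg => ?_⟩
  have h2 := hpow (orderOf w - 1) _ hg
  rwa [show w ^ (orderOf w - 1) = w⁻¹ from eq_inv_of_mul_eq_one_left (by
    rw [← pow_succ, Nat.sub_add_cancel (orderOf_pos _), pow_orderOf_eq_one]),
    show w⁻¹ * (w * g * w⁻¹) * (w⁻¹)⁻¹ = g by group] at h2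

theorem gW₁_normalizer : R.gW₁ ∈ Subgroup.normalizer (R.Rs : Set (GL (Fin 3) F)) :=
  R.mem_normalizer_of_conj fun _ => R.conj_gW₁_mem

theorem gT_normalizer : R.gT ∈ Subgroup.normalizer (R.Rs : Set (GL (Fin 3) F)) :=
  R.mem_normalizer_of_conj fun _ => R.conj_gT_mem

theorem gW₂_normalizer : R.gW₂ ∈ Subgroup.normalizer (R.Rs : Set (GL (Fin 3) F)) :=
  mul_mem (mul_mem R.gT_normalizer R.gW₁_normalizer) (inv_mem R.gT_normalizer)

/-- The quaternion group `⟨W₁, W₂⟩`. -/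
def Qs : Subgroup (GL (Fin 3) F) := Subgroup.closure {R.gW₁, R.gW₂}

theorem gW₁_mem_Qs : R.gW₁ ∈ R.Qs := Subgroup.subset_closure (Set.mem_insert _ _)
theorem gW₂_mem_Qs : R.gW₂ ∈ R.Qs := Subgroup.subset_closure (Set.mem_insert_of_mem _ rfl)
theorem gH_mem_Qs : gH ∈ R.Qs := R.gW₁_sq ▸ mul_mem R.gW₁_mem_Qs R.gW₁_mem_Qs

theorem Qs_le_normalizer : R.Qs ≤ Subgroup.normalizer (R.Rs : Set (GL (Fin 3) F)) := by
  rw [Qs, Subgroup.closure_le]
  rintro g (rfl | rfl)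
  exacts [R.gW₁_normalizer, R.gW₂_normalizer]

theorem conj_gH_X : gH * R.gX * (gH : GL (Fin 3) F)⁻¹ = R.gX ^ 2 := by
  rw [← R.gW₁_sq, show R.gW₁ * R.gW₁ * R.gX * (R.gW₁ * R.gW₁)⁻¹ =
    R.gW₁ * (R.gW₁ * R.gX * R.gW₁⁻¹) * R.gW₁⁻¹ by group, conj_gW₁_X, ← conj_pow, conj_gW₁_Y]

theorem conj_gW₂_Y : R.gW₂ * R.el 2 2 1 * R.gW₂⁻¹ = R.gX := by
  rw [← conj_gT_Y, gW₂, show R.gT * R.gW₁ * R.gT⁻¹ * (R.gT * gY * R.gT⁻¹) *
    (R.gT * R.gW₁ * R.gT⁻¹)⁻¹ = R.gT * (R.gW₁ * gY * R.gW₁⁻¹) * R.gT⁻¹ by group,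
    conj_gW₁_Y, conj_gT_X]

theorem conj_gW₂_X : R.gW₂ * R.gX * R.gW₂⁻¹ = R.el 2 2 1 ^ 2 := by
  conv_lhs => rw [← conj_gT_X, gW₂]
  rw [show R.gT * R.gW₁ * R.gT⁻¹ * (R.gT * R.gX * R.gT⁻¹) * (R.gT * R.gW₁ * R.gT⁻¹)⁻¹ =
    R.gT * (R.gW₁ * R.gX * R.gW₁⁻¹) * R.gT⁻¹ by group, conj_gW₁_X, ← conj_pow, conj_gT_Y]

/-- `Q` is transitive on the eight noncentral cosets. -/
theorem exists_Qs_conj {b c : ℕ} (hb : b < 3) (hc : c < 3) (hbc : b ≠ 0 ∨ c ≠ 0) :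
    ∃ q ∈ R.Qs, q ^ 4 = 1 ∧ ∃ k, q * R.gX * q⁻¹ = R.el k b c := by
  have h4 : ∀ {q : GL (Fin 3) F}, q * q = gH → q ^ 4 = 1 := fun {q} h => by
    rw [show q ^ 4 = (q * q) * (q * q) by simp [pow_succ, mul_assoc], h, gH_sq]
  have h4' : ∀ {q : GL (Fin 3) F}, q * q = gH → gH * q = q * gH → (gH * q) * (gH * q) = gH :=
    fun {q} h hc' => by
      rw [show gH * q * (gH * q) = gH * (q * gH) * q by group, ← hc', ← mul_assoc gH gH, gH_sq,
        one_mul, h]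
  have h12 : (R.gW₁ * R.gW₂) * (R.gW₁ * R.gW₂) = gH := by
    rw [show R.gW₁ * R.gW₂ * (R.gW₁ * R.gW₂) = R.gW₁ * R.gW₂ * R.gW₁ * R.gW₂ by group]
    nth_rw 1 [R.gW₁_gW₂]
    rw [show gH * (R.gW₂ * R.gW₁) * R.gW₁ * R.gW₂ = gH * (R.gW₂ * (R.gW₁ * R.gW₁) * R.gW₂) by group,
      R.gW₁_sq, ← R.gH_gW₂, mul_assoc gH R.gW₂ R.gW₂, R.gW₂_sq, gH_sq, mul_one]
  have hH12 : gH * (R.gW₁ * R.gW₂) = R.gW₁ * R.gW₂ * gH := by
    rw [← mul_assoc, R.gH_gW₁, mul_assoc, R.gH_gW₂, mul_assoc]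
  have eW1 : R.gW₁ * R.gX * R.gW₁⁻¹ = R.el 0 0 2 := by rw [conj_gW₁_X]; simp [el]
  have eW2 : R.gW₂ * R.gX * R.gW₂⁻¹ = R.el (2 + 2 + 2 * (1 * 2)) 4 2 := by
    rw [conj_gW₂_X, pow_two, el_mul]
  have eH : ∀ {q : GL (Fin 3) F} {k b c : ℕ}, gH * q = q * gH → q * R.gX * q⁻¹ = R.el k b c →
      ∃ k', gH * q * R.gX * (gH * q)⁻¹ = R.el k' (b + b) (c + c) := by
    intro q k b c hc' h
    refine ⟨k + k + 2 * (c * b), ?_⟩
    rw [hc', show q * gH * R.gX * (q * gH)⁻¹ = q * (gH * R.gX * gH⁻¹) * q⁻¹ by group, conj_gH_X,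
      ← conj_pow, h, pow_two, el_mul]
  have e12 : R.gW₁ * R.gW₂ * R.gX * (R.gW₁ * R.gW₂)⁻¹ = R.el (8 + 2 * (4 * 2 * 2)) 2 (4 * 2) := by
    rw [show R.gW₁ * R.gW₂ * R.gX * (R.gW₁ * R.gW₂)⁻¹ =
      R.gW₁ * (R.gW₂ * R.gX * R.gW₂⁻¹) * R.gW₁⁻¹ by group, eW2, el, el, ← mul_assoc R.gW₁,
      ← R.zpow_comm, show R.gZ ^ (2 + 2 + 2 * (1 * 2)) * R.gW₁ * (R.gX ^ 4 * gY ^ 2) * R.gW₁⁻¹ =
        R.gZ ^ (2 + 2 + 2 * (1 * 2)) * ((R.gW₁ * R.gX * R.gW₁⁻¹) ^ 4 * (R.gW₁ * gY * R.gW₁⁻¹) ^ 2) by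
        rw [conj_pow, conj_pow]; group, conj_gW₁_X, conj_gW₁_Y, ← pow_mul, R.gY_gX_pow,
      ← mul_assoc (R.gZ ^ _) (R.gZ ^ _), ← pow_add]
  have pick : ∀ {q : GL (Fin 3) F} {k b' c' : ℕ}, q ∈ R.Qs → q ^ 4 = 1 →
      q * R.gX * q⁻¹ = R.el k b' c' → b' % 3 = b → c' % 3 = c →
      ∃ q ∈ R.Qs, q ^ 4 = 1 ∧ ∃ k, q * R.gX * q⁻¹ = R.el k b c := by
    intro q k b' c' h1 h2 h3 hb' hc'
    exact ⟨q, h1, h2, k % 3, by rw [h3, R.el_mod, hb', hc']⟩
  have pickH : ∀ {q : GL (Fin 3) F} {k b' c' : ℕ}, q ∈ R.Qs → q * q = gH → gH * q = q * gH →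
      q * R.gX * q⁻¹ = R.el k b' c' → (b' + b') % 3 = b → (c' + c') % 3 = c →
      ∃ q ∈ R.Qs, q ^ 4 = 1 ∧ ∃ k, q * R.gX * q⁻¹ = R.el k b c := by
    intro q k b' c' h1 h2 h2' h3 hb' hc'
    obtain ⟨k', hk'⟩ := eH h2' h3
    exact pick (mul_mem R.gH_mem_Qs h1) (h4 (h4' h2 h2')) hk' hb' hc'
  interval_cases b <;> interval_cases c
  · simp at hbc
  · exact pickH R.gW₁_mem_Qs R.gW₁_sq R.gH_gW₁ eW1 (by norm_num) (by norm_num)
  · exact pick R.gW₁_mem_Qs (h4 R.gW₁_sq) eW1 (by norm_num) (by norm_num)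
  · exact ⟨1, one_mem _, one_pow 4, 0, by simp [el]⟩
  · exact pickH (mul_mem R.gW₁_mem_Qs R.gW₂_mem_Qs) h12 hH12 e12 (by norm_num) (by norm_num)
  · exact pick R.gW₂_mem_Qs (h4 R.gW₂_sq) eW2 (by norm_num) (by norm_num)
  · exact ⟨gH, R.gH_mem_Qs, by rw [show (4 : ℕ) = 2 * 2 from rfl, pow_mul, pow_two gH, gH_sq, one_pow],
      0, by rw [conj_gH_X]; simp [el]⟩
  · exact pickH R.gW₂_mem_Qs R.gW₂_sq R.gH_gW₂ eW2 (by norm_num) (by norm_num)
  · exact pick (mul_mem R.gW₁_mem_Qs R.gW₂_mem_Qs) (h4 h12) e12 (by norm_num) (by norm_num)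

theorem det_Qs_gen : Matrix.det (R.gW₁ : Matrix (Fin 3) (Fin 3) F) = 1 ∧
    Matrix.det (R.gW₂ : Matrix (Fin 3) (Fin 3) F) = 1 := by
  have h1 : Matrix.det (R.gW₁ : Matrix (Fin 3) (Fin 3) F) = 1 := by
    have hr3 : 3 * R.r ^ 2 = -1 := R.r_sq
    have hr : 3 * R.r = -(R.ω - R.ω ^ 2) := by rw [r]; field_simp [R.three]
    simp [val_gW₁, w₁M, Matrix.det_fin_three]
    linear_combination (-3 * R.r ^ 3) * hr + (3 * R.r ^ 2 - 1) * hr3 - R.r ^ 3 * R.ω * R.cube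
  refine ⟨h1, ?_⟩
  simp only [gW₂, Units.val_mul, Matrix.det_mul, h1, mul_one]
  rw [← Matrix.det_mul, ← Units.val_mul, mul_inv_cancel, Units.val_one, Matrix.det_one]

theorem det_Qs {q : GL (Fin 3) F} (hq : q ∈ R.Qs) : Matrix.det (q : Matrix (Fin 3) (Fin 3) F) = 1 := by
  unfold Qs at hq
  induction hq using Subgroup.closure_induction with
  | mem g hg => rcases hg with rfl | rfl; exacts [R.det_Qs_gen.1, R.det_Qs_gen.2]
  | one => simp
  | mul a b _ _ ha hb => rw [Units.val_mul, Matrix.det_mul, ha, hb, one_mul]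
  | inv a _ ha =>
    have : ((a : GL (Fin 3) F) : Matrix (Fin 3) (Fin 3) F).det * ((a⁻¹ : GL (Fin 3) F) : Matrix (Fin 3) (Fin 3) F).det = 1 := by
      rw [← Matrix.det_mul, ← Units.val_mul, mul_inv_cancel, Units.val_one, Matrix.det_one]
    rwa [ha, one_mul] at this

/-- A matrix commuting with `X` is diagonal. -/
theorem diag_of_commute {g : GL (Fin 3) F} (h : g * R.gX = R.gX * g) {i j : Fin 3} (hij : i ≠ j) :
    (g : Matrix (Fin 3) (Fin 3) F) i j = 0 := by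
  have h' := congrArg (fun x : GL (Fin 3) F => (x : Matrix (Fin 3) (Fin 3) F) i j) h
  simp only [Units.val_mul, val_gX, Matrix.mul_apply, Fin.sum_univ_three] at h'
  set a := (g : Matrix (Fin 3) (Fin 3) F) i j with ha
  have h1 := R.ne_one
  have h2 : R.ω ^ 2 ≠ 1 := fun h0 => h1 (by linear_combination R.cube - R.ω * h0)
  have h3 : R.ω ^ 2 ≠ R.ω := fun h0 => h1 (mul_left_cancel₀ R.ne_zero (by linear_combination h0))
  fin_cases i <;> fin_cases j <;> simp [xM] at h' hij ha ⊢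
  all_goals rw [← ha] at h'
  all_goals by_contra h0
  all_goals first
    | exact h1 (mul_right_cancel₀ h0 (by linear_combination h'))
    | exact h1 (mul_right_cancel₀ h0 (by linear_combination -h'))
    | exact h2 (mul_right_cancel₀ h0 (by linear_combination h'))
    | exact h2 (mul_right_cancel₀ h0 (by linear_combination -h'))
    | exact h3 (mul_right_cancel₀ h0 (by linear_combination h'))
    | exact h3 (mul_right_cancel₀ h0 (by linear_combination -h'))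

/-- Normaliser elements: `Q R`, possibly times `λ T^m`. -/
theorem decomp {g : GL (Fin 3) F} (hdet : Matrix.det (g : Matrix (Fin 3) (Fin 3) F) = 1)
    (hN : ∀ r ∈ R.Rs, g * r * g⁻¹ ∈ R.Rs) :
    ∃ q ∈ R.Qs, q ^ 4 = 1 ∧ ∃ r ∈ R.Rs, g = q * r ∨
      ∃ (t : GL (Fin 3) F) (u : F) (m : ℕ), (m = 1 ∨ m = 2) ∧
        (t : Matrix (Fin 3) (Fin 3) F) = u • R.tM ^ m ∧ g = q * (r * t) := by
  have hX := hN _ R.gX_mem
  obtain ⟨a, b, c, hb, hc, hbc, hel⟩ := R.exists_el_of_not_scalar hX fun a h => by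
    refine R.not_trace_scalar a (h ▸ ?_)
    rw [Units.val_mul, Matrix.trace_mul_comm, ← Units.val_mul, inv_mul_cancel_left]
    simp [val_gX, xM, Matrix.trace_fin_three]
    linear_combination R.eq
  obtain ⟨q, hq, hq4, k, hk⟩ := R.exists_Qs_conj hb hc hbc
  set g' := q⁻¹ * g with hg'
  have hg'X : ∃ i, g' * R.gX * g'⁻¹ = R.gZ ^ i * R.gX := by
    have e1 : R.el a b c = R.gZ ^ (a + 2 * k) * R.el k b c := by
      rw [el, el, ← mul_assoc (R.gZ ^ (a + 2 * k)), ← pow_add, show a + 2 * k + k = a + 3 * k by ring,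
        pow_add R.gZ a (3 * k), pow_mul R.gZ 3 k, R.gZ_cube, one_pow, mul_one]
    refine ⟨a + 2 * k, ?_⟩
    rw [show g' * R.gX * g'⁻¹ = q⁻¹ * (g * R.gX * g⁻¹) * q by rw [hg']; group, hel, e1,
      ← mul_assoc q⁻¹, ← R.zpow_comm, ← hk]
    group
  obtain ⟨i, hi⟩ := hg'X
  -- make it commute with `X`
  set g'' := gY ^ i * g' with hg''
  have hcomm : g'' * R.gX * g''⁻¹ = R.gX := by
    rw [show g'' * R.gX * g''⁻¹ = gY ^ i * (g' * R.gX * g'⁻¹) * (gY ^ i)⁻¹ by rw [hg'']; group, hi,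
      ← mul_assoc (gY ^ i), ← R.zpow_comm]
    have h1 : gY ^ i * R.gX = R.gZ ^ (2 * i) * (R.gX * gY ^ i) := by
      have := R.gY_gX_pow i 1; rwa [pow_one, mul_one] at this
    rw [mul_assoc (R.gZ ^ i), h1, ← mul_assoc, ← pow_add, show i + 2 * i = 3 * i by ring, pow_mul,
      R.gZ_cube, one_pow, one_mul, mul_inv_cancel_right]
  have hd := fun {i j : Fin 3} (h : i ≠ j) =>
    R.diag_of_commute (g := g'') (mul_inv_eq_iff_eq_mul.1 hcomm) h
  have hN'' : ∀ r ∈ R.Rs, g'' * r * g''⁻¹ ∈ R.Rs := fun r hr => by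
    rw [show g'' * r * g''⁻¹ = gY ^ i * (q⁻¹ * (g * r * g⁻¹) * q⁻¹⁻¹) * (gY ^ i)⁻¹ by
      rw [hg'', hg']; group]
    exact mul_mem (mul_mem (pow_mem R.gY_mem i)
      ((Subgroup.mem_normalizer_iff.1 (inv_mem (R.Qs_le_normalizer hq)) _).1 (hN r hr)))
      (inv_mem (pow_mem R.gY_mem i))
  obtain ⟨a', b', c', hb', hc', -, hel'⟩ := R.exists_el_of_not_scalar (hN'' _ R.gY_mem) fun a h => by
    refine R.not_trace_scalar a (h ▸ ?_)
    rw [Units.val_mul, Matrix.trace_mul_comm, ← Units.val_mul, inv_mul_cancel_left]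
    simp [val_gY, yM, Matrix.trace_fin_three]
  set G := (g'' : Matrix (Fin 3) (Fin 3) F) with hG
  have heq : G * yM = (R.ω ^ a' • (R.xM ^ b' * yM ^ c')) * G := by
    rw [← val_el, ← hel', hG, ← val_gY, ← Units.val_mul, ← Units.val_mul]
    congr 1; group
  have hG0 : G 0 0 ≠ 0 ∧ G 1 1 ≠ 0 ∧ G 2 2 ≠ 0 := by
    have h : G.det ≠ 0 := ((Matrix.isUnit_iff_isUnit_det G).1 g''.isUnit).ne_zero
    have hdia : G.det = G 0 0 * G 1 1 * G 2 2 := by
      rw [Matrix.det_fin_three, hd (show (0 : Fin 3) ≠ 1 by decide), hd (show (0 : Fin 3) ≠ 2 by decide),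
        hd (show (1 : Fin 3) ≠ 0 by decide), hd (show (1 : Fin 3) ≠ 2 by decide),
        hd (show (2 : Fin 3) ≠ 0 by decide), hd (show (2 : Fin 3) ≠ 1 by decide)]
      ring
    rw [hdia] at h
    simpa [mul_ne_zero_iff, and_assoc] using h
  obtain ⟨e1, e2⟩ : ∃ i₁ i₂ : ℕ, G 1 1 = R.ω ^ i₁ * G 0 0 ∧ G 2 2 = R.ω ^ i₂ * G 0 0 := by
    have e10 := congrFun (congrFun heq 1) 0
    have e21 := congrFun (congrFun heq 2) 1
    have d01 := hd (show (0 : Fin 3) ≠ 1 by decide)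
    have d02 := hd (show (0 : Fin 3) ≠ 2 by decide)
    have d10 := hd (show (1 : Fin 3) ≠ 0 by decide)
    have d12 := hd (show (1 : Fin 3) ≠ 2 by decide)
    have d20 := hd (show (2 : Fin 3) ≠ 0 by decide)
    have d21 := hd (show (2 : Fin 3) ≠ 1 by decide)
    interval_cases b' <;> interval_cases c' <;>
      simp [xM, yM, pow_two, Matrix.mul_apply, Fin.sum_univ_three, d01, d02, d10, d12, d20, d21] at e10 e21
    all_goals first
      | exact absurd e10 hG0.2.1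
      | exact absurd e21 hG0.2.2
      | exact ⟨a', a' + a', e10, by rw [e21, e10, pow_add]; ring1⟩
      | exact ⟨a' + 1, (a' + 2) + (a' + 1), by rw [e10, pow_add]; ring1, by rw [e21, e10, pow_add, pow_add, pow_add]; ring1⟩
      | exact ⟨a' + 2, (a' + 4) + (a' + 2), by rw [e10, pow_add]; ring1, by rw [e21, e10, pow_add, pow_add, pow_add]; ring1⟩
  obtain ⟨i₂, hi1, hi2⟩ := e2
  set k' := i₂ + 2 * e1 with hk'
  set m := (2 * e1 + 2 * i₂) % 3 with hm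
  have hGeq : G = G 0 0 • (R.xM ^ k' * R.tM ^ m) := by
    have hω : ∀ n, R.ω ^ n = R.ω ^ (n % 3) := fun n => by
      conv_lhs => rw [← Nat.div_add_mod n 3, pow_add, pow_mul, R.cube, one_pow, one_mul]
    have hxk : ∀ n, R.xM ^ n = !![1, 0, 0; 0, R.ω ^ n, 0; 0, 0, R.ω ^ (2 * n)] := by
      intro n
      induction n with
      | zero => ext i j; fin_cases i <;> fin_cases j <;> simp
      | succ n ih =>
        rw [pow_succ, ih]
        ext i j; fin_cases i <;> fin_cases j <;> simp [xM, Matrix.mul_apply, Fin.sum_univ_three] <;> ring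
    have htk : ∀ n, R.tM ^ n = !![1, 0, 0; 0, R.ω ^ n, 0; 0, 0, R.ω ^ n] := by
      intro n
      induction n with
      | zero => ext i j; fin_cases i <;> fin_cases j <;> simp
      | succ n ih =>
        rw [pow_succ, ih]
        ext i j; fin_cases i <;> fin_cases j <;> simp [tM, Matrix.mul_apply, Fin.sum_univ_three] <;> ring
    have f1 : R.ω ^ k' * R.ω ^ m = R.ω ^ e1 := by
      rw [hm, ← hω, ← pow_add, hω e1, hω]; congr 1; omega
    have f2 : R.ω ^ (2 * k') * R.ω ^ m = R.ω ^ i₂ := by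
      rw [hm, ← hω, ← pow_add, hω i₂, hω]; congr 1; omega
    rw [hxk, htk]
    ext i j; fin_cases i <;> fin_cases j
    all_goals simp [Matrix.mul_apply, Fin.sum_univ_three]
    all_goals first
      | exact hd (by decide)
      | (rw [f1]; linear_combination hi1)
      | (rw [f2]; linear_combination hi2)
  refine ⟨q, hq, hq4, ?_⟩
  have hr : (gY ^ i)⁻¹ * R.gX ^ k' ∈ R.Rs :=
    mul_mem (inv_mem (pow_mem R.gY_mem i)) (pow_mem R.gX_mem k')
  set t := (R.gX ^ k')⁻¹ * g'' with ht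
  have hval : (t : Matrix (Fin 3) (Fin 3) F) = G 0 0 • R.tM ^ m := by
    rw [ht, Units.val_mul, ← hG]
    conv_lhs => rw [hGeq, Matrix.mul_smul, ← mul_assoc, ← val_gX, ← Units.val_pow_eq_pow_val,
      ← Units.val_mul, inv_mul_cancel, Units.val_one, one_mul]
  have hgt : g = q * ((gY ^ i)⁻¹ * R.gX ^ k' * t) := by rw [ht, hg'', hg']; group
  by_cases h0 : m = 0
  · refine ⟨(gY ^ i)⁻¹ * R.gX ^ k' * t, mul_mem hr ?_, Or.inl hgt⟩
    rw [h0, pow_zero] at hval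
    have hdt : Matrix.det (t : Matrix (Fin 3) (Fin 3) F) = 1 := by
      have hY1 : Matrix.det (((gY : GL (Fin 3) F) ^ i : GL (Fin 3) F) : Matrix (Fin 3) (Fin 3) F) = 1 := by
        rw [Units.val_pow_eq_pow_val, Matrix.det_pow, det_gY, one_pow]
      have hX1 : Matrix.det ((R.gX ^ k' : GL (Fin 3) F) : Matrix (Fin 3) (Fin 3) F) = 1 := by
        rw [Units.val_pow_eq_pow_val, Matrix.det_pow, R.det_gX, one_pow]
      have h := hdet
      rw [hgt] at h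
      simp only [Units.val_mul, Matrix.det_mul, R.det_Qs hq, hX1, one_mul, mul_one] at h
      have hY2 : Matrix.det (((gY ^ i)⁻¹ : GL (Fin 3) F) : Matrix (Fin 3) (Fin 3) F) = 1 := by
        have := congrArg Matrix.det (Units.mul_inv (gY ^ i : GL (Fin 3) F))
        rwa [Matrix.det_mul, hY1, one_mul, Matrix.det_one] at this
      rwa [hY2, one_mul] at h
    rw [hval, Matrix.det_smul, Matrix.det_one, mul_one, Fintype.card_fin] at hdt
    obtain ⟨n, -, hn⟩ := R.pow_cube _ hdt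
    rw [show t = R.gZ ^ n from Units.ext (by rw [hval, hn, R.gZ_pow_val])]
    exact pow_mem R.gZ_mem n
  · exact ⟨(gY ^ i)⁻¹ * R.gX ^ k', hr, Or.inr ⟨t, G 0 0, m, by omega, hval, by rw [hgt]⟩⟩

end Root3

end Cfsg.Agent.SLThree.Symp
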