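import Cfsg.Agent.SLThree.SympKinds
import Cfsg.Agent.SLThree.SympGroup
import Cfsg.Agent.MaxSub.Dickson.Finite
import Cfsg.Agent.MaxSub.Dickson.Maximal

/-!
Point-plane stabilisers in a transvection-free subgroup of `SL₃(F)`: the action on the plane is a
subgroup of `PGL₂(F)` of order prime to the characteristic.
-/

set_option autoImplicit false
set_option linter.unusedSectionVars false
set_option linter.style.haveILetI false

namespace Cfsg.Agent.SLThree.Symp

open Matrix
open scoped MatrixGroups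

variable {F : Type*} [Field F] [Fintype F]

/-- The matrix of `g` in the basis given by the columns of `B`. -/
def cMat (B : GL (Fin 3) F) (g : GL (Fin 3) F) : Matrix (Fin 3) (Fin 3) F :=
  ((B⁻¹ * g * B : GL (Fin 3) F) : Matrix (Fin 3) (Fin 3) F)

theorem cMat_mul (B g g' : GL (Fin 3) F) : cMat B (g * g') = cMat B g * cMat B g' := by
  rw [cMat, cMat, cMat, ← Units.val_mul]; congr 1; group

theorem cMat_one (B : GL (Fin 3) F) : cMat B 1 = 1 := by simp [cMat]

theorem cMat_injective (B : GL (Fin 3) F) : Function.Injective (cMat B) := fun g g' h => by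
  have h' : B⁻¹ * g * B = B⁻¹ * g' * B := Units.ext h
  exact mul_left_cancel (mul_right_cancel h')

theorem det_cMat (B g : GL (Fin 3) F) : (cMat B g).det = Matrix.det (g : Matrix (Fin 3) (Fin 3) F) := by
  rw [cMat, Units.val_mul, Units.val_mul, Matrix.det_mul, Matrix.det_mul, mul_right_comm,
    ← Matrix.det_mul, ← Units.val_mul, inv_mul_cancel, Units.val_one, Matrix.det_one, one_mul]

/-- Block diagonal of shape `1 + 2`. -/
def IsBlock (M : Matrix (Fin 3) (Fin 3) F) : Prop := M 0 1 = 0 ∧ M 0 2 = 0 ∧ M 1 0 = 0 ∧ M 2 0 = 0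

theorem IsBlock.mul {M N : Matrix (Fin 3) (Fin 3) F} (hM : IsBlock M) (hN : IsBlock N) :
    IsBlock (M * N) := by
  obtain ⟨a, b, c, d⟩ := hM
  obtain ⟨a', b', c', d'⟩ := hN
  refine ⟨?_, ?_, ?_, ?_⟩ <;>
    simp [Matrix.mul_apply, Fin.sum_univ_three, a, b, c, d, a', b', c', d']

/-- The stabiliser of the point and the plane given by `B`. -/
def blk (B : GL (Fin 3) F) : Subgroup (GL (Fin 3) F) where
  carrier := {g | IsBlock (cMat B g)}
  one_mem' := by simp [IsBlock, cMat_one]
  mul_mem' {g g'} hg hg' := by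
    show IsBlock (cMat B (g * g'))
    rw [cMat_mul]; exact IsBlock.mul hg hg'
  inv_mem' {g} hg := by
    have hp : ∀ n, IsBlock (cMat B (g ^ n)) := by
      intro n
      induction n with
      | zero => simp [IsBlock, cMat_one]
      | succ n ih => rw [pow_succ, cMat_mul]; exact IsBlock.mul ih hg
    show IsBlock (cMat B g⁻¹)
    rw [show g⁻¹ = g ^ (orderOf g - 1) from inv_eq_of_mul_eq_one_right (by
      rw [← pow_succ', Nat.sub_add_cancel (orderOf_pos g), pow_orderOf_eq_one])]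
    exact hp _

theorem mem_blk {B g : GL (Fin 3) F} : g ∈ blk B ↔ IsBlock (cMat B g) := Iff.rfl

/-- The plane block. -/
def lowM (M : Matrix (Fin 3) (Fin 3) F) : Matrix (Fin 2) (Fin 2) F :=
  !![M 1 1, M 1 2; M 2 1, M 2 2]

theorem lowM_mul {M N : Matrix (Fin 3) (Fin 3) F} (hM : IsBlock M) :
    lowM (M * N) = lowM M * lowM N := by
  obtain ⟨-, -, c, d⟩ := hM
  ext i j; fin_cases i <;> fin_cases j <;>
    simp [lowM, Matrix.mul_apply, Fin.sum_univ_three, Fin.sum_univ_two, c, d]

/-- The action on the plane. -/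
def low (B : GL (Fin 3) F) : blk B →* GL (Fin 2) F :=
  MonoidHom.toHomUnits
    { toFun := fun g => lowM (cMat B (g : GL (Fin 3) F))
      map_one' := by ext i j; fin_cases i <;> fin_cases j <;> simp [lowM, cMat_one]
      map_mul' := fun g g' => by rw [Subgroup.coe_mul, cMat_mul, lowM_mul g.2] }

theorem val_low (B : GL (Fin 3) F) (g : blk B) :
    (low B g : Matrix (Fin 2) (Fin 2) F) = lowM (cMat B (g : GL (Fin 3) F)) := rfl

theorem mul_scalar_smul (A : Matrix (Fin 2) (Fin 2) F) (c : F) : A * Matrix.scalar (Fin 2) c = c • A := by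
  rw [Matrix.scalar_apply, ← Matrix.smul_one_eq_diagonal, Matrix.mul_smul, mul_one]

/-- The projective action on the plane. -/
def proj (B : GL (Fin 3) F) : blk B →* PGL(2, F) := ProjGenLinGroup.mk.comp (low B)

theorem proj_eq_proj {B : GL (Fin 3) F} {g g' : blk B} :
    proj B g = proj B g' ↔ ∃ k : F, k ≠ 0 ∧
      k • lowM (cMat B (g : GL (Fin 3) F)) = lowM (cMat B (g' : GL (Fin 3) F)) := by
  rw [proj, MonoidHom.comp_apply, MonoidHom.comp_apply, ProjGenLinGroup.mk_eq_mk_iff]
  constructor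
  · rintro ⟨u, hu⟩
    refine ⟨u, u.ne_zero, ?_⟩
    rw [← val_low, ← val_low, ← hu, Units.val_mul, GeneralLinearGroup.coe_scalar,
      mul_scalar_smul]
  · rintro ⟨k, hk, h⟩
    refine ⟨Units.mk0 k hk, Units.ext ?_⟩
    rw [Units.val_mul, GeneralLinearGroup.coe_scalar, mul_scalar_smul, val_low, val_low]
    exact h

theorem proj_eq_one {B : GL (Fin 3) F} {g : blk B} :
    proj B g = 1 ↔ cMat B (g : GL (Fin 3) F) 1 2 = 0 ∧ cMat B (g : GL (Fin 3) F) 2 1 = 0 ∧
      cMat B (g : GL (Fin 3) F) 1 1 = cMat B (g : GL (Fin 3) F) 2 2 := by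
  rw [← map_one (proj B), proj_eq_proj, Subgroup.coe_one, cMat_one]
  constructor
  · rintro ⟨k, hk, h⟩
    have e := fun i j => congrFun (congrFun h i) j
    have e01 := e 0 1
    have e10 := e 1 0
    have e00 := e 0 0
    have e11 := e 1 1
    simp [lowM, hk] at e01 e10 e00 e11
    refine ⟨e01, e10, ?_⟩
    exact mul_left_cancel₀ hk (e00.trans e11.symm)
  · rintro ⟨h1, h2, h3⟩
    have h0 : cMat B (g : GL (Fin 3) F) 1 1 ≠ 0 := by
      intro h0
      have hdet : (lowM (cMat B (g : GL (Fin 3) F))).det ≠ 0 :=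
        val_low B g ▸ ((Matrix.isUnit_iff_isUnit_det _).1 (low B g).isUnit).ne_zero
      apply hdet
      simp [lowM, Matrix.det_fin_two, h0, h2]
    refine ⟨(cMat B (g : GL (Fin 3) F) 1 1)⁻¹, inv_ne_zero h0, ?_⟩
    ext i j; fin_cases i <;> fin_cases j <;> simp [lowM, h1, h2, ← h3, inv_mul_cancel₀ h0]

theorem det_block {M : Matrix (Fin 3) (Fin 3) F} (hM : IsBlock M) :
    M.det = M 0 0 * (lowM M).det := by
  obtain ⟨a, b, c, d⟩ := hM
  simp [Matrix.det_fin_three, Matrix.det_fin_two, lowM, a, b, c, d]; ring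

/-- No element of `X` is a transvection. -/
def NT (X : Subgroup (GL (Fin 3) F)) : Prop :=
  ∀ g ∈ X, ((g : Matrix (Fin 3) (Fin 3) F) - 1) * ((g : Matrix (Fin 3) (Fin 3) F) - 1) = 0 → g = 1

theorem not_dvd_card_stab {p : ℕ} [Fact p.Prime] [CharP F p] {X : Subgroup (GL (Fin 3) F)}
    (hNT : NT X) (B : GL (Fin 3) F) : ¬ p ∣ Nat.card (X.subgroupOf (blk B)) := by
  intro hp
  obtain ⟨⟨g, hgX⟩, hord⟩ := exists_prime_orderOf_dvd_card' p hp
  rw [← Subgroup.orderOf_coe] at hord
  set M := cMat B (g : GL (Fin 3) F) with hM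
  have hblk : IsBlock M := g.2
  have hpow : ∀ n, cMat B ((g : GL (Fin 3) F) ^ n) = M ^ n := by
    intro n
    induction n with
    | zero => simp [cMat_one]
    | succ n ih => rw [pow_succ, cMat_mul, ih, pow_succ]
  have hp1 : M ^ p = 1 := by
    rw [← hpow, ← Subgroup.coe_pow, ← hord, pow_orderOf_eq_one, Subgroup.coe_one, cMat_one]
  haveI : CharP (Matrix (Fin 3) (Fin 3) F) p := inferInstance
  have hN : (M - 1) ^ p = 0 := by
    rw [sub_pow_char_of_commute (p := p) (Commute.one_right M), hp1, one_pow, sub_self]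
  set N := M - 1 with hNdef
  have hbN : IsBlock N := by
    obtain ⟨a, b, c, d⟩ := hblk
    refine ⟨?_, ?_, ?_, ?_⟩ <;> simp [hNdef, a, b, c, d]
  have hbpow : ∀ n, IsBlock (N ^ n) ∧ (N ^ n) 0 0 = N 0 0 ^ n ∧ lowM (N ^ n) = lowM N ^ n := by
    intro n
    induction n with
    | zero =>
      refine ⟨by simp [IsBlock], by simp, ?_⟩
      ext i j; fin_cases i <;> fin_cases j <;> simp [lowM]
    | succ n ih =>
      obtain ⟨i1, i2, i3⟩ := ih
      refine ⟨by rw [pow_succ]; exact i1.mul hbN, ?_, by rw [pow_succ, lowM_mul i1, i3, pow_succ]⟩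
      rw [pow_succ, Matrix.mul_apply, Fin.sum_univ_three, i1.1, i1.2.1, i2, pow_succ]
      ring
  obtain ⟨-, h00, hlow⟩ := hbpow p
  rw [hN] at h00 hlow
  have hN00 : N 0 0 = 0 := pow_eq_zero_iff (Fact.out : p.Prime).ne_zero |>.1 h00.symm
  set L := lowM N with hL
  have hLp : L ^ p = 0 := by
    rw [← hlow]; ext i j; fin_cases i <;> fin_cases j <;> simp [lowM]
  have hdetL : L.det = 0 := by
    have := congrArg Matrix.det hLp
    rw [Matrix.det_pow, Matrix.det_zero] at this
    exact pow_eq_zero_iff (Fact.out : p.Prime).ne_zero |>.1 this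

  have hCH : L * L = L.trace • L := by
    rw [Matrix.det_fin_two] at hdetL
    ext i j; fin_cases i <;> fin_cases j <;>
      simp [Matrix.mul_apply, Fin.sum_univ_two, Matrix.trace_fin_two] <;>
      first | linear_combination hdetL * (-1) | linear_combination hdetL | ring
  have hLn : ∀ n, L ^ (n + 1) = L.trace ^ n • L := by
    intro n
    induction n with
    | zero => simp
    | succ n ih => rw [pow_succ, ih, Matrix.smul_mul, hCH, smul_smul, pow_succ]
  have hL2 : L * L = 0 := by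
    have h := hLn (p - 1)
    rw [Nat.sub_add_cancel (Fact.out : p.Prime).one_le, hLp] at h
    rcases smul_eq_zero.1 h.symm with h' | h'
    · rw [hCH, pow_eq_zero_iff (Nat.sub_ne_zero_of_lt (Fact.out : p.Prime).one_lt) |>.1 h', zero_smul]
    · rw [h', mul_zero]
  obtain ⟨hb2, h200, h2low⟩ := hbpow 2
  have hN2 : N * N = 0 := by
    rw [← pow_two]
    rw [pow_two L, hL2] at h2low
    rw [hN00, zero_pow (by norm_num)] at h200
    obtain ⟨a, b, c, d⟩ := hb2
    have e := fun i j => congrFun (congrFun h2low i) j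
    ext i j; fin_cases i <;> fin_cases j <;>
      first
        | exact a | exact b | exact c | exact d | exact h200
        | (simpa [lowM] using e 0 0) | (simpa [lowM] using e 0 1)
        | (simpa [lowM] using e 1 0) | (simpa [lowM] using e 1 1)
  have hgm : ((g : GL (Fin 3) F) : Matrix (Fin 3) (Fin 3) F) - 1 =
      (B : Matrix (Fin 3) (Fin 3) F) * N * ((B⁻¹ : GL (Fin 3) F) : Matrix (Fin 3) (Fin 3) F) := by
    rw [hNdef, Matrix.mul_sub, Matrix.sub_mul, mul_one, ← Units.val_mul, mul_inv_cancel,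
      Units.val_one, hM, cMat, ← Units.val_mul, ← Units.val_mul]
    congr 2; group
  have hone : (g : GL (Fin 3) F) = 1 := hNT _ hgX (by
    rw [hgm, show (B : Matrix (Fin 3) (Fin 3) F) * N * ((B⁻¹ : GL (Fin 3) F) : Matrix (Fin 3) (Fin 3) F) *
      ((B : Matrix (Fin 3) (Fin 3) F) * N * ((B⁻¹ : GL (Fin 3) F) : Matrix (Fin 3) (Fin 3) F)) =
      (B : Matrix (Fin 3) (Fin 3) F) * (N * (((B⁻¹ : GL (Fin 3) F) : Matrix (Fin 3) (Fin 3) F) *
        (B : Matrix (Fin 3) (Fin 3) F)) * N) * ((B⁻¹ : GL (Fin 3) F) : Matrix (Fin 3) (Fin 3) F) by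
        simp only [mul_assoc], Units.inv_mul, mul_one, hN2, mul_zero, zero_mul])
  obtain rfl : g = 1 := Subtype.ext hone
  rw [Subgroup.coe_mk, orderOf_one] at hord
  exact (Fact.out : p.Prime).one_lt.ne hord

/-- The image on the plane is one of the five rotation types. -/
theorem rot_stab {X : Subgroup (GL (Fin 3) F)} (h2 : (2 : F) ≠ 0) (hNT : NT X) (B : GL (Fin 3) F) :
    Rot ((X.subgroupOf (blk B)).map (proj B)) := by
  classical
  obtain ⟨p, hchar⟩ := CharP.exists F
  haveI := hchar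
  haveI : Fact p.Prime := ⟨CharP.char_is_prime F p⟩
  have hp2 : p ≠ 2 := fun h => h2 (by
    subst h; exact_mod_cast CharP.cast_eq_zero F 2)
  have hnot : ¬ p ∣ Nat.card ((X.subgroupOf (blk B)).map (proj B)) := fun h =>
    not_dvd_card_stab hNT B (h.trans (Subgroup.card_map_dvd _ _))
  have hbig : ∀ (F₀ : Subfield F), p ∣ Nat.card F₀ := by
    intro F₀

    haveI : CharP F₀ p := inferInstance
    haveI : Fintype F₀ := Fintype.ofFinite F₀
    obtain ⟨n, -, hn⟩ := FiniteField.card F₀ p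
    rw [Nat.card_eq_fintype_card, hn]
    exact dvd_pow_self p n.ne_zero
  rcases MaxSub.Dickson.classifyF (K := AlgebraicClosure F) (p := p)
    ((X.subgroupOf (blk B)).map (proj B)) with
    ⟨a, b, m, -, hc, -, -, -⟩ | ⟨a, b, m, n, -, -, hn, -, -, -, hi⟩ | ⟨x, -, hp⟩ | ⟨-, -, hi⟩ |
    ⟨-, -, hi⟩ | ⟨-, -, hi⟩ | ⟨F₀, h, -, he⟩ | ⟨F₀, h, -, -, he⟩
  · exact .cyclic hc
  · exact .dihedral n hn hi
  · exact absurd hp hnot
  · exact .a4 hi
  · exact .s4 hi
  · exact .a5 hi
  · refine absurd ?_ hnot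
    rw [Nat.card_congr (((X.subgroupOf (blk B)).map (proj B)).equivMapOfInjective
      (MulAut.conj h⁻¹).toMonoidHom (MulAut.conj h⁻¹).injective).toEquiv, he,
      MaxSub.Dickson.card_subPGL_range]
    exact dvd_mul_of_dvd_left (dvd_mul_of_dvd_left (hbig F₀) _) _
  · refine absurd ?_ hnot
    rw [Nat.card_congr (((X.subgroupOf (blk B)).map (proj B)).equivMapOfInjective
      (MulAut.conj h⁻¹).toMonoidHom (MulAut.conj h⁻¹).injective).toEquiv, he]
    have h3 : p ∣ Nat.gcd 2 (Nat.card F₀ - 1) * Nat.card (MaxSub.Dickson.subPSL F₀).range := by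
      rw [MaxSub.Dickson.card_subPSL_range]
      exact dvd_mul_of_dvd_left (dvd_mul_of_dvd_left (hbig F₀) _) _
    rcases (Fact.out : p.Prime).dvd_mul.1 h3 with h4 | h4
    · exact absurd ((Nat.prime_dvd_prime_iff_eq Fact.out Nat.prime_two).1
        (h4.trans (Nat.gcd_dvd_left _ _))) hp2
    · exact h4

end Cfsg.Agent.SLThree.Symp
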