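import Cfsg.Agent.SLThree.SympCent
import Cfsg.Agent.TwoFusion.ZStarHolds
import Cfsg.Agent.Coprime.Generation

/-!
If the involution `H` is isolated in `X`, the group `3^{1+2}` is the odd normal subgroup of the
`Z*`-theorem.
-/

set_option autoImplicit false
set_option linter.unusedSectionVars false
set_option linter.style.haveILetI false

namespace Cfsg.Agent.SLThree.Symp

open Matrix
open scoped MatrixGroups

universe u

variable {F : Type u} [Field F] [Fintype F] {R : Root3 F} {X : Subgroup (GL (Fin 3) F)}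

/-- The action on the distinguished line. -/
def lineHom (B : GL (Fin 3) F) : blk B →* F where
  toFun g := cMat B (g : GL (Fin 3) F) 0 0
  map_one' := by simp [cMat_one]
  map_mul' g g' := by
    obtain ⟨a, b, -, -⟩ : IsBlock (cMat B (g : GL (Fin 3) F)) := g.2
    rw [Subgroup.coe_mul, cMat_mul, Matrix.mul_apply, Fin.sum_univ_three, a, b]
    ring

theorem Root3.conj_gW₁_gW₂ (R : Root3 F) {q : GL (Fin 3) F} (hq : q ∈ R.Qs) :
    (q * R.gW₁ * q⁻¹ = R.gW₁ ∨ q * R.gW₁ * q⁻¹ = Root3.gH * R.gW₁) ∧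
      (q * R.gW₂ * q⁻¹ = R.gW₂ ∨ q * R.gW₂ * q⁻¹ = Root3.gH * R.gW₂) ∧
      q * Root3.gH = Root3.gH * q := by
  have h21 : R.gW₂ * R.gW₁ = Root3.gH * (R.gW₁ * R.gW₂) := by
    rw [R.gW₁_gW₂, ← mul_assoc, Root3.gH_sq, one_mul]
  unfold Root3.Qs at hq
  induction hq using Subgroup.closure_induction with
  | mem g hg =>
    rcases hg with rfl | rfl
    · exact ⟨Or.inl (by group), Or.inr (by rw [R.gW₁_gW₂]; group), R.gH_gW₁.symm⟩
    · exact ⟨Or.inr (by rw [h21]; group), Or.inl (by group), R.gH_gW₂.symm⟩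
  | one => exact ⟨Or.inl (by group), Or.inl (by group), by group⟩
  | mul a b _ _ ha hb =>
    obtain ⟨a1, a2, aH⟩ := ha
    obtain ⟨b1, b2, bH⟩ := hb
    have key : ∀ w : GL (Fin 3) F, (a * w * a⁻¹ = w ∨ a * w * a⁻¹ = Root3.gH * w) →
        (b * w * b⁻¹ = w ∨ b * w * b⁻¹ = Root3.gH * w) →
        (a * b * w * (a * b)⁻¹ = w ∨ a * b * w * (a * b)⁻¹ = Root3.gH * w) := by
      intro w ha' hb'
      rw [show a * b * w * (a * b)⁻¹ = a * (b * w * b⁻¹) * a⁻¹ by group]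
      rcases hb' with h | h <;> rw [h]
      · exact ha'
      · rw [show a * (Root3.gH * w) * a⁻¹ = a * Root3.gH * (w * a⁻¹) by group, aH,
          show Root3.gH * a * (w * a⁻¹) = Root3.gH * (a * w * a⁻¹) by group]
        rcases ha' with h' | h' <;> rw [h']
        · exact Or.inr rfl
        · exact Or.inl (by rw [← mul_assoc, Root3.gH_sq, one_mul])
    exact ⟨key _ a1 b1, key _ a2 b2, by rw [mul_assoc, bH, ← mul_assoc, aH, mul_assoc]⟩
  | inv a _ ha =>
    obtain ⟨a1, a2, aH⟩ := ha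
    have aH' : a⁻¹ * Root3.gH = Root3.gH * a⁻¹ := ((Commute.inv_left aH)).eq
    have key : ∀ w : GL (Fin 3) F, (a * w * a⁻¹ = w ∨ a * w * a⁻¹ = Root3.gH * w) →
        (a⁻¹ * w * a⁻¹⁻¹ = w ∨ a⁻¹ * w * a⁻¹⁻¹ = Root3.gH * w) := by
      intro w h
      rcases h with h | h
      · refine Or.inl ?_
        calc a⁻¹ * w * a⁻¹⁻¹ = a⁻¹ * (a * w * a⁻¹) * a⁻¹⁻¹ := by rw [h]
          _ = w := by group
      · refine Or.inr ?_
        calc a⁻¹ * w * a⁻¹⁻¹ = a⁻¹ * (Root3.gH * (Root3.gH * w)) * a⁻¹⁻¹ := by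
              rw [← mul_assoc Root3.gH, Root3.gH_sq, one_mul]
          _ = a⁻¹ * Root3.gH * ((a * w * a⁻¹) * a⁻¹⁻¹) := by rw [h]; group
          _ = Root3.gH * a⁻¹ * ((a * w * a⁻¹) * a⁻¹⁻¹) := by rw [aH']
          _ = _ := by group
    exact ⟨key _ a1, key _ a2, aH'⟩

namespace Cfg

variable (hc : Cfg R X)
include hc

theorem lineHom_cube_of_perfect (hperf : commutator (img R X) = ⊤) (d : cenH R X) :
    cMat R.B₀ (d : GL (Fin 3) F) 0 0 ^ 3 = 1 := by
  let f : cenH R X →* F :=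
    (lineHom R.B₀).comp (Subgroup.inclusion (show cenH R X ≤ blk R.B₀ from inf_le_right))
  have hcomm : commutator (cenH R X) ≤ f.toHomUnits.ker := Abelianization.commutator_subset_ker _
  have hd : bar d ∈ (commutator (cenH R X)).map (pi0 R X).rangeRestrict := by
    rw [commutator_def, Subgroup.map_commutator,
      Subgroup.map_top_of_surjective _ (pi0 R X).rangeRestrict_surjective, ← commutator_def, hperf]
    exact Subgroup.mem_top _
  obtain ⟨c, hcc, hcd⟩ := Subgroup.mem_map.1 hd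
  have hf : f c = 1 := congrArg Units.val (hcomm hcc)
  obtain ⟨k, hk⟩ := hc.ker_of_bar (d := c⁻¹ * d) (by
    rw [bar_mul, bar_inv, show bar c = bar d from hcd, inv_mul_cancel])
  have hfd : cMat R.B₀ (d : GL (Fin 3) F) 0 0 = f c * f (c⁻¹ * d) := by
    rw [← map_mul, mul_inv_cancel_left]; rfl
  rw [hfd, hf, one_mul]
  show cMat R.B₀ (((c⁻¹ * d : cenH R X) : GL (Fin 3) F)) 0 0 ^ 3 = 1
  have hZ : cMat R.B₀ (R.gZ ^ k) = R.ω ^ k • 1 := by
    rw [Root3.cMat_eq_iff, R.gZ_pow_val, Matrix.smul_mul, Matrix.mul_smul, one_mul, mul_one]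
  have h3 : (R.ω ^ k) ^ 3 = 1 := by rw [← pow_mul, mul_comm, pow_mul, R.cube, one_pow]
  rcases hk with hk | hk <;> rw [hk]
  · simpa [hZ] using h3
  · rw [cMat_mul, hZ, R.cMat_B₀_H]
    simpa [Matrix.mul_apply, Fin.sum_univ_three] using h3

/-- An element of order prime to six commuting with `X₀` has first entry one. -/
theorem entry_eq_one {a : GL (Fin 3) F} (haX : a ∈ X) {n : ℕ} (hn : Nat.Coprime n 6)
    (han : a ^ n = 1) (hca : a * R.gX = R.gX * a) : (a : Matrix (Fin 3) (Fin 3) F) 0 0 = 1 := by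
  set A := (a : Matrix (Fin 3) (Fin 3) F) with hA
  have hd := fun {i j : Fin 3} (h : i ≠ j) => R.diag_of_commute hca h
  have hAd : A = !![A 0 0, 0, 0; 0, A 1 1, 0; 0, 0, A 2 2] := by
    ext i j; fin_cases i <;> fin_cases j <;> simp <;> exact hd (by decide)
  obtain ⟨b, hb⟩ : ∃ b, b = a * (Root3.gH * a * Root3.gH) := ⟨_, rfl⟩
  have hbX : b ∈ X := hb ▸ mul_mem haX (mul_mem (mul_mem hc.gH_mem haX) hc.gH_mem)
  have hbv : (b : Matrix (Fin 3) (Fin 3) F) =
      !![A 0 0 * A 0 0, 0, 0; 0, A 1 1 * A 2 2, 0; 0, 0, A 1 1 * A 2 2] := by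
    rw [hb, Units.val_mul, Units.val_mul, Units.val_mul, ← hA, Root3.val_gH, hAd]
    ext i j; fin_cases i <;> fin_cases j <;>
      simp [Root3.hM, Matrix.mul_apply, Fin.sum_univ_three] <;> ring
  have hbH : b * Root3.gH = Root3.gH * b := Units.ext (by
    rw [Units.val_mul, Units.val_mul, hbv, Root3.val_gH]
    ext i j; fin_cases i <;> fin_cases j <;> simp [Root3.hM, Matrix.mul_apply, Fin.sum_univ_three])
  let d : cenH R X := ⟨b, mem_cenH.2 ⟨hbX, hbH⟩⟩
  have hbn : b ^ n = 1 := by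
    have hconj : ∀ m : ℕ, (Root3.gH * a * Root3.gH) ^ m = Root3.gH * a ^ m * Root3.gH := by
      intro m
      induction m with
      | zero => simp [Root3.gH_sq]
      | succ m ih =>
        rw [pow_succ, ih, pow_succ, show Root3.gH * a ^ m * Root3.gH * (Root3.gH * a * Root3.gH) =
          Root3.gH * a ^ m * (Root3.gH * Root3.gH) * (a * Root3.gH) by group, Root3.gH_sq]
        group
    have hcm : Commute a (Root3.gH * a * Root3.gH) := Units.ext (by
      simp only [Units.val_mul, ← hA, Root3.val_gH]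
      rw [hAd]
      ext i j; fin_cases i <;> fin_cases j <;>
        simp [Root3.hM, Matrix.mul_apply, Fin.sum_univ_three] <;> ring)
    rw [hb, hcm.mul_pow, hconj, han, one_mul, mul_one, Root3.gH_sq]
  let d' : cenH R X := hc.w1 * d * hc.w1⁻¹
  have hdn : bar d ^ n = 1 := by
    have : d ^ n = 1 := Subtype.ext (by rw [Subgroup.coe_pow]; exact hbn)
    have h := congrArg (pi0 R X).rangeRestrict this
    rwa [map_pow, map_one] at h
  have hdn' : bar d' ^ n = 1 := by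
    rw [bar_mul, bar_mul, bar_inv, conj_pow, hdn, mul_one, mul_inv_cancel]
  have hu0 : A 0 0 * A 0 0 * (A 1 1 * A 2 2) ^ 2 = 1 := by
    have h := hc.det b hbX
    rw [hbv] at h
    simp [Matrix.det_fin_three] at h
    linear_combination h
  set u := A 0 0 * A 0 0 with hu
  set v := A 1 1 * A 2 2 with hv
  have hv0 : v ≠ 0 := fun h => by rw [h] at hu0; simp at hu0
  have hcm : cMat R.B₀ b = !![v, 0, 0; 0, u, 0; 0, 0, v] := by
    rw [Root3.cMat_eq_iff, hbv]
    ext i j; fin_cases i <;> fin_cases j <;> simp [Root3.B₀, Matrix.mul_apply, Fin.sum_univ_three]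
  have hu3 : v ^ 3 = 1 ∧ u = v ∨ bar d = 1 := by
    rcases hc.rot.commute_or_perfect hn hdn hn hdn' with h | h
    · refine Or.inr ?_
      by_contra hne
      have huv : u ≠ v := by
        intro h'
        refine hne (Subtype.ext ?_)
        show proj R.B₀ _ = 1
        rw [proj_eq_one]
        show cMat R.B₀ b 1 2 = 0 ∧ cMat R.B₀ b 2 1 = 0 ∧ cMat R.B₀ b 1 1 = cMat R.B₀ b 2 2
        rw [hcm, h']
        simp
      have hk : IsBlock (cMat R.B₀ b) := d.2.2
      have hk' : IsBlock (cMat R.B₀ ((d' : cenH R X) : GL (Fin 3) F)) := d'.2.2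
      have h0 : pi0 R X (d * d') = pi0 R X (d' * d) :=
        (map_mul (pi0 R X) d d').trans
          ((congrArg Subtype.val h.eq : _).trans (map_mul (pi0 R X) d' d).symm)
      have h' : proj R.B₀ _ = proj R.B₀ _ := h0
      rw [proj_eq_proj] at h'
      obtain ⟨c, -, hcc⟩ := h'
      simp only [Subgroup.coe_mul, Subgroup.coe_inclusion, MonoidHom.coe_mk, OneHom.coe_mk] at hcc
      rw [cMat_mul, cMat_mul, lowM_mul hk, lowM_mul hk'] at hcc
      have hW : cMat R.B₀ ((d' : cenH R X) : GL (Fin 3) F) =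
          cMat R.B₀ R.gW₁ * cMat R.B₀ b * cMat R.B₀ R.gW₁⁻¹ := by
        rw [← cMat_mul, ← cMat_mul]; rfl
      have hWi : cMat R.B₀ R.gW₁⁻¹ = !![1, 0, 0; 0, -R.r, -2 * R.r; 0, -R.r, R.r] := by
        rw [show R.gW₁⁻¹ = Root3.gH * R.gW₁ from inv_eq_of_mul_eq_one_left (by
          rw [mul_assoc, R.gW₁_sq, Root3.gH_sq]), cMat_mul, R.cMat_B₀_H, R.cMat_B₀_W₁]
        ext i j; fin_cases i <;> fin_cases j <;> simp [Matrix.mul_apply, Fin.sum_univ_three]
      rw [hW, R.cMat_B₀_W₁, hWi, hcm] at hcc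
      have e01 := congrFun (congrFun hcc 0) 1
      have e10 := congrFun (congrFun hcc 1) 0
      simp [lowM, Matrix.mul_apply, Fin.sum_univ_three, Fin.sum_univ_two] at e01 e10
      have hr2 : R.r ^ 2 * (u - v) ≠ 0 :=
        mul_ne_zero (pow_ne_zero 2 fun h0 => by have := R.r_sq; rw [h0] at this; simp at this)
          (sub_ne_zero.2 huv)
      have k1 : c * u = v := mul_right_cancel₀ (mul_ne_zero R.two hr2) (by linear_combination -e01)
      have k2 : c * v = u := mul_right_cancel₀ hr2 (by linear_combination -e10)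
      have hsq : u ^ 2 = v ^ 2 := by linear_combination v * k1 - u * k2
      refine hne ?_
      have h2 : bar d ^ 2 = 1 := by
        rw [pow_two, ← bar_mul]
        refine Subtype.ext ?_
        show proj R.B₀ _ = 1
        rw [proj_eq_one]
        show cMat R.B₀ (b * b) 1 2 = 0 ∧ cMat R.B₀ (b * b) 2 1 = 0 ∧
          cMat R.B₀ (b * b) 1 1 = cMat R.B₀ (b * b) 2 2
        rw [cMat_mul, hcm]
        simp [Matrix.mul_apply, Fin.sum_univ_three]
        linear_combination hsq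
      exact orderOf_eq_one_iff.1 (Nat.eq_one_of_dvd_coprimes
        (hn.coprime_dvd_right (by norm_num : 2 ∣ 6))
        (orderOf_dvd_of_pow_eq_one hdn) (orderOf_dvd_of_pow_eq_one h2))
    · have h3 : v ^ 3 = 1 := by
        have := hc.lineHom_cube_of_perfect h d
        rw [show cMat R.B₀ (d : GL (Fin 3) F) = cMat R.B₀ b from rfl, hcm] at this
        simpa using this
      exact Or.inl ⟨h3, mul_right_cancel₀ (pow_ne_zero 2 hv0) (by linear_combination hu0 - h3)⟩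
  have huv : u = v := by
    rcases hu3 with ⟨-, h⟩ | h
    · exact h
    · have h' := proj_eq_one.1 (congrArg Subtype.val h :)
      have h'' : cMat R.B₀ b 1 1 = cMat R.B₀ b 2 2 := h'.2.2
      rw [hcm] at h''
      simpa using h''
  have hv3 : v ^ 3 = 1 := by rw [huv] at hu0; linear_combination hu0
  have hbn' := congrArg (fun g : GL (Fin 3) F => (g : Matrix (Fin 3) (Fin 3) F) 0 0) hbn
  have hpow : ∀ m : ℕ, ((b ^ m : GL (Fin 3) F) : Matrix (Fin 3) (Fin 3) F) 0 0 = u ^ m := by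
    intro m
    induction m with
    | zero => simp
    | succ m ih =>
      rw [pow_succ, Units.val_mul, Matrix.mul_apply, Fin.sum_univ_three, hbv, ih, pow_succ]
      simp
  simp only [hpow, Units.val_one, Matrix.one_apply_eq] at hbn'
  have hv1 : u = 1 := orderOf_eq_one_iff.1 (Nat.eq_one_of_dvd_coprimes
    (hn.coprime_dvd_right (by norm_num : 3 ∣ 6)) (orderOf_dvd_of_pow_eq_one hbn')
    (orderOf_dvd_of_pow_eq_one (by rw [huv]; exact hv3)))
  have han' : A 0 0 ^ n = 1 := by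
    have hpow' : ∀ m : ℕ, ((a ^ m : GL (Fin 3) F) : Matrix (Fin 3) (Fin 3) F) 0 0 = A 0 0 ^ m := by
      intro m
      induction m with
      | zero => simp
      | succ m ih =>
        have e10 : A 1 0 = 0 := hd (show (1 : Fin 3) ≠ 0 by decide)
        have e20 : A 2 0 = 0 := hd (show (2 : Fin 3) ≠ 0 by decide)
        rw [pow_succ, Units.val_mul, Matrix.mul_apply, Fin.sum_univ_three, ih, pow_succ, ← hA,
          e10, e20]
        ring
    rw [← hpow', han]; simp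
  exact orderOf_eq_one_iff.1 (Nat.eq_one_of_dvd_coprimes
    (hn.coprime_dvd_right (by norm_num : 2 ∣ 6)) (orderOf_dvd_of_pow_eq_one han')
    (orderOf_dvd_of_pow_eq_one (by rw [pow_two, ← hu]; exact hv1)))

/-- No element of order prime to six centralises `X₀`. -/
theorem eq_one_of_comm {a : GL (Fin 3) F} (haX : a ∈ X) {n : ℕ} (hn : Nat.Coprime n 6)
    (han : a ^ n = 1) (hca : a * R.gX = R.gX * a) : a = 1 := by
  have hd := fun {i j : Fin 3} (h : i ≠ j) => R.diag_of_commute hca h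
  obtain ⟨a', ha'⟩ : ∃ a', a' = Root3.gY * a * Root3.gY⁻¹ := ⟨_, rfl⟩
  have hv : (a' : Matrix (Fin 3) (Fin 3) F) =
      !![(a : Matrix (Fin 3) (Fin 3) F) 2 2, 0, 0; 0, (a : Matrix (Fin 3) (Fin 3) F) 0 0, 0;
        0, 0, (a : Matrix (Fin 3) (Fin 3) F) 1 1] := by
    rw [ha', Units.val_mul, Units.val_mul,
      show ((Root3.gY⁻¹ : GL (Fin 3) F) : Matrix (Fin 3) (Fin 3) F) = Root3.yM * Root3.yM from rfl,
      Root3.val_gY]
    ext i j; fin_cases i <;> fin_cases j <;>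
      simp [Root3.yM, Matrix.mul_apply, Matrix.vecMul, dotProduct, Fin.sum_univ_three] <;>
      exact hd (by decide)
  have hca' : a' * R.gX = R.gX * a' := Units.ext (by
    rw [Units.val_mul, Units.val_mul, hv, Root3.val_gX]
    ext i j; fin_cases i <;> fin_cases j <;>
      simp [Root3.xM, Matrix.mul_apply, Fin.sum_univ_three] <;> ring)
  have h0 := hc.entry_eq_one haX hn han hca
  have h2 := hc.entry_eq_one (a := a') (ha' ▸ mul_mem (mul_mem hc.hY haX) (inv_mem hc.hY)) hn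
    (by rw [ha', conj_pow, han, mul_one, mul_inv_cancel]) hca'
  rw [hv] at h2
  simp at h2
  have hdet := hc.det a haX
  rw [Matrix.det_fin_three, h0, h2, hd (show (0 : Fin 3) ≠ 1 by decide),
    hd (show (0 : Fin 3) ≠ 2 by decide), hd (show (1 : Fin 3) ≠ 0 by decide),
    hd (show (1 : Fin 3) ≠ 2 by decide), hd (show (2 : Fin 3) ≠ 0 by decide),
    hd (show (2 : Fin 3) ≠ 1 by decide)] at hdet
  refine Units.ext ?_
  ext i j; fin_cases i <;> fin_cases j <;> simp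
  exacts [h0, hd (show (0 : Fin 3) ≠ 1 by decide), hd (show (0 : Fin 3) ≠ 2 by decide),
    hd (show (1 : Fin 3) ≠ 0 by decide), by linear_combination hdet,
    hd (show (1 : Fin 3) ≠ 2 by decide), hd (show (2 : Fin 3) ≠ 0 by decide),
    hd (show (2 : Fin 3) ≠ 1 by decide), h2]

section Normal

variable {N : Subgroup (GL (Fin 3) F)} (hNX : N ≤ X)
  (hnor : ∀ g ∈ X, ∀ m ∈ N, g * m * g⁻¹ ∈ N) (hodd : Odd (Nat.card N)) (hRN : R.Rs ≤ N)
include hNX hnor hodd hRN

theorem gH_not_mem : Root3.gH ∉ N := by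
  intro h
  have h2 : orderOf (Root3.gH : GL (Fin 3) F) = 2 :=
    orderOf_eq_prime (by rw [pow_two]; exact Root3.gH_sq) fun h1 =>
      hc.Z_pow_ne_H 0 (by rw [pow_zero, h1])
  have h3 : (2 : ℕ) ∣ Nat.card N := by
    rw [← h2, show (Root3.gH : GL (Fin 3) F) = ((⟨_, h⟩ : N) : GL (Fin 3) F) from rfl,
      Subgroup.orderOf_coe]
    exact orderOf_dvd_natCard _
  exact absurd hodd (Nat.not_odd_iff_even.2 (even_iff_two_dvd.2 h3))

/-- `Rs` is its own normaliser in `N`. -/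
theorem self_normal {g : GL (Fin 3) F} (hg : g ∈ N) (hconj : ∀ r ∈ R.Rs, g * r * g⁻¹ ∈ R.Rs) :
    g ∈ R.Rs := by
  obtain ⟨q, hq, hq4, r, hr, h⟩ := R.decomp (hc.det g (hNX hg)) hconj
  rcases h with h | ⟨t, u, m, hm, htv, h⟩
  · have hqN : q ∈ N := by
      rw [show q = g * r⁻¹ by rw [h, mul_inv_cancel_right]]
      exact mul_mem hg (inv_mem (hRN hr))
    have hq1 : q = 1 := orderOf_eq_one_iff.1 (Nat.eq_one_of_dvd_coprimes
      (Nat.Coprime.pow_left 2 (Nat.coprime_two_left.2 hodd))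
      (orderOf_dvd_of_pow_eq_one hq4)
      (show orderOf q ∣ Nat.card N by
        rw [← Subgroup.orderOf_mk q hqN]; exact orderOf_dvd_natCard _))
    rw [h, hq1, one_mul]
    exact hr
  · exfalso
    have hqX := hc.Qs_le hq
    have hyN : q * t ∈ N := by
      rw [show q * t = (q * r * q⁻¹)⁻¹ * g by rw [h]; group]
      exact mul_mem (inv_mem (hnor q hqX r (hRN hr))) hg
    -- a commutator of order four
    have ht0 : u ≠ 0 := by
      intro h0
      have h1 := (Units.isUnit t)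
      rw [htv, h0, zero_smul] at h1
      exact not_isUnit_zero h1
    have hT : ∀ w : GL (Fin 3) F, t * w * t⁻¹ = R.gT ^ m * w * (R.gT ^ m)⁻¹ := by
      intro w
      have hv : ((t * (R.gT ^ m)⁻¹ : GL (Fin 3) F) : Matrix (Fin 3) (Fin 3) F) = u • 1 := by
        rw [Units.val_mul, htv, Matrix.smul_mul, ← R.val_gT, ← Units.val_pow_eq_pow_val,
          ← Units.val_mul, mul_inv_cancel, Units.val_one]
      obtain ⟨e, he⟩ : ∃ e, e = t * (R.gT ^ m)⁻¹ := ⟨_, rfl⟩
      rw [← he] at hv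
      have hcomm : ∀ w : GL (Fin 3) F, e * w = w * e := fun w => Units.ext (by
        rw [Units.val_mul, Units.val_mul, hv, Matrix.smul_mul, Matrix.mul_smul, one_mul, mul_one])
      calc t * w * t⁻¹ = e * (R.gT ^ m * w * (R.gT ^ m)⁻¹) * e⁻¹ := by rw [he]; group
        _ = _ := by rw [hcomm, mul_inv_cancel_right]
    have hT3 : R.gT ^ 3 = 1 := Units.ext (by
      rw [Units.val_pow_eq_pow_val, Root3.val_gT, pow_succ, pow_two, Units.val_one]
      ext i j; fin_cases i <;> fin_cases j <;>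
        simp [Root3.tM, Matrix.mul_apply, Fin.sum_univ_three] <;> linear_combination R.cube)
    obtain ⟨hqW₁, hqW₂, hqH⟩ := R.conj_gW₁_gW₂ hq
    have hinv : ∀ w : GL (Fin 3) F, w * w = Root3.gH → w⁻¹ = Root3.gH * w := fun w hw =>
      inv_eq_of_mul_eq_one_left (by rw [mul_assoc, hw, Root3.gH_sq])
    have h21 : R.gW₂ * R.gW₁ = Root3.gH * (R.gW₁ * R.gW₂) := by
      rw [R.gW₁_gW₂, ← mul_assoc, Root3.gH_sq, one_mul]
    have h12 : (R.gW₁ * R.gW₂) * (R.gW₁ * R.gW₂) = Root3.gH := by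
      calc (R.gW₁ * R.gW₂) * (R.gW₁ * R.gW₂) = R.gW₁ * (R.gW₂ * R.gW₁) * R.gW₂ := by group
        _ = R.gW₁ * (Root3.gH * (R.gW₁ * R.gW₂)) * R.gW₂ := by rw [h21]
        _ = Root3.gH * ((R.gW₁ * R.gW₁) * (R.gW₂ * R.gW₂)) := by
            rw [← mul_assoc R.gW₁, ← R.gH_gW₁]; group
        _ = _ := by rw [R.gW₁_sq, R.gW₂_sq, Root3.gH_sq, mul_one]
    have hHW : Root3.gH * (R.gW₁ * R.gW₂) = R.gW₁ * R.gW₂ * Root3.gH := by
      rw [← mul_assoc, R.gH_gW₁, mul_assoc, R.gH_gW₂, mul_assoc]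
    have bad : ∀ e ∈ N, e = R.gW₁ * R.gW₂ ∨ e = Root3.gH * (R.gW₁ * R.gW₂) → False := by
      intro e he hee
      refine hc.gH_not_mem hNX hnor hodd hRN ?_
      have he2 : e * e = Root3.gH := by
        rcases hee with rfl | rfl
        · exact h12
        · calc Root3.gH * (R.gW₁ * R.gW₂) * (Root3.gH * (R.gW₁ * R.gW₂))
              = Root3.gH * (R.gW₁ * R.gW₂ * Root3.gH) * (R.gW₁ * R.gW₂) := by group
            _ = Root3.gH * Root3.gH * (R.gW₁ * R.gW₂ * (R.gW₁ * R.gW₂)) := by rw [← hHW]; group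
            _ = _ := by rw [h12, Root3.gH_sq, one_mul]
      exact he2 ▸ mul_mem he he
    have hbad : ∀ w w' : GL (Fin 3) F, w ∈ X → w' * w' = Root3.gH → t * w * t⁻¹ = w' →
        (q * w' * q⁻¹ = w' ∨ q * w' * q⁻¹ = Root3.gH * w') →
        w * (Root3.gH * w') ∈ N ∨ w * w' ∈ N := by
      intro w w' hw hw' htw hqw
      have he : w * (q * t) * w⁻¹ * (q * t)⁻¹ ∈ N := mul_mem (hnor w hw _ hyN) (inv_mem hyN)
      have e : w * (q * t) * w⁻¹ * (q * t)⁻¹ = w * (q * w' * q⁻¹)⁻¹ := by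
        rw [← htw]; group
      rw [e] at he
      rcases hqw with h' | h' <;> rw [h'] at he
      · exact Or.inl (by rwa [hinv w' hw'] at he)
      · refine Or.inr ?_
        rwa [_root_.mul_inv_rev, hinv w' hw', inv_eq_of_mul_eq_one_right Root3.gH_sq,
          mul_assoc Root3.gH, show w' * Root3.gH = Root3.gH * w' by rw [← hw', mul_assoc],
          ← mul_assoc Root3.gH, Root3.gH_sq, one_mul] at he
    rcases hm with rfl | rfl
    · have htw : t * R.gW₁ * t⁻¹ = R.gW₂ := by rw [hT, pow_one]; rfl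
      rcases hbad _ _ hc.hW₁ R.gW₂_sq htw hqW₂ with he | he
      · exact bad _ he (Or.inr (by rw [← mul_assoc, ← R.gH_gW₁, mul_assoc]))
      · exact bad _ he (Or.inl rfl)
    · have htw : t * R.gW₂ * t⁻¹ = R.gW₁ := by
        rw [hT, Root3.gW₂, show R.gT ^ 2 * (R.gT * R.gW₁ * R.gT⁻¹) * (R.gT ^ 2)⁻¹ =
          R.gT ^ 3 * R.gW₁ * (R.gT ^ 3)⁻¹ by group, hT3, one_mul, inv_one, mul_one]
      rcases hbad _ _ hc.hW₂ R.gW₁_sq htw hqW₁ with he | he
      · refine bad _ he (Or.inl ?_)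
        rw [← mul_assoc, ← R.gH_gW₂, mul_assoc, h21, ← mul_assoc, Root3.gH_sq, one_mul]
      · exact bad _ he (Or.inr h21)

/-- `N` is the group `3^{1+2}`. -/
theorem eq_Rs : N = R.Rs := by
  classical
  haveI : Fact (Nat.Prime 3) := ⟨Nat.prime_three⟩
  set P₀ := R.Rs.subgroupOf N with hP₀
  have hP₀p : IsPGroup 3 P₀ := fun g =>
    ⟨1, Subtype.ext (Subtype.ext (by simpa using R.cube_eq_one (Subgroup.mem_subgroupOf.1 g.2)))⟩
  obtain ⟨P, hP⟩ := hP₀p.exists_le_sylow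
  have hPeq : (P : Subgroup N) = P₀ := by
    refine le_antisymm ?_ hP
    by_contra hne
    haveI : Group.IsNilpotent P := P.2.isNilpotent
    have hlt : P₀.subgroupOf P < ⊤ := by
      rw [lt_top_iff_ne_top]
      intro h
      exact hne fun g hg => Subgroup.mem_subgroupOf.1 (h ▸ Subgroup.mem_top (⟨g, hg⟩ : P))
    obtain ⟨g, hgN, hgR⟩ := SetLike.exists_of_lt
      (Group.normalizerCondition_of_isNilpotent (G := P) _ hlt)
    refine hgR (Subgroup.mem_subgroupOf.2 (Subgroup.mem_subgroupOf.2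
      (hc.self_normal hNX hnor hodd hRN (g : N).2 fun r hr => ?_)))
    have := (Subgroup.mem_normalizer_iff.1 hgN ⟨⟨r, hRN hr⟩, hP (Subgroup.mem_subgroupOf.2 hr)⟩).1
      (Subgroup.mem_subgroupOf.2 (Subgroup.mem_subgroupOf.2 hr))
    simpa [Subgroup.mem_subgroupOf, hP₀] using this
  -- the quotient by the centre
  let z : N := ⟨R.gZ, hRN R.gZ_mem⟩
  let Zs := Subgroup.zpowers z
  have hzc : ∀ g : N, g * z = z * g := fun g => Subtype.ext (R.gZ_comm _).symm
  haveI : Zs.Normal := ⟨fun a ha g => by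
    obtain ⟨i, rfl⟩ := Subgroup.mem_zpowers_iff.1 ha
    rw [((show Commute g z from hzc g).zpow_right i).eq, mul_inv_cancel_right]
    exact Subgroup.mem_zpowers_iff.2 ⟨i, rfl⟩⟩
  set π := QuotientGroup.mk' Zs with hπ
  have hsurj : Function.Surjective π := QuotientGroup.mk'_surjective Zs
  have hker : ∀ {g : N}, π g = 1 → ∃ i : ℕ, (g : GL (Fin 3) F) = R.gZ ^ i := by
    intro g hg
    rw [hπ, QuotientGroup.mk'_apply, QuotientGroup.eq_one_iff] at hg
    obtain ⟨i, hi⟩ := mem_powers_iff_mem_zpowers.2 hg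
    exact ⟨i, by rw [← hi]; simp [z]⟩
  let Pb := P.mapSurjective hsurj
  have hPb : ∀ {x : N ⧸ Zs}, x ∈ Pb ↔ ∃ g : N, (g : GL (Fin 3) F) ∈ R.Rs ∧ π g = x := by
    intro x
    show x ∈ ((P.mapSurjective hsurj : Sylow 3 (N ⧸ Zs)) : Subgroup (N ⧸ Zs)) ↔ _
    rw [Sylow.coe_mapSurjective, hPeq, Subgroup.mem_map]
    simp [hP₀, Subgroup.mem_subgroupOf]
  have hcomm : ∀ x ∈ Pb, ∀ y ∈ Pb, x * y = y * x := by
    intro x hx y hy
    obtain ⟨g, hg, rfl⟩ := hPb.1 hx
    obtain ⟨g', hg', rfl⟩ := hPb.1 hy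
    obtain ⟨a, b, c, hel⟩ := hg
    obtain ⟨a', b', c', hel'⟩ := hg'
    rw [← map_mul, ← map_mul, hπ, QuotientGroup.mk'_eq_mk']
    refine ⟨z ^ (2 * (c' * b) + 4 * (c * b')), Subgroup.pow_mem _ (Subgroup.mem_zpowers z) _, ?_⟩
    refine Subtype.ext ?_
    simp only [Subgroup.coe_mul, SubmonoidClass.coe_pow, hel, hel', z, R.el_mul]
    rw [← R.zpow_comm, Root3.el, Root3.el, ← mul_assoc, ← pow_add, add_comm b' b, add_comm c' c]
    congr 1
    conv_lhs => rw [← Nat.div_add_mod (2 * (c' * b) + 4 * (c * b') + (a + a' + 2 * (c * b'))) 3]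
    conv_rhs => rw [← Nat.div_add_mod (a' + a + 2 * (c' * b)) 3]
    rw [pow_add, pow_mul, R.gZ_cube, one_pow, one_mul, pow_add, pow_mul, R.gZ_cube, one_pow, one_mul]
    congr 1
    omega
  have hlift : ∀ {g : N}, (∀ r ∈ R.Rs, (g : GL (Fin 3) F) * r * (g : GL (Fin 3) F)⁻¹ ∈ R.Rs) →
      π g ∈ Pb := fun {g} h =>
    hPb.2 ⟨g, hc.self_normal hNX hnor hodd hRN g.2 h, rfl⟩
  have hNC : Subgroup.normalizer (Pb : Set (N ⧸ Zs)) ≤ Subgroup.centralizer (Pb : Set (N ⧸ Zs)) := by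
    intro x hx
    obtain ⟨g, rfl⟩ := hsurj x
    have : π g ∈ Pb := hlift fun r hr => by
      have h := (Subgroup.mem_normalizer_iff.1 hx (π ⟨r, hRN hr⟩)).1 (hPb.2 ⟨_, hr, rfl⟩)
      obtain ⟨g', hg', he⟩ := hPb.1 h
      rw [← map_inv, ← map_mul, ← map_mul] at he
      obtain ⟨i, hi⟩ := hker (g := g'⁻¹ * (g * ⟨r, hRN hr⟩ * g⁻¹)) (by
        rw [map_mul, map_inv, he, inv_mul_cancel])
      simp only [Subgroup.coe_mul, Subgroup.coe_inv, inv_mul_eq_iff_eq_mul] at hi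
      rw [hi]
      exact mul_mem hg' (pow_mem R.gZ_mem i)
    exact Subgroup.mem_centralizer_iff.2 fun y hy => hcomm y hy _ this
  set K := (MonoidHom.transferSylow Pb hNC).ker with hK
  have hcompl := MonoidHom.ker_transferSylow_isComplement' Pb hNC
  have hK3 : ¬ 3 ∣ Nat.card K := MonoidHom.not_dvd_card_ker_transferSylow Pb hNC
  haveI : IsMulCommutative (Pb : Subgroup (N ⧸ Zs)) :=
    ⟨⟨fun x y => Subtype.ext (hcomm x x.2 y y.2)⟩⟩
  have hncyc : ¬ IsCyclic (Pb : Subgroup (N ⧸ Zs)) := by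
    intro h
    obtain ⟨⟨x, hx⟩, hgen⟩ := IsCyclic.exists_generator (α := (Pb : Subgroup (N ⧸ Zs)))
    obtain ⟨g, -, rfl⟩ := hPb.1 hx
    have key : ∀ {r : GL (Fin 3) F} (hr : r ∈ R.Rs), ∃ (i : ℤ) (j : ℕ),
        r = (g : GL (Fin 3) F) ^ i * R.gZ ^ j := by
      intro r hr
      obtain ⟨i, hi⟩ := hgen ⟨π ⟨r, hRN hr⟩, hPb.2 ⟨_, hr, rfl⟩⟩
      have hi' : π g ^ i = π ⟨r, hRN hr⟩ := congrArg Subtype.val hi
      obtain ⟨j, hj⟩ := hker (g := (g ^ i)⁻¹ * ⟨r, hRN hr⟩) (by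
        rw [map_mul, map_inv, map_zpow, hi', inv_mul_cancel])
      simp only [Subgroup.coe_mul, Subgroup.coe_inv, Subgroup.coe_zpow, inv_mul_eq_iff_eq_mul] at hj
      exact ⟨i, j, hj⟩
    obtain ⟨i, j, hXg⟩ := key R.gX_mem
    obtain ⟨i', j', hYg⟩ := key R.gY_mem
    have hXY : Root3.gY * R.gX = R.gX * Root3.gY := by
      rw [hXg, hYg]
      exact Commute.mul_left
        (Commute.mul_right (Commute.zpow_zpow_self _ _ _) (R.zpow_comm j _).symm)
        (Commute.mul_right (R.zpow_comm j' _) (R.zpow_comm j' _))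
    have h2 := R.gY_gX
    rw [hXY, right_eq_mul] at h2
    exact absurd (hc.Z_pow_eq_one h2) (by norm_num)
  have hcardK : Nat.card K ∣ Nat.card N :=
    (Subgroup.card_subgroup_dvd_card K).trans (Subgroup.card_quotient_dvd_card Zs)
  have hcopK : Nat.Coprime (Nat.card K) 6 := by
    rw [show (6 : ℕ) = 2 * 3 by norm_num, Nat.coprime_mul_iff_right]
    refine ⟨Nat.coprime_two_right.2 (hodd.of_dvd_nat hcardK), ?_⟩
    exact ((Nat.prime_three.coprime_iff_not_dvd).2 hK3).symm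
  obtain ⟨kP, hkP⟩ := IsPGroup.iff_card.1 Pb.2
  have hgen := Coprime.iSup_centralizer_eq (A := (Pb : Subgroup (N ⧸ Zs))) (K := K) hncyc
    (fun x _ => by rw [Subgroup.normalizer_eq_top]; trivial)
    (by
      rw [hkP]
      exact Nat.Coprime.pow_left _ ((Nat.prime_three.coprime_iff_not_dvd).2 hK3))
  have hKbot : K = ⊥ := by
    rw [eq_bot_iff, ← hgen]
    refine iSup₂_le ?_
    rintro x ⟨hx, hx1⟩
    rintro k ⟨hk, hkc⟩
    rw [Subgroup.mem_bot]
    obtain ⟨g, rfl⟩ := hsurj k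
    obtain ⟨e, he, rfl⟩ := hPb.1 hx
    set n := orderOf (π g) with hn
    have hnK : n ∣ Nat.card K := by
      rw [hn, ← Subgroup.orderOf_mk _ hk]; exact orderOf_dvd_natCard _
    have hn6 : Nat.Coprime n 6 := hcopK.coprime_dvd_left hnK
    -- a lift of order prime to three
    obtain ⟨i, hi⟩ := hker (g := g ^ n) (by rw [map_pow, hn, pow_orderOf_eq_one])
    have hg3 : ((g : GL (Fin 3) F) ^ 3) ^ n = 1 := by
      rw [← pow_mul, mul_comm, pow_mul, ← SubmonoidClass.coe_pow, hi, ← pow_mul, mul_comm, pow_mul,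
        R.gZ_cube, one_pow]
    -- it commutes with `e` modulo `Z`
    have hke : π g * π e = π e * π g :=
      (Subgroup.mem_centralizer_iff.1 hkc (π e) rfl).symm
    obtain ⟨j, hj⟩ := hker (g := e⁻¹ * (g ^ 3 * e * (g ^ 3)⁻¹)) (by
      have h3 : Commute (π g ^ 3) (π e) := (show Commute (π g) (π e) from hke).pow_left 3
      rw [map_mul, map_inv, map_mul, map_mul, map_inv, map_pow, h3.eq, mul_inv_cancel_right,
        inv_mul_cancel])
    simp only [Subgroup.coe_mul, Subgroup.coe_inv, SubmonoidClass.coe_pow,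
      inv_mul_eq_iff_eq_mul] at hj
    -- move `e` to `X₀`
    have hns : ∀ a : ℕ, (e : GL (Fin 3) F) ≠ R.gZ ^ a := by
      intro a ha
      refine hx1 ?_
      rw [hπ, QuotientGroup.mk'_apply, QuotientGroup.eq_one_iff,
        show e = z ^ a from Subtype.ext (by rw [SubmonoidClass.coe_pow]; exact ha)]
      exact Subgroup.pow_mem _ (Subgroup.mem_zpowers z) _
    obtain ⟨a, b, c, hb, hc3, hbc, hel⟩ := R.exists_el_of_not_scalar he hns
    obtain ⟨q, hq, -, k, hk'⟩ := R.exists_Qs_conj hb hc3 hbc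
    obtain ⟨x', hx'⟩ : ∃ x', x' = q⁻¹ * (g : GL (Fin 3) F) ^ 3 * q := ⟨_, rfl⟩
    have hx'X : x' ∈ X := hx' ▸ mul_mem (mul_mem (inv_mem (hc.Qs_le hq)) (pow_mem (hNX g.2) 3)) (hc.Qs_le hq)
    have hab : (e : GL (Fin 3) F) = R.gZ ^ (a + 2 * k) * (q * R.gX * q⁻¹) := by
      rw [hel, hk', Root3.el, Root3.el, ← mul_assoc (R.gZ ^ (a + 2 * k)), ← pow_add,
        show a + 2 * k + k = a + 3 * k by ring, pow_add, pow_mul, R.gZ_cube, one_pow, mul_one]
    have hconj : x' * R.gX * x'⁻¹ = R.gZ ^ j * R.gX := by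
      have h1 : (g : GL (Fin 3) F) ^ 3 * (q * R.gX * q⁻¹) * ((g : GL (Fin 3) F) ^ 3)⁻¹ =
          R.gZ ^ j * (q * R.gX * q⁻¹) := by
        have h2 := hj
        rw [hab, ← mul_assoc ((g : GL (Fin 3) F) ^ 3), ← R.zpow_comm, mul_assoc (R.gZ ^ _),
          mul_assoc (R.gZ ^ _), mul_assoc (R.gZ ^ _), ← R.zpow_comm j] at h2
        exact mul_left_cancel h2
      calc x' * R.gX * x'⁻¹
          = q⁻¹ * ((g : GL (Fin 3) F) ^ 3 * (q * R.gX * q⁻¹) * ((g : GL (Fin 3) F) ^ 3)⁻¹) * q := by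
            rw [hx']; group
        _ = q⁻¹ * R.gZ ^ j * (q * R.gX * q⁻¹) * q := by rw [h1]; group
        _ = _ := by rw [← R.zpow_comm]; group
    have hiter : ∀ m : ℕ, x' ^ m * R.gX * (x' ^ m)⁻¹ = R.gZ ^ (m * j) * R.gX := by
      intro m
      induction m with
      | zero => simp
      | succ m ih =>
        rw [pow_succ', show x' * x' ^ m * R.gX * (x' * x' ^ m)⁻¹ =
          x' * (x' ^ m * R.gX * (x' ^ m)⁻¹) * x'⁻¹ by group, ih, ← mul_assoc x', ← R.zpow_comm,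
          show R.gZ ^ (m * j) * x' * R.gX * x'⁻¹ = R.gZ ^ (m * j) * (x' * R.gX * x'⁻¹) by group, hconj,
          ← mul_assoc, ← pow_add, add_one_mul m j]
    have hx'n : x' ^ n = 1 := by
      rw [hx', show q⁻¹ * (g : GL (Fin 3) F) ^ 3 * q = q⁻¹ * (g : GL (Fin 3) F) ^ 3 * q⁻¹⁻¹ by group,
        conj_pow, hg3, mul_one, mul_inv_cancel]
    have hn' := hiter n
    rw [hx'n, one_mul, inv_one, mul_one, right_eq_mul] at hn'
    have hj0 : R.gZ ^ j = 1 := by
      have h3 : 3 ∣ n * j := Nat.dvd_of_mod_eq_zero (hc.Z_pow_eq_one hn')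
      obtain ⟨c', rfl⟩ := (Nat.prime_three.dvd_mul.1 h3).resolve_left
        ((Nat.prime_three.coprime_iff_not_dvd).1 (hn6.coprime_dvd_right (by norm_num : 3 ∣ 6)).symm)
      rw [pow_mul, R.gZ_cube, one_pow]
    rw [hj0, one_mul] at hconj
    have hone := hc.eq_one_of_comm hx'X hn6 hx'n (mul_inv_eq_iff_eq_mul.1 hconj)
    have hg31 : g ^ 3 = 1 := Subtype.ext (by
      rw [SubmonoidClass.coe_pow, Subgroup.coe_one,
        show (g : GL (Fin 3) F) ^ 3 = q * x' * q⁻¹ by rw [hx']; group, hone, mul_one, mul_inv_cancel])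
    exact orderOf_eq_one_iff.1 (Nat.eq_one_of_dvd_coprimes
      (hn6.coprime_dvd_right (by norm_num : 3 ∣ 6)) (dvd_refl _)
      (orderOf_dvd_of_pow_eq_one (by rw [← map_pow, hg31, map_one])))
  have htop : (Pb : Subgroup (N ⧸ Zs)) = ⊤ := by
    have h := hcompl
    rw [show (MonoidHom.transferSylow Pb hNC).ker = ⊥ from hKbot] at h
    exact Subgroup.isComplement'_bot_left.1 h
  refine le_antisymm (fun g hg => ?_) hRN
  have hmem : π ⟨g, hg⟩ ∈ Pb := by
    show π ⟨g, hg⟩ ∈ (Pb : Subgroup (N ⧸ Zs))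
    rw [htop]; trivial
  obtain ⟨g', hg', he⟩ := hPb.1 hmem
  obtain ⟨i, hi⟩ := hker (g := g'⁻¹ * ⟨g, hg⟩) (by rw [map_mul, map_inv, he, inv_mul_cancel])
  simp only [Subgroup.coe_mul, Subgroup.coe_inv, inv_mul_eq_iff_eq_mul] at hi
  rw [hi]
  exact mul_mem hg' (pow_mem R.gZ_mem i)

end Normal

/-- In the isolated case `X` normalises `3^{1+2}`. -/
theorem normalizes_of_isolated
    (iso : ∀ g ∈ X, Commute Root3.gH (g * Root3.gH * g⁻¹) → g * Root3.gH * g⁻¹ = Root3.gH) :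
    ∀ g ∈ X, ∀ r ∈ R.Rs, g * r * g⁻¹ ∈ R.Rs := by
  let zH : X := ⟨Root3.gH, hc.gH_mem⟩
  have hz : Cfsg.IsIsolatedInvolution zH := by
    refine ⟨?_, fun g hg => Subtype.ext ?_⟩
    swap
    · have h := congrArg Subtype.val hg.eq
      simp only [Subgroup.coe_mul, Subgroup.coe_inv, zH] at h ⊢
      exact iso g g.2 h
    rw [← Subgroup.orderOf_coe]
    exact orderOf_eq_prime (by rw [pow_two]; exact Root3.gH_sq) fun h1 =>
      hc.Z_pow_ne_H 0 (by rw [pow_zero]; exact h1.symm)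
  obtain ⟨N, hNn, hNodd, hN⟩ := TwoFusion.exists_odd_normal_of_isolated hz
  set M := N.map X.subtype with hM
  have hMX : M ≤ X := Subgroup.map_subtype_le N
  have hnor : ∀ g ∈ X, ∀ m ∈ M, g * m * g⁻¹ ∈ M := by
    rintro g hg m ⟨m', hm', rfl⟩
    refine Subgroup.mem_map.2 ⟨⟨g, hg⟩ * m' * ⟨g, hg⟩⁻¹, hNn.conj_mem m' hm' _, ?_⟩
    simp
  have hcomm : ∀ g ∈ X, Root3.gH * g * Root3.gH⁻¹ * g⁻¹ ∈ M := fun g hg =>
    Subgroup.mem_map.2 ⟨zH * ⟨g, hg⟩ * zH⁻¹ * ⟨g, hg⟩⁻¹, hN _, by simp [zH]⟩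
  have hXM : R.gX ∈ M := by
    have h := hcomm _ hc.hX
    rwa [R.conj_gH_X, pow_two, mul_inv_cancel_right] at h
  have hYM : Root3.gY ∈ M := by
    have h := hnor _ hc.hW₁ _ hXM
    rw [R.conj_gW₁_X] at h
    have h2 := pow_mem h 2
    rwa [← pow_mul, show 2 * 2 = 3 + 1 from rfl, pow_succ, Root3.gY_cube, one_mul] at h2
  have hRM : R.Rs ≤ M := by
    have hZ : R.gZ ∈ M := by
      have h1 : R.gZ ^ 2 ∈ M := by
        have h := R.gY_gX
        rw [← mul_inv_eq_iff_eq_mul] at h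
        rw [← h]
        exact mul_mem (mul_mem hYM hXM) (inv_mem (mul_mem hXM hYM))
      have h2 : R.gZ = (R.gZ ^ 2) ^ 2 := by
        rw [← pow_mul, show 2 * 2 = 3 + 1 from rfl, pow_succ, R.gZ_cube, one_mul]
      rw [h2]; exact pow_mem h1 2
    rintro g ⟨a, b, c, rfl⟩
    exact mul_mem (pow_mem hZ a) (mul_mem (pow_mem hXM b) (pow_mem hYM c))
  have hodd : Odd (Nat.card M) := by
    rw [hM, Subgroup.card_map_of_injective X.subtype_injective]
    exact hNodd
  have hMR := hc.eq_Rs hMX hnor hodd hRM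
  intro g hg r hr
  rw [← hMR] at hr ⊢
  exact hnor g hg r hr

end Cfg

end Cfsg.Agent.SLThree.Symp
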