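import Cfsg.Agent.SLThree.SympFused
import Cfsg.Agent.SLThree.SympIsolated

/-!
A subgroup of `SL₃(F)` without transvections containing `3^{1+2}` and the quaternion group of its
normaliser normalises `3^{1+2}` (characteristic not two, three or five).
-/

set_option autoImplicit false
set_option linter.unusedSectionVars false

namespace Cfsg.Agent.SLThree.Symp

open Matrix
open scoped MatrixGroups

variable {F : Type*} [Field F] [Fintype F]

/-- An overgroup of `3^{1+2}.Q₈` without transvections normalises `3^{1+2}`. -/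
theorem normalizes (R : Root3 F) (X : Subgroup (GL (Fin 3) F)) (h5 : (5 : F) ≠ 0)
    (hdet : ∀ g ∈ X, Matrix.det (g : Matrix (Fin 3) (Fin 3) F) = 1)
    (hX : R.gX ∈ X) (hY : Root3.gY ∈ X) (hW₁ : R.gW₁ ∈ X) (hW₂ : R.gW₂ ∈ X)
    (hNT : ∀ g ∈ X,
      ((g : Matrix (Fin 3) (Fin 3) F) - 1) * ((g : Matrix (Fin 3) (Fin 3) F) - 1) = 0 → g = 1) :
    ∀ g ∈ X, ∀ r ∈ R.Rs, g * r * g⁻¹ ∈ R.Rs := by
  have hc : Cfg R X := ⟨h5, hdet, hX, hY, hW₁, hW₂, hNT⟩
  by_cases iso : ∀ g ∈ X, Commute Root3.gH (g * Root3.gH * g⁻¹) →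
      g * Root3.gH * g⁻¹ = Root3.gH
  · exact hc.normalizes_of_isolated iso
  · push Not at iso
    obtain ⟨g, hg, hcomm, hne⟩ := iso
    let fs : Fused R X :=
      { s := ⟨g * Root3.gH * g⁻¹,
          mem_cenH.2 ⟨mul_mem (mul_mem hg hc.gH_mem) (inv_mem hg), hcomm.eq.symm⟩⟩
        g := g
        mem := hg
        eq := rfl
        ne := hne }
    exact (fs.absurd_fused hc).elim

end Cfsg.Agent.SLThree.Symp
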