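import Cfsg.Agent.SLThree.Root
import Cfsg.Agent.MaxSub.Proper

/-!
Points of the projective plane over `F` in normal form, stabilisers of the first base point,
orbit counting and transfer of maximality along conjugation.
-/

set_option autoImplicit false
set_option linter.unusedSectionVars false

namespace Cfsg.Agent.SLThree

open Matrix Cfsg.Geo Cfsg.Agent.GeoClasses Cfsg.Agent.MaxSub.SubfieldMax
open scoped MatrixGroups Matrix

variable {F : Type*} [Field F]

/-- The first base vector. -/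
def e₀ : Fin 3 → F := ![1, 0, 0]

/-- Normal forms of points: `(a,b,1)`, `(a,1,0)`, `(1,0,0)`. -/
abbrev Pt (F : Type*) : Type _ := (F × F) ⊕ (F ⊕ Unit)

/-- The normalised vector of a point. -/
def rep : Pt F → (Fin 3 → F)
  | Sum.inl p => ![p.1, p.2, 1]
  | Sum.inr (Sum.inl a) => ![a, 1, 0]
  | Sum.inr (Sum.inr _) => ![1, 0, 0]

theorem rep_ne_zero (P : Pt F) : rep P ≠ 0 := by
  intro h
  rcases P with ⟨a, b⟩ | a | u
  · simpa [rep] using congrFun h 2
  · simpa [rep] using congrFun h 1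
  · simpa [rep] using congrFun h 0

/-- The line through a vector. -/
def line (v : Fin 3 → F) : Submodule F (Fin 3 → F) := Submodule.span F {v}

theorem line_eq_iff {v w : Fin 3 → F} (hw : w ≠ 0) :
    line w = line v ↔ ∃ c : F, c ≠ 0 ∧ w = c • v := by
  constructor
  · intro h
    have hm : w ∈ line v := h ▸ Submodule.mem_span_singleton_self w
    obtain ⟨c, rfl⟩ := Submodule.mem_span_singleton.1 hm
    exact ⟨c, fun hc => hw (by rw [hc, zero_smul]), rfl⟩
  · rintro ⟨c, hc, rfl⟩
    exact Submodule.span_singleton_smul_eq (isUnit_iff_ne_zero.2 hc) v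

theorem line_rep_injective : Function.Injective fun P : Pt F => line (rep P) := by
  intro P Q h
  obtain ⟨c, hc, e⟩ := (line_eq_iff (rep_ne_zero P)).1 h
  have e0 := congrFun e 0
  have e1 := congrFun e 1
  have e2 := congrFun e 2
  rcases P with ⟨a, b⟩ | a | u <;> rcases Q with ⟨a', b'⟩ | a' | u'
  · have hc1 : c = 1 := by simpa [rep] using e2.symm
    simp [rep, hc1] at e0 e1
    rw [e0, e1]
  · simp [rep] at e2
  · simp [rep] at e2
  · simp [rep] at e2; exact absurd e2.symm hc
  · have hc1 : c = 1 := by simpa [rep] using e1.symm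
    simp [rep, hc1] at e0
    rw [e0]
  · simp [rep] at e1
  · simp [rep] at e2; exact absurd e2.symm hc
  · simp [rep] at e1; exact absurd e1.symm hc
  · rfl

theorem exists_pt {v : Fin 3 → F} (hv : v ≠ 0) : ∃ P : Pt F, line v = line (rep P) := by
  by_cases h2 : v 2 = 0
  · by_cases h1 : v 1 = 0
    · have h0 : v 0 ≠ 0 := fun h0 => hv (by ext i; fin_cases i <;> assumption)
      refine ⟨.inr (.inr ()), (line_eq_iff hv).2 ⟨v 0, h0, ?_⟩⟩
      ext i; fin_cases i <;> simp [rep, h1, h2]
    · refine ⟨.inr (.inl (v 0 / v 1)), (line_eq_iff hv).2 ⟨v 1, h1, ?_⟩⟩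
      ext i; fin_cases i <;> simp [rep, h2] <;> field_simp
  · refine ⟨.inl (v 0 / v 2, v 1 / v 2), (line_eq_iff hv).2 ⟨v 2, h2, ?_⟩⟩
    ext i; fin_cases i <;> (simp [rep]; try field_simp)

theorem card_pt [Fintype F] : Nat.card (Pt F) = Fintype.card F ^ 2 + Fintype.card F + 1 := by
  simp [Nat.card_eq_fintype_card]
  ring

theorem rep_base : rep (Sum.inr (Sum.inr ()) : Pt F) = e₀ := rfl

/-- The image of a line under a matrix. -/
theorem line_mulVec (g : GL (Fin 3) F) (v : Fin 3 → F) :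
    (line v).map (Matrix.toLin' (g : Matrix (Fin 3) (Fin 3) F)) =
      line ((g : Matrix (Fin 3) (Fin 3) F) *ᵥ v) := by
  rw [line, Submodule.map_span, Set.image_singleton, Matrix.toLin'_apply]
  rfl

theorem mem_stab_line {g : GL (Fin 3) F} {v : Fin 3 → F} :
    g ∈ subspaceStabilizer (line v) ↔ line ((g : Matrix (Fin 3) (Fin 3) F) *ᵥ v) = line v := by
  rw [mem_subspaceStabilizer_iff_map_eq, line_mulVec]

theorem mulVec_ne_zero (g : GL (Fin 3) F) {v : Fin 3 → F} (hv : v ≠ 0) :
    (g : Matrix (Fin 3) (Fin 3) F) *ᵥ v ≠ 0 := fun h =>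
  hv (mulVec_injective g (h.trans (Matrix.mulVec_zero _).symm))

theorem mem_stab_e₀ {g : GL (Fin 3) F} :
    g ∈ subspaceStabilizer (line (e₀ : Fin 3 → F)) ↔
      (g : Matrix (Fin 3) (Fin 3) F) 1 0 = 0 ∧ (g : Matrix (Fin 3) (Fin 3) F) 2 0 = 0 := by
  have he : (e₀ : Fin 3 → F) = Pi.single 0 1 := by ext i; fin_cases i <;> simp [e₀]
  have hcol : ∀ i, ((g : Matrix (Fin 3) (Fin 3) F) *ᵥ e₀) i = (g : Matrix (Fin 3) (Fin 3) F) i 0 :=
    fun i => by rw [he, Matrix.mulVec_single_one]; rfl
  have hne : (e₀ : Fin 3 → F) ≠ 0 := fun h => by simpa [e₀] using congrFun h 0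
  rw [mem_stab_line, line_eq_iff (mulVec_ne_zero g hne)]
  constructor
  · rintro ⟨c, -, e⟩
    constructor <;>
    · rw [← hcol, e]; simp [e₀]
  · rintro ⟨h1, h2⟩
    refine ⟨(g : Matrix (Fin 3) (Fin 3) F) 0 0, fun h0 => ?_, ?_⟩
    · exact Matrix.GeneralLinearGroup.det_ne_zero g (Matrix.det_eq_zero_of_column_eq_zero 0
        fun i => by fin_cases i <;> assumption)
    · ext i
      rw [hcol]
      fin_cases i <;> simp [e₀, h1, h2]

/-- The points in the orbit of a vector. -/
def ptOrbit (X : Subgroup (GL (Fin 3) F)) (v : Fin 3 → F) : Set (Pt F) :=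
  {P | ∃ g ∈ X, line ((g : Matrix (Fin 3) (Fin 3) F) *ᵥ v) = line (rep P)}

theorem mem_ptOrbit_smul {X : Subgroup (GL (Fin 3) F)} {v : Fin 3 → F} {P Q : Pt F}
    (hP : P ∈ ptOrbit X v) {g : GL (Fin 3) F} (hg : g ∈ X)
    (h : line ((g : Matrix (Fin 3) (Fin 3) F) *ᵥ rep P) = line (rep Q)) : Q ∈ ptOrbit X v := by
  obtain ⟨k, hk, e⟩ := hP
  refine ⟨g * k, mul_mem hg hk, ?_⟩
  rw [Units.val_mul, ← Matrix.mulVec_mulVec, ← line_mulVec, e, line_mulVec, h]

/-- Orbit-stabiliser. -/
theorem card_eq_orbit [Finite F] (X : Subgroup (GL (Fin 3) F)) {v : Fin 3 → F} (hv : v ≠ 0) :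
    Nat.card X = Nat.card (ptOrbit X v) * Nat.card (X ⊓ subspaceStabilizer (line v) : Subgroup _) := by
  classical
  let K : Subgroup X := (subspaceStabilizer (line v)).subgroupOf X
  have hrel : ∀ a b : X, a⁻¹ * b ∈ K ↔
      line (((a : GL (Fin 3) F) : Matrix (Fin 3) (Fin 3) F) *ᵥ v) =
        line (((b : GL (Fin 3) F) : Matrix (Fin 3) (Fin 3) F) *ᵥ v) := by
    intro a b
    rw [Subgroup.mem_subgroupOf, mem_stab_line, ← line_mulVec, ← line_mulVec, ← line_mulVec,
      Subgroup.coe_mul, Subgroup.coe_inv, Units.val_mul, Matrix.toLin'_mul, Submodule.map_comp]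
    constructor
    · intro h
      conv_lhs => rw [← h]
      rw [← Submodule.map_comp, ← Matrix.toLin'_mul, ← Units.val_mul, mul_inv_cancel, Units.val_one,
        Matrix.toLin'_one, Submodule.map_id]
    · intro h
      rw [← h, ← Submodule.map_comp, ← Matrix.toLin'_mul, ← Units.val_mul, inv_mul_cancel,
        Units.val_one, Matrix.toLin'_one, Submodule.map_id]
  have hex : ∀ a : X, ∃ P : Pt F, line (((a : GL (Fin 3) F) : Matrix (Fin 3) (Fin 3) F) *ᵥ v) =
      line (rep P) := fun a => exists_pt (mulVec_ne_zero _ hv)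
  choose f hf using hex
  have hcongr : ∀ a b : X, QuotientGroup.leftRel K a b → f a = f b := fun a b h =>
    line_rep_injective (by
      show line (rep (f a)) = line (rep (f b))
      rw [← hf, ← hf]; exact (hrel a b).1 (QuotientGroup.leftRel_apply.1 h))
  let φ : X ⧸ K → ptOrbit X v := Quotient.lift (fun a => ⟨f a, a, a.2, hf a⟩) fun a b h =>
    Subtype.ext (hcongr a b h)
  have hbij : Function.Bijective φ := by
    constructor
    · intro a b h
      induction a using QuotientGroup.induction_on with | H a =>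
      induction b using QuotientGroup.induction_on with | H b =>
      apply QuotientGroup.eq.2
      rw [hrel, hf, hf, show f a = f b from congrArg Subtype.val h]
    · rintro ⟨P, g, hg, e⟩
      exact ⟨QuotientGroup.mk ⟨g, hg⟩, Subtype.ext (line_rep_injective
        ((hf ⟨g, hg⟩).symm.trans e))⟩
  rw [Subgroup.card_eq_card_quotient_mul_card_subgroup K, Nat.card_congr (Equiv.ofBijective φ hbij)]
  congr 1
  show Nat.card ((subspaceStabilizer (line v)).subgroupOf X) = _
  rw [← Subgroup.inf_subgroupOf_left, Nat.card_congr (Subgroup.subgroupOfEquivOfLe inf_le_left).toEquiv]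

/-- If the orbit does not grow and the stabiliser does not grow, the group does not grow. -/
theorem le_of_stab_le {X M : Subgroup (GL (Fin 3) F)} {v : Fin 3 → F} (hM : M ≤ X)
    (hstab : X ⊓ subspaceStabilizer (line v) ≤ M) (horb : ptOrbit X v ⊆ ptOrbit M v) (hv : v ≠ 0) :
    X ≤ M := by
  intro g hg
  obtain ⟨P, hP⟩ := exists_pt (mulVec_ne_zero g hv)
  obtain ⟨m, hm, e⟩ := horb ⟨g, hg, hP⟩
  have : m⁻¹ * g ∈ subspaceStabilizer (line v) := by
    rw [mem_stab_line, Units.val_mul, ← Matrix.mulVec_mulVec, ← line_mulVec, hP, ← e, line_mulVec,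
      Matrix.mulVec_mulVec, ← Units.val_mul, inv_mul_cancel, Units.val_one, Matrix.one_mulVec]
  have h := mul_mem hm (hstab (Subgroup.mem_inf.2 ⟨mul_mem (inv_mem (hM hm)) hg, this⟩))
  rwa [mul_inv_cancel_left] at h

theorem ptOrbit_mono {X M : Subgroup (GL (Fin 3) F)} (h : M ≤ X) (v : Fin 3 → F) :
    ptOrbit M v ⊆ ptOrbit X v := fun _ ⟨g, hg, e⟩ => ⟨g, h hg, e⟩

/-- Maximality from the two ingredients. -/
theorem isMaximalIn_of {H : Subgroup (GL (Fin 3) F)}
    (hne : ¬ specialLinear (Fin 3) F ≤ H)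
    (h : ∀ X : Subgroup (GL (Fin 3) F), H ⊓ specialLinear (Fin 3) F ≤ X →
      X ≤ specialLinear (Fin 3) F → ¬ specialLinear (Fin 3) F ≤ X → X ≤ H) :
    IsMaximalIn (specialLinear (Fin 3) F) (H ⊓ specialLinear (Fin 3) F) := by
  refine ⟨lt_of_le_not_ge inf_le_right fun hle => hne (hle.trans inf_le_left), fun X hX hXS => ?_⟩
  by_cases hS : specialLinear (Fin 3) F ≤ X
  · exact Or.inr (le_antisymm hXS hS)
  · exact Or.inl (le_antisymm (le_inf (h X hX hXS hS) hXS) hX)

/-- Maximality is invariant under conjugation. -/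
theorem isMaximalIn_conj {ι : Type} [Fintype ι] [DecidableEq ι] {H : Subgroup (GL ι F)} (P : GL ι F)
    (h : IsMaximalIn (specialLinear ι F) (H ⊓ specialLinear ι F)) :
    IsMaximalIn (specialLinear ι F) (H.map (MulAut.conj P).toMonoidHom ⊓ specialLinear ι F) := by
  have hS : ∀ Q : GL ι F, (specialLinear ι F).map (MulAut.conj Q).toMonoidHom = specialLinear ι F := by
    intro Q
    have hn := Cfsg.Agent.MaxSub.specialLinear_normal (ι := ι) (F := F)
    ext g
    constructor
    · rintro ⟨k, hk, rfl⟩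
      simpa using hn.conj_mem k hk Q
    · intro hg
      exact ⟨Q⁻¹ * g * Q, by simpa using hn.conj_mem g hg Q⁻¹, by simp [mul_assoc]⟩
  have hmap : H.map (MulAut.conj P).toMonoidHom ⊓ specialLinear ι F =
      (H ⊓ specialLinear ι F).map (MulAut.conj P).toMonoidHom := by
    rw [Subgroup.map_inf _ _ _ (MulAut.conj P).injective, hS]
  rw [hmap]
  obtain ⟨hlt, hmax⟩ := h
  have hback : ∀ X : Subgroup (GL ι F),
      (X.map (MulAut.conj P⁻¹).toMonoidHom).map (MulAut.conj P).toMonoidHom = X := by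
    intro X
    rw [Subgroup.map_map]
    convert Subgroup.map_id X
    ext g
    simp [mul_assoc]
  refine ⟨?_, fun X hX hXS => ?_⟩
  · nth_rewrite 2 [← hS P]
    exact (Subgroup.map_lt_map_iff_of_injective (MulAut.conj P).injective).2 hlt
  · have h1 : H ⊓ specialLinear ι F ≤ X.map (MulAut.conj P⁻¹).toMonoidHom := fun g hg =>
      ⟨P * g * P⁻¹, hX ⟨g, hg, rfl⟩, by simp [mul_assoc]⟩
    rcases hmax _ h1 ((Subgroup.map_mono hXS).trans (hS _).le) with e | e
    · left; rw [← hback X, e]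
    · right; rw [← hback X, e, hS]

end Cfsg.Agent.SLThree
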