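import Cfsg.Agent.SLThree.Unitri

/-!
`SL(3, q)` with `q ≥ 5` has no subgroup of order prime to `p` and index `q³`.
-/

set_option autoImplicit false
set_option linter.unusedSectionVars false
set_option linter.style.haveILetI false

namespace Cfsg.Agent.SLThree.HallP

open Matrix Cfsg.Geo Cfsg.Agent.SLThree.Unitri
open scoped MatrixGroups Matrix

variable {F : Type*} [Field F] [Fintype F]

local notation "q" => Fintype.card F

theorem mem_sl {g : GL (Fin 3) F} :
    g ∈ specialLinear (Fin 3) F ↔ (g : Matrix (Fin 3) (Fin 3) F).det = 1 := by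
  rw [specialLinear, MonoidHom.mem_ker, Units.ext_iff, Units.val_one]
  rfl

theorem card_sl_mul :
    Nat.card (specialLinear (Fin 3) F) * (q - 1) =
      q ^ 3 * ((q - 1) ^ 3 * (q + 1) * (q ^ 2 + q + 1)) := by
  rw [← card_GL_three, Linear.card_GL_eq_mul_card_SL, Linear.card_units_eq, mul_comm]
  congr 1
  exact (Nat.card_congr Linear.slEquivKerDet.toEquiv).symm

theorem card_sl : Nat.card (specialLinear (Fin 3) F) = q ^ 3 * ((q - 1) ^ 2 * (q + 1) * (q ^ 2 + q + 1)) := by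
  have h : 0 < q - 1 := Linear.sub_one_pos
  apply Nat.eq_of_mul_eq_mul_right h
  rw [card_sl_mul]
  ring

/-- `diag(a, b, (ab)⁻¹)`. -/
def dg (a b : Fˣ) : GL (Fin 3) F :=
  ⟨Matrix.diagonal ![(a : F), b, ((a * b)⁻¹ : Fˣ)], Matrix.diagonal ![((a⁻¹ : Fˣ) : F), (b⁻¹ : Fˣ), (a * b : Fˣ)],
    by rw [Matrix.diagonal_mul_diagonal]; convert Matrix.diagonal_one using 2; ext i; fin_cases i <;> simp <;> field_simp,
    by rw [Matrix.diagonal_mul_diagonal]; convert Matrix.diagonal_one using 2; ext i; fin_cases i <;> simp <;> field_simp⟩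

theorem dg_val (a b : Fˣ) : ((dg a b : GL (Fin 3) F) : Matrix (Fin 3) (Fin 3) F) =
    Matrix.diagonal ![(a : F), b, ((a * b)⁻¹ : Fˣ)] := rfl

theorem dg_sl (a b : Fˣ) : dg a b ∈ specialLinear (Fin 3) F := by
  rw [mem_sl, dg_val, Matrix.det_diagonal, Fin.prod_univ_three]
  simp
  field_simp

theorem dg_upper (a b : Fˣ) : dg a b ∈ upperSub F := by
  rw [mem_upperSub, dg_val]
  simp

theorem det_upper {g : GL (Fin 3) F} (hg : g ∈ upperSub F) :
    (g : Matrix (Fin 3) (Fin 3) F).det = (g : Matrix (Fin 3) (Fin 3) F) 0 0 *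
      (g : Matrix (Fin 3) (Fin 3) F) 1 1 * (g : Matrix (Fin 3) (Fin 3) F) 2 2 := by
  rw [Matrix.det_fin_three, hg.1, hg.2.1, hg.2.2]
  ring

theorem diag_ne_zero {g : GL (Fin 3) F} (hg : g ∈ upperSub F) (i : Fin 3) :
    (g : Matrix (Fin 3) (Fin 3) F) i i ≠ 0 := fun h => by
  refine Matrix.GeneralLinearGroup.det_ne_zero g ?_
  rw [det_upper hg]
  fin_cases i <;> (simp only [Fin.zero_eta, Fin.mk_one, Fin.reduceFinMk] at h; simp [h])

/-- The lower bound for the Borel subgroup. -/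
theorem card_borel_ge :
    q ^ 3 * (q - 1) ^ 2 ≤ Nat.card (upperSub F ⊓ specialLinear (Fin 3) F : Subgroup (GL (Fin 3) F)) := by
  have h : Nat.card (Fˣ × Fˣ × unitriSub F) = q ^ 3 * (q - 1) ^ 2 := by
    rw [Nat.card_prod, Nat.card_prod, card_unitriSub, Linear.card_units_eq]; ring
  rw [← h]
  refine Nat.card_le_card_of_injective (fun v => ⟨dg v.1 v.2.1 * (v.2.2 : GL (Fin 3) F),
    mul_mem (dg_upper _ _) v.2.2.2.1, mul_mem (dg_sl _ _) ?_⟩) ?_
  · show (v.2.2 : GL (Fin 3) F) ∈ specialLinear (Fin 3) F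
    rw [mem_sl, det_upper v.2.2.2.1, v.2.2.2.2, v.2.2.2.2, v.2.2.2.2]; simp
  · intro v w e
    have e' : dg v.1 v.2.1 * (v.2.2 : GL (Fin 3) F) = dg w.1 w.2.1 * w.2.2 := congrArg Subtype.val e
    have hd : ∀ i, ((dg v.1 v.2.1 : GL (Fin 3) F) : Matrix (Fin 3) (Fin 3) F) i i =
        ((dg w.1 w.2.1 : GL (Fin 3) F) : Matrix (Fin 3) (Fin 3) F) i i := fun i => by
      have := congrArg (fun g : GL (Fin 3) F => (g : Matrix (Fin 3) (Fin 3) F) i i) e'
      simpa [(upper_mul_apply (dg_upper _ _) v.2.2.2.1).1, (upper_mul_apply (dg_upper _ _) w.2.2.2.1).1,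
        v.2.2.2.2, w.2.2.2.2] using this
    have h0 : v.1 = w.1 := Units.ext (by simpa [dg_val] using hd 0)
    have h1 : v.2.1 = w.2.1 := Units.ext (by simpa [dg_val] using hd 1)
    rw [h0, h1] at e'
    exact Prod.ext h0 (Prod.ext h1 (Subtype.ext (mul_left_cancel e')))

/-- A subgroup of `SL` of order prime to `p` and index `q³`. -/
structure Hall (p : ℕ) (X : Subgroup (GL (Fin 3) F)) : Prop where
  le : X ≤ specialLinear (Fin 3) F
  ndvd : ¬ p ∣ Nat.card X
  card : Nat.card X = (q - 1) ^ 2 * (q + 1) * (q ^ 2 + q + 1)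

variable {p : ℕ} [Fact p.Prime] [CharP F p] {X : Subgroup (GL (Fin 3) F)}

theorem Hall.map (h : Hall p X) (P : GL (Fin 3) F) : Hall p (X.map (MulAut.conj P).toMonoidHom) := by
  refine ⟨?_, ?_, ?_⟩
  · rintro _ ⟨x, hx, rfl⟩
    exact (MonoidHom.normal_ker _).conj_mem x (h.le hx) P
  · rw [Subgroup.card_map_of_injective (MulAut.conj P).injective]; exact h.ndvd
  · rw [Subgroup.card_map_of_injective (MulAut.conj P).injective]; exact h.card

/-- Upper triangular elements of `X` are determined by two diagonal entries. -/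
theorem Hall.inj (h : Hall p X) {g g' : GL (Fin 3) F} (hg : g ∈ X) (hg' : g' ∈ X) (hu : g ∈ upperSub F)
    (hu' : g' ∈ upperSub F) (h0 : (g : Matrix (Fin 3) (Fin 3) F) 0 0 = (g' : Matrix (Fin 3) (Fin 3) F) 0 0)
    (h1 : (g : Matrix (Fin 3) (Fin 3) F) 1 1 = (g' : Matrix (Fin 3) (Fin 3) F) 1 1) : g = g' := by
  have h2 : (g : Matrix (Fin 3) (Fin 3) F) 2 2 = (g' : Matrix (Fin 3) (Fin 3) F) 2 2 := by
    have e := mem_sl.1 (h.le hg)
    have e' := mem_sl.1 (h.le hg')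
    rw [det_upper hu, h0, h1] at e
    rw [det_upper hu', ← e] at e'
    exact (mul_left_cancel₀ (mul_ne_zero (diag_ne_zero hu' 0) (diag_ne_zero hu' 1)) e').symm
  have hw : g * g'⁻¹ ∈ unitriSub F := by
    refine ⟨mul_mem hu (inv_mem hu'), fun i => ?_⟩
    have e := (upper_mul_apply (inv_mem hu') hu').1 i
    rw [inv_mul_cancel, Units.val_one, Matrix.one_apply_eq] at e
    rw [(upper_mul_apply hu (inv_mem hu')).1 i, e, mul_comm]
    congr 1
    fin_cases i
    · exact h0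
    · exact h1
    · exact h2
  have ho : orderOf (g * g'⁻¹) = 1 := by
    obtain ⟨k, hk⟩ := isPGroup_unitriSub (F := F) (p := p) ⟨_, hw⟩
    have hdk : orderOf (g * g'⁻¹) ∣ p ^ k := by
      rw [orderOf_dvd_iff_pow_eq_one]
      exact congrArg Subtype.val hk
    have hdX : orderOf (g * g'⁻¹) ∣ Nat.card X := Subgroup.orderOf_dvd_natCard X (mul_mem hg (inv_mem hg'))
    obtain ⟨i, -, hi⟩ := (Nat.dvd_prime_pow Fact.out).1 hdk
    rw [hi] at hdX ⊢
    rcases i with _ | i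
    · rfl
    · exact absurd ((dvd_pow_self p (Nat.succ_ne_zero i)).trans hdX) h.ndvd
  exact mul_inv_eq_one.1 (orderOf_eq_one_iff.1 ho)

theorem Hall.structure' (h : Hall p X) :
    (∀ a b : Fˣ, ∃ g ∈ X, g ∈ upperSub F ∧ (g : Matrix (Fin 3) (Fin 3) F) 0 0 = a ∧
      (g : Matrix (Fin 3) (Fin 3) F) 1 1 = b) ∧
    ∀ s ∈ specialLinear (Fin 3) F, ∃ b, b ∈ upperSub F ∧ s * b ∈ X := by
  classical
  set B : Subgroup (GL (Fin 3) F) := upperSub F ⊓ specialLinear (Fin 3) F with hB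
  set S := specialLinear (Fin 3) F with hS
  let δ : (B.subgroupOf X) → Fˣ × Fˣ := fun g =>
    (Units.mk0 _ (diag_ne_zero g.2.1 0), Units.mk0 _ (diag_ne_zero g.2.1 1))
  have hδ : Function.Injective δ := fun g g' e => by
    have e0 := congrArg (fun v : Fˣ × Fˣ => (v.1 : F)) e
    have e1 := congrArg (fun v : Fˣ × Fˣ => (v.2 : F)) e
    exact Subtype.ext (Subtype.ext (h.inj (g : X).2 (g' : X).2 g.2.1 g'.2.1 e0 e1))
  have hc1 : Nat.card (B.subgroupOf X) ≤ (q - 1) ^ 2 := by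
    refine (Nat.card_le_card_of_injective δ hδ).trans ?_
    rw [Nat.card_prod, Linear.card_units_eq, sq]
  let φ : X ⧸ B.subgroupOf X → S ⧸ B.subgroupOf S := Quotient.map' (fun x => ⟨x.1, h.le x.2⟩)
    fun a b hab => by
      rw [QuotientGroup.leftRel_apply] at hab ⊢
      exact hab
  have hφ : Function.Injective φ := by
    intro a b hab
    induction a using QuotientGroup.induction_on with | H a =>
    induction b using QuotientGroup.induction_on with | H b =>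
    exact QuotientGroup.eq.2 (QuotientGroup.eq (s := B.subgroupOf S).1 hab)
  have hle := Nat.card_le_card_of_injective φ hφ
  have e1 := Subgroup.card_eq_card_quotient_mul_card_subgroup (B.subgroupOf X)
  have e2 := Subgroup.card_eq_card_quotient_mul_card_subgroup (B.subgroupOf S)
  rw [Nat.card_congr (Subgroup.subgroupOfEquivOfLe (inf_le_right : B ≤ S)).toEquiv, hS, card_sl] at e2
  rw [h.card] at e1
  have hB' := card_borel_ge (F := F)
  rw [← hB] at hB'
  have hkey : Nat.card (X ⧸ B.subgroupOf X) = Nat.card (S ⧸ B.subgroupOf S) ∧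
      Nat.card (B.subgroupOf X) = (q - 1) ^ 2 := by
    set a := Nat.card (X ⧸ B.subgroupOf X)
    set b := Nat.card (S ⧸ B.subgroupOf S)
    set c := Nat.card (B.subgroupOf X)
    set d := Nat.card B
    have ha : 0 < a := Nat.card_pos
    have hq : 0 < q ^ 3 := pow_pos Fintype.card_pos 3
    have hq1 : 0 < (q - 1) ^ 2 := pow_pos Linear.sub_one_pos 2
    have e3 : b * d = q ^ 3 * (a * c) := by rw [← e2, ← e1]
    have h4 : b * (q ^ 3 * (q - 1) ^ 2) ≤ b * d := Nat.mul_le_mul_left _ hB'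
    have h5 : q ^ 3 * (a * c) ≤ q ^ 3 * (a * (q - 1) ^ 2) :=
      Nat.mul_le_mul_left _ (Nat.mul_le_mul_left _ hc1)
    have hba : b ≤ a := by
      refine Nat.le_of_mul_le_mul_right ?_ (Nat.mul_pos hq hq1)
      calc b * (q ^ 3 * (q - 1) ^ 2) ≤ b * d := h4
        _ ≤ q ^ 3 * (a * (q - 1) ^ 2) := e3 ▸ h5
        _ = a * (q ^ 3 * (q - 1) ^ 2) := by ring
    have hab : a = b := le_antisymm hle hba
    rw [← hab] at h4 e3
    refine ⟨hab, le_antisymm hc1 (Nat.le_of_mul_le_mul_left ?_ (Nat.mul_pos hq ha))⟩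
    calc q ^ 3 * a * (q - 1) ^ 2 = a * (q ^ 3 * (q - 1) ^ 2) := by ring
      _ ≤ a * d := h4
      _ = q ^ 3 * a * c := by rw [e3]; ring
  constructor
  · intro a b
    obtain ⟨g, hg⟩ := (hδ.bijective_of_nat_card_le (by
      rw [hkey.2, Nat.card_prod, Linear.card_units_eq, sq])).2 (a, b)
    exact ⟨g.1.1, g.1.2, g.2.1, congrArg (fun v : Fˣ × Fˣ => (v.1 : F)) hg,
      congrArg (fun v : Fˣ × Fˣ => (v.2 : F)) hg⟩
  · intro s hs
    obtain ⟨x, hx⟩ := (hφ.bijective_of_nat_card_le hkey.1.ge).2 (QuotientGroup.mk ⟨s, hs⟩)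
    induction x using QuotientGroup.induction_on with | H x =>
    have := QuotientGroup.eq.1 hx
    rw [Subgroup.mem_subgroupOf] at this
    refine ⟨s⁻¹ * x, ?_, by simp⟩
    simpa [_root_.mul_inv_rev] using Subgroup.inv_mem _ this.1

theorem exists_unit_ne (hq : 5 ≤ q) : (∃ α : Fˣ, α ≠ 1 ∧ α * α ≠ 1) ∧ ∃ c : Fˣ, c * c * c ≠ 1 := by
  have key : ∀ n : ℕ, 0 < n → n < q - 1 → ∃ c : Fˣ, c ^ n ≠ 1 := by
    intro n hn hlt
    classical
    by_contra hcon
    push Not at hcon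
    have h := IsCyclic.card_pow_eq_one_le (α := Fˣ) hn
    rw [Finset.filter_true_of_mem (fun x _ => hcon x), Finset.card_univ, ← Nat.card_eq_fintype_card,
      Linear.card_units_eq] at h
    omega
  constructor
  · obtain ⟨c, hc⟩ := key 2 (by norm_num) (by omega)
    exact ⟨c, fun e => hc (by rw [e, one_pow]), by rwa [← sq]⟩
  · obtain ⟨c, hc⟩ := key 3 (by norm_num) (by omega)
    exact ⟨c, by rwa [← pow_three'] ⟩

/-- After conjugation the torus lies in the subgroup. -/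
theorem Hall.exists_torus (h : Hall p X) (hq : 5 ≤ q) :
    ∃ Y : Subgroup (GL (Fin 3) F), Hall p Y ∧ ∀ a b : Fˣ, dg a b ∈ Y := by
  obtain ⟨⟨α, hα1, hα2⟩, -⟩ := exists_unit_ne (F := F) hq
  obtain ⟨t, htX, htB, ht0, ht1⟩ := (Hall.structure' h).1 α 1
  have ht2 : (t : Matrix (Fin 3) (Fin 3) F) 2 2 = ((α⁻¹ : Fˣ) : F) := by
    have := mem_sl.1 (h.le htX)
    rw [det_upper htB, ht0, ht1, Units.val_one, mul_one] at this
    rw [← mul_left_cancel₀ α.ne_zero (this.trans (Units.mul_inv α).symm)]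
  have a1 : (α : F) - 1 ≠ 0 := sub_ne_zero.2 fun e => hα1 (Units.ext e)
  have a2 : ((α⁻¹ : Fˣ) : F) - α ≠ 0 := sub_ne_zero.2 fun e => hα2 (by
    rw [mul_eq_one_iff_eq_inv]; exact (Units.ext e).symm)
  have a3 : ((α⁻¹ : Fˣ) : F) - 1 ≠ 0 := sub_ne_zero.2 fun e => hα1 (inv_eq_one.1 (Units.ext e))
  set x := (t : Matrix (Fin 3) (Fin 3) F) 0 1 / ((1 : F) - α)
  set z := (t : Matrix (Fin 3) (Fin 3) F) 1 2 / (((α⁻¹ : Fˣ) : F) - 1)
  set y := ((t : Matrix (Fin 3) (Fin 3) F) 0 1 * z + (t : Matrix (Fin 3) (Fin 3) F) 0 2) /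
    (((α⁻¹ : Fˣ) : F) - α)
  set P := unitriMk x y z
  have hP : P ∈ upperSub F := (unitriMk_mem _ _ _).1
  have hPd : ∀ i, (P : Matrix (Fin 3) (Fin 3) F) i i = 1 := (unitriMk_mem _ _ _).2
  have a1' : (1 : F) - α ≠ 0 := by rw [← neg_sub]; exact neg_ne_zero.2 a1
  have htP : t * P = P * dg α 1 := by
    obtain ⟨hd, e1, e2, e3⟩ := upper_mul_apply htB hP
    obtain ⟨hd', e1', e2', e3'⟩ := upper_mul_apply hP (dg_upper α 1)
    refine ext_upper (mul_mem htB hP) (mul_mem hP (dg_upper α 1)) (fun i => ?_) ?_ ?_ ?_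
    · rw [hd, hd', hPd, one_mul, mul_one]
      fin_cases i <;> simp [dg_val, ht0, ht1, ht2]
    · rw [e1, e1', ht0, hPd 1]
      simp [dg_val, P, unitriMk, x]
      field_simp
      ring
    · rw [e2, e2', ht1, hPd 2]
      simp [dg_val, P, unitriMk, z]
      field_simp
      ring
    · rw [e3, e3', ht0, hPd 2]
      simp [dg_val, P, unitriMk]
      simp only [y]
      field_simp
      rw [Units.val_inv_eq_inv_val]
      field_simp
      ring
  refine ⟨X.map (MulAut.conj P⁻¹).toMonoidHom, h.map _, fun a b => ?_⟩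
  have hY := h.map P⁻¹
  have hD : dg α 1 ∈ X.map (MulAut.conj P⁻¹).toMonoidHom :=
    ⟨t, htX, by simp [mul_assoc, htP]⟩
  obtain ⟨g, hgY, hgB, hg0, hg1⟩ := (Hall.structure' hY).1 a b
  have hc : g * dg α 1 = dg α 1 * g := by
    refine hY.inj (mul_mem hgY hD) (mul_mem hD hgY) (mul_mem hgB (dg_upper _ _)) (mul_mem (dg_upper _ _) hgB)
      ?_ ?_ <;>
    · rw [(upper_mul_apply hgB (dg_upper _ _)).1, (upper_mul_apply (dg_upper _ _) hgB).1, mul_comm]
  convert hgY using 1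
  have hij : ∀ i j, (g : Matrix (Fin 3) (Fin 3) F) i j * ![(α : F), (1 : Fˣ), ((α * 1)⁻¹ : Fˣ)] j =
      ![(α : F), (1 : Fˣ), ((α * 1)⁻¹ : Fˣ)] i * (g : Matrix (Fin 3) (Fin 3) F) i j := fun i j => by
    have := congrArg (fun u : GL (Fin 3) F => (u : Matrix (Fin 3) (Fin 3) F) i j) hc
    simpa only [Units.val_mul, dg_val, Matrix.mul_diagonal, Matrix.diagonal_mul] using this
  have hg2 : (g : Matrix (Fin 3) (Fin 3) F) 2 2 = ((a * b)⁻¹ : Fˣ) := by
    have := mem_sl.1 (hY.le hgY)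
    rw [det_upper hgB, hg0, hg1] at this
    rw [← mul_left_cancel₀ (a * b).ne_zero (a := ((a * b : Fˣ) : F))
      ((by simpa using this : ((a * b : Fˣ) : F) * _ = 1).trans (Units.mul_inv (a * b)).symm)]
  refine ext_upper (dg_upper a b) hgB (fun i => ?_) ?_ ?_ ?_
  · fin_cases i <;> simp [dg_val, hg0, hg1, hg2]
  · have := hij 0 1
    simp at this
    simpa [dg_val] using ((mul_right_inj' a1).1 (by linear_combination (-1 : F) * this :
      ((α : F) - 1) * (g : Matrix (Fin 3) (Fin 3) F) 0 1 = ((α : F) - 1) * 0)).symm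
  · have := hij 1 2
    simp at this
    simpa [dg_val] using ((mul_right_inj' a3).1 (by rw [mul_zero, Units.val_inv_eq_inv_val]; linear_combination this :
      (((α⁻¹ : Fˣ) : F) - 1) * (g : Matrix (Fin 3) (Fin 3) F) 1 2 = (((α⁻¹ : Fˣ) : F) - 1) * 0)).symm
  · have := hij 0 2
    simp at this
    simpa [dg_val] using ((mul_right_inj' a2).1 (by rw [mul_zero, Units.val_inv_eq_inv_val]; linear_combination this :
      (((α⁻¹ : Fˣ) : F) - α) * (g : Matrix (Fin 3) (Fin 3) F) 0 2 = (((α⁻¹ : Fˣ) : F) - α) * 0)).symm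

/-- An element of `SL` which moves some regular torus element into the torus, times an upper
triangular one. -/
theorem mem_of_torus {Y : Subgroup (GL (Fin 3) F)} (h : Hall p Y) (hT : ∀ a b : Fˣ, dg a b ∈ Y)
    {s : GL (Fin 3) F} (hs : s ∈ specialLinear (Fin 3) F) {a b a' b' : Fˣ} (he : dg a b * s = s * dg a' b') :
    ∃ c : GL (Fin 3) F, c ∈ upperSub F ∧ s * c ∈ Y ∧ c * dg a' b' = dg a' b' * c := by
  obtain ⟨c, hc, hcY⟩ := (Hall.structure' h).2 s hs
  refine ⟨c, hc, hcY, ?_⟩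
  have hY : c⁻¹ * dg a' b' * c ∈ Y := by
    have : (s * c)⁻¹ * dg a b * (s * c) = c⁻¹ * dg a' b' * c := by
      simp only [_root_.mul_inv_rev, mul_assoc]
      rw [← mul_assoc (dg a b), he]
      simp [mul_assoc]
    exact this ▸ mul_mem (mul_mem (inv_mem hcY) (hT a b)) hcY
  have hd : ∀ i, ((c⁻¹ * dg a' b' * c : GL (Fin 3) F) : Matrix (Fin 3) (Fin 3) F) i i =
      ((dg a' b' : GL (Fin 3) F) : Matrix (Fin 3) (Fin 3) F) i i := fun i => by
    rw [(upper_mul_apply (mul_mem (inv_mem hc) (dg_upper _ _)) hc).1,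
      (upper_mul_apply (inv_mem hc) (dg_upper _ _)).1]
    have e := (upper_mul_apply (inv_mem hc) hc).1 i
    rw [inv_mul_cancel, Units.val_one, Matrix.one_apply_eq] at e
    linear_combination (-((dg a' b' : GL (Fin 3) F) : Matrix (Fin 3) (Fin 3) F) i i) * e
  have e := h.inj hY (hT a' b') (mul_mem (mul_mem (inv_mem hc) (dg_upper _ _)) hc) (dg_upper _ _) (hd 0) (hd 1)
  calc c * dg a' b' = c * (c⁻¹ * dg a' b' * c) := by rw [e]
    _ = dg a' b' * c := by group

/-- An invertible matrix from a determinant. -/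
noncomputable abbrev mkSL (M : Matrix (Fin 3) (Fin 3) F) (h : M.det = 1) : GL (Fin 3) F :=
  Matrix.GeneralLinearGroup.mkOfDetNeZero M (by rw [h]; exact one_ne_zero)

/-- Upper triangular members of a group containing the torus are diagonal. -/
theorem diag_of_upper {Y : Subgroup (GL (Fin 3) F)} (h : Hall p Y) (hT : ∀ a b : Fˣ, dg a b ∈ Y)
    {g : GL (Fin 3) F} (hg : g ∈ Y) (hu : g ∈ upperSub F) :
    g = dg (Units.mk0 _ (diag_ne_zero hu 0)) (Units.mk0 _ (diag_ne_zero hu 1)) :=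
  h.inj hg (hT _ _) hu (dg_upper _ _) (by simp [dg_val]) (by simp [dg_val])

theorem dg_lit (a b : Fˣ) : ((dg a b : GL (Fin 3) F) : Matrix (Fin 3) (Fin 3) F) =
    !![(a : F), 0, 0; 0, (b : F), 0; 0, 0, ((a : F) * b)⁻¹] := by
  rw [dg_val]
  ext i j
  fin_cases i <;> fin_cases j <;> simp

variable {Y : Subgroup (GL (Fin 3) F)}

/-- A monomial element lies in the subgroup. -/
theorem mem_of_monomial (h : Hall p Y) (hT : ∀ a b : Fˣ, dg a b ∈ Y) {s : GL (Fin 3) F}
    (hs : s ∈ specialLinear (Fin 3) F) {a b a' b' : Fˣ} (he : dg a b * s = s * dg a' b')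
    (n1 : (a' : F) ≠ b') (n2 : (b' : F) ≠ ((a' * b')⁻¹ : Fˣ)) (n3 : (a' : F) ≠ ((a' * b')⁻¹ : Fˣ)) : s ∈ Y := by
  obtain ⟨c, hc, hcY, hcomm⟩ := mem_of_torus h hT hs he
  have hij := fun i j => congrArg (fun u : GL (Fin 3) F => (u : Matrix (Fin 3) (Fin 3) F) i j) hcomm
  simp only [Units.val_mul, dg_val, Matrix.mul_diagonal, Matrix.diagonal_mul] at hij
  have hcdet : c ∈ specialLinear (Fin 3) F := by
    have := mul_mem (inv_mem hs) (h.le hcY)
    simpa using this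
  have key : ∀ {i j : Fin 3}, ![(a' : F), b', ((a' * b')⁻¹ : Fˣ)] i ≠ ![(a' : F), b', ((a' * b')⁻¹ : Fˣ)] j →
      (c : Matrix (Fin 3) (Fin 3) F) i j = 0 := by
    intro i j hne
    by_contra h0
    exact hne (mul_right_cancel₀ h0 (by rw [← hij i j, mul_comm]))
  have hdet := mem_sl.1 hcdet
  rw [det_upper hc] at hdet
  have hcd : c = dg (Units.mk0 _ (diag_ne_zero hc 0)) (Units.mk0 _ (diag_ne_zero hc 1)) := by
    refine ext_upper hc (dg_upper _ _) (fun i => ?_) ?_ ?_ ?_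
    · rw [dg_lit]
      fin_cases i
      · simp
      · simp
      · simp
        exact eq_inv_of_mul_eq_one_right hdet |>.trans (by rw [_root_.mul_inv_rev])
    · rw [key (by simpa using n1), dg_lit]; simp
    · rw [key (by simpa using n2), dg_lit]; simp
    · rw [key (by simpa using n3), dg_lit]; simp
  have := mul_mem hcY (inv_mem (hT (Units.mk0 _ (diag_ne_zero hc 0)) (Units.mk0 _ (diag_ne_zero hc 1))))
  rwa [← hcd, mul_inv_cancel_right] at this

/-- Swap of the first two coordinates. -/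
noncomputable abbrev w01 : GL (Fin 3) F :=
  mkSL !![0, 1, 0; 1, 0, 0; 0, 0, -1] (by simp [Matrix.det_fin_three])

/-- Swap of the last two coordinates. -/
noncomputable abbrev w12 : GL (Fin 3) F :=
  mkSL !![-1, 0, 0; 0, 0, 1; 0, 1, 0] (by simp [Matrix.det_fin_three])

theorem swaps_mem (hq : 5 ≤ q) (h : Hall p Y) (hT : ∀ a b : Fˣ, dg a b ∈ Y) :
    (w01 : GL (Fin 3) F) ∈ Y ∧ (w12 : GL (Fin 3) F) ∈ Y := by
  obtain ⟨⟨α, hα1, hα2⟩, -⟩ := exists_unit_ne (F := F) hq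
  have a1 : (α : F) ≠ 1 := fun e => hα1 (Units.ext e)
  have a2 : ((α⁻¹ : Fˣ) : F) ≠ α := fun e => hα2 (by rw [mul_eq_one_iff_eq_inv]; exact (Units.ext e).symm)
  have a3 : ((α⁻¹ : Fˣ) : F) ≠ 1 := fun e => hα1 (inv_eq_one.1 (Units.ext e))
  constructor
  · refine mem_of_monomial h hT (mem_sl.2 (by simp [Matrix.det_fin_three])) (a := α) (b := 1) (a' := 1) (b' := α)
      ?_ ?_ ?_ ?_
    · apply Units.ext
      rw [Units.val_mul, Units.val_mul, dg_lit, dg_lit]
      ext i j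
      simp only [Matrix.mul_apply, Fin.sum_univ_three]
      fin_cases i <;> fin_cases j <;> simp
    · simpa using Ne.symm a1
    · simpa using Ne.symm a2
    · simpa using Ne.symm a3
  · refine mem_of_monomial h hT (mem_sl.2 (by simp [Matrix.det_fin_three])) (a := α) (b := 1) (a' := α) (b' := α⁻¹)
      ?_ ?_ ?_ ?_
    · apply Units.ext
      rw [Units.val_mul, Units.val_mul, dg_lit, dg_lit]
      ext i j
      simp only [Matrix.mul_apply, Fin.sum_univ_three]
      fin_cases i <;> fin_cases j <;> simp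
    · simpa using Ne.symm a2
    · simpa using a3
    · simpa using a1

/-- The last two entries of the last column of a block element add up to zero. -/
theorem block_sym (hq : 5 ≤ q) (h : Hall p Y) (hT : ∀ a b : Fˣ, dg a b ∈ Y) {g : GL (Fin 3) F} {u r s : F}
    (hg : g ∈ Y) (eg : (g : Matrix (Fin 3) (Fin 3) F) = !![u, 0, 0; 0, 1, r; 0, 1, s]) : r + s = 0 := by
  have hw12 := (swaps_mem hq h hT).2
  have hU : (g⁻¹ * w12 * g : GL (Fin 3) F) =
      mkSL !![-1, 0, 0; 0, 1, r + s; 0, 0, -1] (by simp [Matrix.det_fin_three]) := by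
    rw [mul_assoc, inv_mul_eq_iff_eq_mul]
    apply Units.ext
    rw [Units.val_mul, Units.val_mul, eg]
    ext i j
    simp only [Matrix.mul_apply, Fin.sum_univ_three]
    fin_cases i <;> fin_cases j <;> simp
  have hmem := mul_mem (mul_mem (inv_mem hg) hw12) hg
  rw [hU] at hmem
  have := diag_of_upper h hT hmem (by rw [mem_upperSub]; simp)
  have := congrArg (fun x : GL (Fin 3) F => (x : Matrix (Fin 3) (Fin 3) F) 1 2) this
  simp only [dg_lit] at this
  simpa using this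

/-- A block element of the subgroup. -/
theorem exists_block (hq : 5 ≤ q) (h : Hall p Y) (hT : ∀ a b : Fˣ, dg a b ∈ Y) :
    ∃ (A : GL (Fin 3) F) (v : F), A ∈ Y ∧ v * 2 = 1 ∧
      (A : Matrix (Fin 3) (Fin 3) F) = !![v, 0, 0; 0, 1, -1; 0, 1, 1] := by
  obtain ⟨-, γ, hγ⟩ := exists_unit_ne (F := F) hq
  let L := mkSL (F := F) !![1, 0, 0; 0, 1, 0; 0, 1, 1] (by simp [Matrix.det_fin_three])
  obtain ⟨c, hc, hcY, hcomm⟩ := mem_of_torus h hT (s := L) (a := γ⁻¹ * γ⁻¹) (b := γ) (a' := γ⁻¹ * γ⁻¹) (b' := γ)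
    (mem_sl.2 (by simp [L, Matrix.det_fin_three])) (by
      apply Units.ext
      rw [Units.val_mul, Units.val_mul, dg_lit]
      ext i j
      simp only [L, Matrix.mul_apply, Fin.sum_univ_three]
      fin_cases i <;> fin_cases j <;> simp <;> field_simp)
  have hij := fun i j => congrArg (fun u : GL (Fin 3) F => (u : Matrix (Fin 3) (Fin 3) F) i j) hcomm
  simp only [Units.val_mul, dg_val, Matrix.mul_diagonal, Matrix.diagonal_mul] at hij
  have hd : ((γ⁻¹ * γ⁻¹ : Fˣ) : F) ≠ (γ : F) := fun e => hγ (by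
    have e' : γ⁻¹ * γ⁻¹ = γ := Units.ext e
    calc γ * γ * γ = γ * γ * (γ⁻¹ * γ⁻¹) := by rw [e']
      _ = 1 := by group)
  have hc01 : (c : Matrix (Fin 3) (Fin 3) F) 0 1 = 0 := by
    by_contra h0
    exact hd (mul_right_cancel₀ h0 (by simpa [mul_comm] using (hij 0 1).symm))
  have hc02 : (c : Matrix (Fin 3) (Fin 3) F) 0 2 = 0 := by
    by_contra h0
    refine hd ((mul_right_cancel₀ h0 (by simpa [mul_comm] using (hij 0 2).symm)).trans ?_)
    simp
  have hc11 := diag_ne_zero hc 1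
  obtain ⟨c1, c2, c3⟩ := hc
  set r := (c : Matrix (Fin 3) (Fin 3) F) 1 2 * (c : Matrix (Fin 3) (Fin 3) F) 1 1 with hr
  set s := ((c : Matrix (Fin 3) (Fin 3) F) 1 2 + (c : Matrix (Fin 3) (Fin 3) F) 2 2) *
    (c : Matrix (Fin 3) (Fin 3) F) 1 1 with hs
  set u := (c : Matrix (Fin 3) (Fin 3) F) 0 0 with hu
  set x := L * c * dg 1 (Units.mk0 _ hc11)⁻¹ with hxdef
  have hx : (x : Matrix (Fin 3) (Fin 3) F) = !![u, 0, 0; 0, 1, r; 0, 1, s] := by
    rw [hxdef, Units.val_mul, Units.val_mul, dg_lit]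
    ext i j
    simp only [L, Matrix.mul_apply, Fin.sum_univ_three]
    fin_cases i <;> fin_cases j <;> simp [c1, c2, c3, hc01, hc02, hc11, r, s, u]
  have hxY : x ∈ Y := mul_mem hcY (hT _ _)
  have hrs := block_sym hq h hT hxY hx
  have hdet : u * (s - r) = 1 := by
    have := mem_sl.1 (h.le hxY)
    rw [hx, Matrix.det_fin_three] at this
    simp at this
    linear_combination this
  have hs0 : s ≠ 0 := fun e => by
    rw [e] at hrs hdet
    rw [add_zero] at hrs
    rw [hrs, sub_zero, mul_zero] at hdet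
    exact zero_ne_one hdet
  refine ⟨x * dg (Units.mk0 s hs0) 1, u * s, mul_mem hxY (hT _ _), ?_, ?_⟩
  · rw [eq_neg_of_add_eq_zero_left hrs] at hdet
    linear_combination hdet
  · rw [Units.val_mul, hx, dg_lit]
    ext i j
    simp only [Matrix.mul_apply, Fin.sum_univ_three]
    fin_cases i <;> fin_cases j <;> simp [hs0]
    rw [eq_neg_of_add_eq_zero_left hrs, neg_mul, mul_inv_cancel₀ hs0]

/-- The multiplicative group has exponent dividing four. -/
theorem pow_four (hq : 5 ≤ q) (h : Hall p Y) (hT : ∀ a b : Fˣ, dg a b ∈ Y) {A : GL (Fin 3) F} {v : F}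
    (hAY : A ∈ Y) (hv : v * 2 = 1)
    (hA : (A : Matrix (Fin 3) (Fin 3) F) = !![v, 0, 0; 0, 1, -1; 0, 1, 1]) (a : Fˣ) : (a : F) ^ 4 = 1 := by
  by_cases e1 : (a : F) = 1
  · rw [e1, one_pow]
  by_cases e2 : (a : F) = -1
  · rw [e2]; norm_num
  have f1 : (a : F) - 1 ≠ 0 := sub_ne_zero.2 e1
  have f2 : (a : F) + 1 ≠ 0 := fun e => e2 (eq_neg_of_add_eq_zero_left e)
  have f0 : (a : F) ≠ 0 := a.ne_zero
  let κ : Fˣ := Units.mk0 _ (mul_ne_zero f1 f2)
  let b : Fˣ := (Units.mk0 _ f1)⁻¹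
  have hg : ((dg κ b * (A * dg a⁻¹ a * A) : GL (Fin 3) F) : Matrix (Fin 3) (Fin 3) F) =
      !![((a : F) - 1) * ((a : F) + 1) * (v * (a : F)⁻¹ * v), 0, 0;
        0, 1, (-(a : F) - 1) / ((a : F) - 1); 0, 1, (-(a : F) + 1) / ((a : F) + 1)] := by
    rw [Units.val_mul, Units.val_mul, Units.val_mul, hA, dg_lit, dg_lit]
    ext i j
    simp only [Matrix.mul_apply, Fin.sum_univ_three]
    fin_cases i <;> fin_cases j <;> simp [κ, b] <;> field_simp <;> ring
  have := block_sym hq h hT (mul_mem (hT κ b) (mul_mem (mul_mem hAY (hT _ _)) hAY)) hg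
  field_simp at this
  have h2 : (2 : F) ≠ 0 := fun e => by rw [e, mul_zero] at hv; exact zero_ne_one hv
  have h3 : (2 : F) * ((a : F) ^ 2 + 1) = 0 := by linear_combination (-1 : F) * this
  linear_combination ((a : F) ^ 2 - 1) * (mul_eq_zero.1 h3).resolve_left h2

/-- Concrete facts modulo five. -/
theorem zmod_five_facts : (2 : ZMod 5) * 3 = 1 ∧ (3 : ZMod 5) * 2 = 1 ∧ (4 : ZMod 5) = -1 ∧ (2 : ZMod 5) ≠ 0 ∧
    (!![3, 0, 0; 0, 1, 4; 0, 1, 1] * !![0, 1, 0; 1, 0, 0; 0, 0, 4] * !![3, 0, 0; 0, 1, 4; 0, 1, 1] *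
      !![0, 1, 0; 1, 0, 0; 0, 0, 4] * !![3, 0, 0; 0, 1, 4; 0, 1, 1] * !![0, 1, 0; 1, 0, 0; 0, 0, 4] *
      !![1, 0, 0; 0, 2, 0; 0, 0, 3] * !![3, 0, 0; 0, 1, 4; 0, 1, 1] * !![0, 1, 0; 1, 0, 0; 0, 0, 4] *
      !![3, 0, 0; 0, 1, 4; 0, 1, 1] * !![0, 1, 0; 1, 0, 0; 0, 0, 4] : Matrix (Fin 3) (Fin 3) (ZMod 5)) =
      !![1, 2, 2; 0, 4, 2; 0, 0, 4] := by
  decide

/-- No such subgroup. -/
theorem not_hall (hq : 5 ≤ q) : ¬ Hall p X := by
  intro hX
  obtain ⟨Y, h, hT⟩ := Hall.exists_torus hX hq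
  obtain ⟨A, v, hAY, hv, hA⟩ := exists_block hq h hT
  obtain ⟨hw01, -⟩ := swaps_mem hq h hT
  have hq5 : q = 5 := by
    classical
    have hh := IsCyclic.card_pow_eq_one_le (α := Fˣ) (n := 4) (by norm_num)
    rw [Finset.filter_true_of_mem (fun x _ => Units.ext (by simpa using pow_four hq h hT hAY hv hA x)),
      Finset.card_univ, ← Nat.card_eq_fintype_card, Linear.card_units_eq] at hh
    omega
  haveI : Fact (Nat.Prime 5) := ⟨by norm_num⟩
  obtain ⟨n, hn, hn'⟩ := FiniteField.card F p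
  have hp5 : p = 5 := by
    have hd : p ∣ 5 := by rw [← hq5, hn']; exact dvd_pow_self p n.ne_zero
    exact (Nat.prime_dvd_prime_iff_eq hn (by norm_num)).1 hd
  subst hp5
  let φ : ZMod 5 →+* F := ZMod.castHom (dvd_refl 5) F
  have hv3 : v = φ 3 := by
    have h5 : (5 : F) = 0 := by exact_mod_cast CharP.cast_eq_zero F 5
    rw [map_ofNat]
    linear_combination (3 : F) * hv - v * h5
  let two : Fˣ := Units.map φ.toMonoidHom ⟨2, 3, zmod_five_facts.1, zmod_five_facts.2.1⟩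
  have m4 : φ 4 = -1 := by rw [zmod_five_facts.2.2.1, map_neg, map_one]
  have mA : (A : Matrix (Fin 3) (Fin 3) F) = (!![3, 0, 0; 0, 1, 4; 0, 1, 1] : Matrix _ _ (ZMod 5)).map φ := by
    rw [hA, hv3]
    ext i j
    fin_cases i <;> fin_cases j <;> first | (simp; done) | (simp; exact m4.symm)
  have mw : ((w01 : GL (Fin 3) F) : Matrix (Fin 3) (Fin 3) F) =
      (!![0, 1, 0; 1, 0, 0; 0, 0, 4] : Matrix _ _ (ZMod 5)).map φ := by
    ext i j
    fin_cases i <;> fin_cases j <;> first | (simp; done) | (simp; exact m4.symm)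
  have m3 : ((1 : F) * φ 2)⁻¹ = φ 3 := by
    rw [one_mul, inv_eq_of_mul_eq_one_right]
    rw [← map_mul, zmod_five_facts.1, map_one]
  have mT : ((dg 1 two : GL (Fin 3) F) : Matrix (Fin 3) (Fin 3) F) =
      (!![1, 0, 0; 0, 2, 0; 0, 0, 3] : Matrix _ _ (ZMod 5)).map φ := by
    rw [dg_lit]
    have e2 : (two : F) = φ 2 := rfl
    rw [Units.val_one, e2, m3]
    ext i j
    fin_cases i <;> fin_cases j <;> simp
  let z := A * w01 * A * w01 * A * w01 * dg 1 two * A * w01 * A * w01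
  have hzY : z ∈ Y := by
    repeat' apply mul_mem
    all_goals first | exact hAY | exact hw01 | exact hT _ _
  have mz : (z : Matrix (Fin 3) (Fin 3) F) =
      (!![1, 2, 2; 0, 4, 2; 0, 0, 4] : Matrix _ _ (ZMod 5)).map φ := by
    simp only [z, Units.val_mul, mA, mw, mT, ← Matrix.map_mul]
    congr 1
    exact zmod_five_facts.2.2.2.2
  have hzu : z ∈ upperSub F := by
    rw [mem_upperSub, mz]; simp
  have := congrArg (fun x : GL (Fin 3) F => (x : Matrix (Fin 3) (Fin 3) F) 0 1) (diag_of_upper h hT hzY hzu)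
  simp only [mz, dg_lit] at this
  have h2 : φ 2 ≠ 0 := fun e => by
    have := φ.injective (e.trans (map_zero φ).symm)
    exact zmod_five_facts.2.2.2.1 this
  exact h2 (by simpa using this)

end Cfsg.Agent.SLThree.HallP
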