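import Mathlib

/-!
Arithmetic and small field facts for the monomial subgroup of `SL(3, F)`.
-/

set_option autoImplicit false

namespace Cfsg.Agent.SLThree.Monom

/-- The only possible orbit sizes. -/
theorem orbit_arith {t j q : ℕ} (hq : q = 3 * t + 1) (ht : 2 ≤ t) (hpp : IsPrimePow q) (hj1 : 1 ≤ j)
    (hj3 : j ≤ 3)
    (h : (3 + 3 * j * t ^ 2) * (q - 1) ^ 2 ∣ q ^ 3 * (q ^ 3 - 1) * (q ^ 2 - 1)) :
    j = 1 ∧ (q = 16 ∨ q = 25) := by
  subst hq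
  set k := 1 + j * t ^ 2 with hk
  set P := (3 * t + 2) * (3 * t ^ 2 + 3 * t + 1) with hP
  have hkP : k ∣ (3 * t + 1) ^ 3 * P := by
    have e1 : (3 * t + 1) ^ 3 - 1 = 3 * t * (3 * (3 * t ^ 2 + 3 * t + 1)) :=
      Nat.sub_eq_of_eq_add (by ring)
    have e2 : (3 * t + 1) ^ 2 - 1 = 3 * t * (3 * t + 2) := Nat.sub_eq_of_eq_add (by ring)
    rw [e1, e2, Nat.add_sub_cancel,
      show (3 + 3 * j * t ^ 2) * (3 * t) ^ 2 = (3 * (3 * t) ^ 2) * k by rw [hk]; ring,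
      show (3 * t + 1) ^ 3 * (3 * t * (3 * (3 * t ^ 2 + 3 * t + 1))) * (3 * t * (3 * t + 2)) =
        (3 * (3 * t) ^ 2) * ((3 * t + 1) ^ 3 * P) by rw [hP]; ring] at h
    exact Nat.dvd_of_mul_dvd_mul_left (by positivity) h
  have h3 : Nat.Coprime k 3 := by
    refine Nat.Coprime.symm ((Nat.prime_three.coprime_iff_not_dvd).2 fun h3 => ?_)
    have := h3.trans hkP
    rw [Nat.dvd_iff_mod_eq_zero, Nat.mul_mod, Nat.pow_mod, hP, Nat.mul_mod (3 * t + 2)] at this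
    simp [Nat.add_mod] at this
  -- the part coprime to `q`
  have hgcd : Nat.gcd k (3 * t + 1) ∣ 9 + j := by
    have d1 : Nat.gcd k (3 * t + 1) ∣ k := Nat.gcd_dvd_left _ _
    have d2 : Nat.gcd k (3 * t + 1) ∣ 3 * t + 1 := Nat.gcd_dvd_right _ _
    have d1' : (Nat.gcd k (3 * t + 1) : ℤ) ∣ (k : ℤ) := by exact_mod_cast d1
    have d2' : (Nat.gcd k (3 * t + 1) : ℤ) ∣ (3 * t + 1 : ℤ) := by exact_mod_cast d2
    have : (Nat.gcd k (3 * t + 1) : ℤ) ∣ (9 + j : ℤ) := by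
      have e : (9 + j : ℤ) = 9 * (k : ℤ) - (3 * t + 1) * (j * (3 * t - 1)) := by
        rw [hk]; push_cast; ring
      rw [e]
      exact dvd_sub (Dvd.dvd.mul_left d1' 9) (Dvd.dvd.mul_right d2' _)
    exact_mod_cast this
  have hmain : ∀ c : ℕ, (k ∣ (3 * t + 1) ^ 3 * c) → k ∣ (9 + j) ^ 3 * c := by
    intro c hc
    refine (Nat.dvd_gcd_mul_iff_dvd_mul.2 hc).trans (Nat.mul_dvd_mul_right ?_ _)
    refine dvd_trans ?_ (pow_dvd_pow_of_dvd hgcd 3)
    exact gcd_pow_right_dvd_pow_gcd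
  have hZ : (k : ℤ) ∣ ((3 * t + 1 : ℕ) : ℤ) ^ 3 * (P : ℤ) := by exact_mod_cast hkP
  have hc : ∀ (c : ℕ) (A B : ℤ), (c : ℤ) = B * (P : ℤ) + A * (k : ℤ) → k ∣ (9 + j) ^ 3 * c := by
    intro c A B e
    refine hmain c ?_
    have : (k : ℤ) ∣ ((3 * t + 1 : ℕ) : ℤ) ^ 3 * (c : ℤ) := by
      rw [e, mul_add, ← mul_assoc, mul_comm _ B, mul_assoc]
      exact dvd_add (Dvd.dvd.mul_left hZ B) (Dvd.dvd.mul_left (Dvd.dvd.mul_left dvd_rfl A) _)
    exact_mod_cast this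
  have hnpp : ∀ n : ℕ, n = 10 ∨ n = 55 → ¬ IsPrimePow n := by
    intro n hn h
    obtain ⟨p, e, hp, he, rfl⟩ := (isPrimePow_nat_iff _).1 h
    have h2 : ∀ m, m.Prime → m ∣ p ^ e → m = p := fun m hm hd =>
      (Nat.prime_dvd_prime_iff_eq hm hp).1 (hm.dvd_of_dvd_pow hd)
    rcases hn with hn | hn
    · have a := h2 2 Nat.prime_two (by rw [hn]; norm_num)
      have b := h2 5 Nat.prime_five (by rw [hn]; norm_num)
      omega
    · have a := h2 5 Nat.prime_five (by rw [hn]; norm_num)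
      have b := h2 11 (by norm_num) (by rw [hn]; norm_num)
      omega
  interval_cases j
  · have hd := hc 13 (9 * t + 15) (-1) (by rw [hk, hP]; push_cast; ring)
    have hb : k ≤ 13000 := Nat.le_of_dvd (by norm_num) (by simpa using hd)
    have ht' : t ≤ 114 := by by_contra hcon; push Not at hcon; nlinarith
    have key : ∀ t ∈ Finset.Icc 2 114, (1 + 1 * t ^ 2) ∣ 13000 →
        (1 + 1 * t ^ 2) ∣ (3 * t + 1) ^ 3 * ((3 * t + 2) * (3 * t ^ 2 + 3 * t + 1)) →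
        t = 3 ∨ t = 5 ∨ t = 8 ∨ t = 18 := by decide +kernel
    rcases key t (Finset.mem_Icc.2 ⟨ht, ht'⟩) (by simpa [hk] using hd)
      (by simpa [hk, hP] using hkP) with rfl | rfl | rfl | rfl
    · exact absurd hpp (hnpp _ (Or.inl rfl))
    · exact ⟨rfl, Or.inl rfl⟩
    · exact ⟨rfl, Or.inr rfl⟩
    · exact absurd hpp (hnpp _ (Or.inr rfl))
  · have hd := hc 323 (2 * (9 * t + 11) * (9 * t + 15) + 81) (-(4 * (9 * t + 11))) (by rw [hk, hP]; push_cast; ring)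
    have hb : k ≤ 429913 := Nat.le_of_dvd (by norm_num) (by simpa using hd)
    have ht' : t ≤ 464 := by by_contra hcon; push Not at hcon; nlinarith
    have key : ∀ t ∈ Finset.Icc 2 464, (1 + 2 * t ^ 2) ∣ 429913 →
        (1 + 2 * t ^ 2) ∣ (3 * t + 1) ^ 3 * ((3 * t + 2) * (3 * t ^ 2 + 3 * t + 1)) →
        False := by decide +kernel
    exact (key t (Finset.mem_Icc.2 ⟨ht, ht'⟩) (by simpa [hk] using hd) (by simpa [hk, hP] using hkP)).elim
  · have hd := hc 7 ((2 * t + 1) * (3 * t + 5) + 4) (-(2 * t + 1)) (by rw [hk, hP]; push_cast; ring)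
    have hb : k ≤ 12096 := Nat.le_of_dvd (by norm_num) (by simpa using hd)
    have ht' : t ≤ 64 := by by_contra hcon; push Not at hcon; nlinarith
    have key : ∀ t ∈ Finset.Icc 2 64, (1 + 3 * t ^ 2) ∣ 12096 →
        (1 + 3 * t ^ 2) ∣ (3 * t + 1) ^ 3 * ((3 * t + 2) * (3 * t ^ 2 + 3 * t + 1)) →
        False := by decide +kernel
    exact (key t (Finset.mem_Icc.2 ⟨ht, ht'⟩) (by simpa [hk] using hd) (by simpa [hk, hP] using hkP)).elim

/-- In the field with sixteen elements `v ^ 4 = v + 1` has a solution. -/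
theorem exists_root_sixteen {F : Type*} [Field F] [Fintype F] (h : Fintype.card F = 16) :
    (2 : F) = 0 ∧ ∃ v : F, v ^ 4 = v + 1 := by
  classical
  have h16 : ((16 : ℕ) : F) = 0 := by rw [← h]; exact FiniteField.cast_card_eq_zero F
  have h2 : (2 : F) = 0 := by
    have : (2 : F) ^ 4 = 0 := by rw [← h16]; norm_num
    exact pow_eq_zero_iff (by norm_num) |>.1 this
  refine ⟨h2, ?_⟩
  by_contra hc
  push Not at hc
  open Polynomial in
  let H : F[X] := X ^ 12 + X ^ 9 + X ^ 8 + X ^ 6 + X ^ 4 + X ^ 3 + X ^ 2 + X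
  have hroot : ∀ x : F, H.eval x = 0 := fun x => by
    have e : (x ^ 4 + x + 1) * H.eval x = x ^ 16 + x := by
      simp only [H, Polynomial.eval_add, Polynomial.eval_pow, Polynomial.eval_X]
      linear_combination (x ^ 13 + x ^ 12 + x ^ 10 + x ^ 9 + x ^ 8 + x ^ 7 + x ^ 6 + x ^ 5 + x ^ 4 + x ^ 3 + x ^ 2) * h2
    have hq := FiniteField.pow_card x
    rw [h] at hq
    rw [hq, show x + x = 2 * x by ring, h2, zero_mul] at e
    refine (mul_eq_zero.1 e).resolve_left fun e' => hc x ?_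
    linear_combination e' - (x + 1) * h2
  have hdeg : H.natDegree = 12 := by
    simp only [H]; compute_degree!
  have := Polynomial.eq_zero_of_natDegree_lt_card_of_eval_eq_zero H Function.injective_id hroot
    (by rw [hdeg, h]; norm_num)
  rw [this] at hdeg
  simp at hdeg

/-- The word killing the exceptional block in characteristic five. -/
def word5 : List (Matrix (Fin 3) (Fin 3) (ZMod 5)) :=
  [!![2, 0, 0; 0, 1, 1; 0, 1, 4], !![0, 1, 0; 1, 0, 0; 0, 0, 4],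
   !![2, 0, 0; 0, 1, 1; 0, 1, 4], !![0, 1, 0; 1, 0, 0; 0, 0, 4],
   !![2, 0, 0; 0, 1, 1; 0, 1, 4], !![0, 1, 0; 2, 0, 0; 0, 0, 2],
   !![2, 0, 0; 0, 1, 1; 0, 1, 4], !![0, 1, 0; 2, 0, 0; 0, 0, 2],
   !![2, 0, 0; 0, 1, 1; 0, 1, 4], !![0, 1, 0; 0, 0, 3; 2, 0, 0],
   !![2, 0, 0; 0, 1, 1; 0, 1, 4], !![0, 1, 0; 0, 0, 1; 1, 0, 0],
   !![2, 0, 0; 0, 1, 1; 0, 1, 4], !![0, 4, 0; 1, 0, 0; 0, 0, 1]]

theorem word5_prod : word5.prod = !![1, 3, 0; 0, 1, 0; 0, 0, 1] := by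
  decide +kernel

/-- The word killing the side orbit in characteristic seven. -/
def word7 : List (Matrix (Fin 3) (Fin 3) (ZMod 7)) :=
  [!![0, 1, 1; 5, 1, 6; 5, 6, 1], !![0, 1, 0; 1, 0, 0; 0, 0, 6],
   !![0, 1, 1; 5, 1, 6; 5, 6, 1], !![0, 1, 0; 1, 0, 0; 0, 0, 6],
   !![0, 1, 1; 5, 1, 6; 5, 6, 1], !![0, 3, 0; 0, 0, 4; 3, 0, 0],
   !![0, 1, 1; 5, 1, 6; 5, 6, 1], !![6, 0, 0; 0, 0, 1; 0, 1, 0]]

theorem word7_prod : word7.prod = !![1, 0, 0; 0, 1, 0; 2, 0, 1] := by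
  decide +kernel

end Cfsg.Agent.SLThree.Monom
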