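import Cfsg.Agent.SLThree.Stab
import Cfsg.Agent.SLThree.MonomialArith
import Cfsg.Agent.DecompMax.LinearMat
import Cfsg.Agent.Linear.Orders

/-!
The stabiliser of a triangle is maximal in `SL(3, F)` for `q ≥ 5`.
-/

set_option autoImplicit false
set_option linter.unusedSectionVars false
set_option linter.style.haveILetI false

namespace Cfsg.Agent.SLThree.Monom

open Matrix Cfsg.Geo Cfsg.Agent.GeoClasses Cfsg.Agent.MaxSub.SubfieldMax
open Cfsg.Agent.DecompMax.Lin (monGL monGL_mem_specialLinear IsMon isMon_monGL exists_adjust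
  specialLinear_le_of_one_elementary)
open scoped MatrixGroups Matrix

variable {F : Type*} [Field F]

/-- A monomial matrix. -/
def Mon (A : Matrix (Fin 3) (Fin 3) F) : Prop := ∀ j, ∃ i, ∀ l, l ≠ i → A l j = 0

theorem mon_diag (a b c : F) : Mon !![a, 0, 0; 0, b, 0; 0, 0, c] := by
  intro j; refine ⟨j, fun l hl => ?_⟩
  fin_cases j <;> fin_cases l <;> simp_all

theorem mon_swap (a b c : F) : Mon !![a, 0, 0; 0, 0, b; 0, c, 0] := by
  intro j
  refine ⟨![0, 2, 1] j, fun l hl => ?_⟩
  fin_cases j <;> fin_cases l <;> simp_all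

/-- The standing assumptions. -/
structure Hyp (X : Subgroup (GL (Fin 3) F)) : Prop where
  mon : ∀ π d, monGL π d ∈ specialLinear (Fin 3) F → monGL π d ∈ X
  le : X ≤ specialLinear (Fin 3) F
  not_ge : ¬ specialLinear (Fin 3) F ≤ X

variable {X : Subgroup (GL (Fin 3) F)}

/-- There is an element of `X` with this matrix. -/
def InX (X : Subgroup (GL (Fin 3) F)) (A : Matrix (Fin 3) (Fin 3) F) : Prop :=
  ∃ g ∈ X, (g : Matrix (Fin 3) (Fin 3) F) = A

theorem InX.mul {A B : Matrix (Fin 3) (Fin 3) F} (h : InX X A) (h' : InX X B) : InX X (A * B) := by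
  obtain ⟨g, hg, rfl⟩ := h
  obtain ⟨g', hg', rfl⟩ := h'
  exact ⟨g * g', mul_mem hg hg', rfl⟩

theorem inX_of_mem {g : GL (Fin 3) F} (hg : g ∈ X) : InX X (g : Matrix (Fin 3) (Fin 3) F) :=
  ⟨g, hg, rfl⟩

theorem InX.prod : ∀ l : List (Matrix (Fin 3) (Fin 3) F), (∀ A ∈ l, InX X A) → InX X l.prod
  | [], _ => ⟨1, one_mem _, by simp⟩
  | A :: l, h => by
    rw [List.prod_cons]
    exact (h A (by simp)).mul (InX.prod l fun B hB => h B (List.mem_cons_of_mem _ hB))

/-- An element `e` with `e ^ 3 ≠ 1`. -/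
theorem exists_cube_ne_one [Fintype F] (hq : 5 ≤ Fintype.card F) : ∃ s : F, s ≠ 0 ∧ s ^ 3 ≠ 1 := by
  classical
  by_contra hc
  push Not at hc
  have hH : (Polynomial.X ^ 4 - Polynomial.X : Polynomial F) = 0 := by
    refine Polynomial.eq_zero_of_natDegree_lt_card_of_eval_eq_zero _ Function.injective_id (fun x => ?_) ?_
    · simp only [id_eq, Polynomial.eval_sub, Polynomial.eval_pow, Polynomial.eval_X]
      rcases eq_or_ne x 0 with rfl | hx
      · simp
      · linear_combination x * hc x hx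
    · rw [show (Polynomial.X ^ 4 - Polynomial.X : Polynomial F).natDegree = 4 by compute_degree!]
      omega
  have := congrArg Polynomial.natDegree hH
  rw [show (Polynomial.X ^ 4 - Polynomial.X : Polynomial F).natDegree = 4 by compute_degree!] at this
  simp at this

theorem three_ne_zero_five {F : Type*} [Field F] (h : (5 : F) = 0) : (3 : F) ≠ 0 := fun e =>
  one_ne_zero (α := F) (by linear_combination 2 * e - h)

theorem word5_mon : ∀ A ∈ word5, A ≠ !![2, 0, 0; 0, 1, 1; 0, 1, 4] →
    (∀ j, ∃ i, ∀ l, l ≠ i → A l j = 0) ∧ A.det = 1 := by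
  intro A hA
  simp only [word5, List.mem_cons, List.not_mem_nil, or_false] at hA
  rcases hA with rfl | rfl | rfl | rfl | rfl | rfl | rfl | rfl | rfl | rfl | rfl | rfl | rfl | rfl <;>
    intro h <;> first | exact absurd rfl h | (clear h; decide +kernel)

theorem word7_mon : ∀ A ∈ word7, A ≠ !![0, 1, 1; 5, 1, 6; 5, 6, 1] →
    (∀ j, ∃ i, ∀ l, l ≠ i → A l j = 0) ∧ A.det = 1 := by
  intro A hA
  simp only [word7, List.mem_cons, List.not_mem_nil, or_false] at hA
  rcases hA with rfl | rfl | rfl | rfl | rfl | rfl | rfl | rfl <;>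
    intro h <;> first | exact absurd rfl h | (clear h; decide +kernel)

theorem det_g7 : (!![0, 1, 1; 5, 1, 6; 5, 6, 1] : Matrix (Fin 3) (Fin 3) (ZMod 7)).det = 1 := by
  decide +kernel

/-- The cyclic shift. -/
def sh (k : Fin 3) : Matrix (Fin 3) (Fin 3) F := Matrix.of fun i j => if j = i + k then 1 else 0

theorem sh_mul (k : Fin 3) (A : Matrix (Fin 3) (Fin 3) F) (i j : Fin 3) : ((sh k : Matrix (Fin 3) (Fin 3) F) * A) i j = A (i + k) j := by
  simp [Matrix.mul_apply, sh]

theorem mul_sh (k : Fin 3) (A : Matrix (Fin 3) (Fin 3) F) (i j : Fin 3) : (A * (sh k : Matrix (Fin 3) (Fin 3) F)) i j = A i (j - k) := by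
  rw [Matrix.mul_apply, Finset.sum_eq_single (j - k)]
  · simp [sh]
  · intro l _ hl
    have : j ≠ l + k := fun e => hl (by rw [e, add_sub_cancel_right])
    simp [sh, this]
  · simp

theorem mon_sh (k : Fin 3) : Mon (sh k : Matrix (Fin 3) (Fin 3) F) := fun j => ⟨j - k, fun l hl => by
  have : j ≠ l + k := fun e => hl (by rw [e, add_sub_cancel_right])
  simp [sh, this]⟩

theorem det_sh (k : Fin 3) : (sh k : Matrix (Fin 3) (Fin 3) F).det = 1 := by
  fin_cases k <;> simp [sh, Matrix.det_fin_three, Fin.ext_iff, Fin.val_add]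

theorem Mon.mul {A B : Matrix (Fin 3) (Fin 3) F} (hA : Mon A) (hB : Mon B) : Mon (A * B) := fun j => by
  obtain ⟨i, hi⟩ := hB j
  obtain ⟨k, hk⟩ := hA i
  refine ⟨k, fun l hl => (Matrix.mul_apply).trans (Finset.sum_eq_zero fun r _ => ?_)⟩
  by_cases hr : r = i
  · simp [hr, hk l hl]
  · simp [hi r hr]

theorem mon_of_mul_sh {A : Matrix (Fin 3) (Fin 3) F} {i j : Fin 3} (h : Mon ((sh i : Matrix (Fin 3) (Fin 3) F) * A * (sh j : Matrix (Fin 3) (Fin 3) F))) : Mon A := by
  have e : A = (sh (-i) : Matrix (Fin 3) (Fin 3) F) * ((sh i : Matrix (Fin 3) (Fin 3) F) * A * (sh j : Matrix (Fin 3) (Fin 3) F)) * (sh (-j) : Matrix (Fin 3) (Fin 3) F) := by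
    ext r c
    rw [mul_sh, sh_mul, mul_sh, sh_mul]
    simp
  rw [e]
  exact ((mon_sh _).mul h).mul (mon_sh _)

/-- An element `s` with `s ^ 6 ≠ 1`. -/
theorem exists_sixth_ne_one [Fintype F] (hq : 5 ≤ Fintype.card F) (h7 : Fintype.card F ≠ 7) :
    ∃ s : F, s ≠ 0 ∧ s ^ 6 ≠ 1 := by
  classical
  obtain ⟨u, hu⟩ := IsCyclic.exists_ofOrder_eq_natCard (α := Fˣ)
  refine ⟨u, u.ne_zero, fun e => ?_⟩
  have hd : orderOf u ∣ 6 := orderOf_dvd_of_pow_eq_one (Units.ext (by simpa using e))
  rw [hu, Nat.card_eq_fintype_card, Fintype.card_units] at hd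
  have hb : Fintype.card F - 1 ≤ 6 := Nat.le_of_dvd (by norm_num) hd
  have hne : Fintype.card F ≠ 6 := fun h6 => by
    have h' : IsPrimePow 6 := h6 ▸ FiniteField.isPrimePow_card F
    exact absurd h' (by decide)
  interval_cases hc : Fintype.card F - 1 <;> omega

/-- The vectors in the orbit of the first base point. -/
def InO (X : Subgroup (GL (Fin 3) F)) (v : Fin 3 → F) : Prop := ∃ A, InX X A ∧ ∀ i, A i 0 = v i

theorem InO.mulVec {B : Matrix (Fin 3) (Fin 3) F} {v : Fin 3 → F} (hB : InX X B) (h : InO X v) :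
    InO X (B *ᵥ v) := by
  obtain ⟨A, hA, e⟩ := h
  exact ⟨B * A, hB.mul hA, fun i => by simp [Matrix.mul_apply, Matrix.mulVec, dotProduct, e]⟩

/-- The orbit sizes in the case that every cube class occurs. -/
theorem univ_arith {q : ℕ} (hq : 5 ≤ q) (h3 : q % 3 ≠ 1) (h6 : q ≠ 6)
    (h : (3 + (q - 1) ^ 2) ∣ q ^ 3 * ((q ^ 2 + q + 1) * (q + 1))) : False := by
  obtain ⟨e, rfl⟩ : ∃ e, q = e + 1 := ⟨q - 1, by omega⟩
  rw [Nat.add_sub_cancel] at h
  set k := 3 + e ^ 2 with hk
  have hgcd : Nat.gcd k (e + 1) ∣ 4 := by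
    have d1 : (Nat.gcd k (e + 1) : ℤ) ∣ (k : ℤ) := by exact_mod_cast Nat.gcd_dvd_left _ _
    have d2 : (Nat.gcd k (e + 1) : ℤ) ∣ ((e + 1 : ℕ) : ℤ) := by exact_mod_cast Nat.gcd_dvd_right _ _
    have : (Nat.gcd k (e + 1) : ℤ) ∣ (4 : ℤ) := by
      rw [show (4 : ℤ) = (k : ℤ) - ((e + 1 : ℕ) : ℤ) * ((e : ℤ) - 1) by rw [hk]; push_cast; ring]
      exact dvd_sub d1 (Dvd.dvd.mul_right d2 _)
    exact_mod_cast this
  have h64 : k ∣ 64 * (((e + 1) ^ 2 + (e + 1) + 1) * (e + 1 + 1)) := by
    refine (Nat.dvd_gcd_mul_iff_dvd_mul.2 h).trans (Nat.mul_dvd_mul_right ?_ _)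
    exact gcd_pow_right_dvd_pow_gcd.trans (pow_dvd_pow_of_dvd hgcd 3)
  have hd : k ∣ 192 * (2 * e - 3) := by
    have hZ : (k : ℤ) ∣ (64 * (((e + 1) ^ 2 + (e + 1) + 1) * (e + 1 + 1)) : ℕ) := by exact_mod_cast h64
    have h2 : (k : ℤ) ∣ ((192 * (2 * e - 3) : ℕ) : ℤ) := by
      have e2 : ((192 * (2 * e - 3) : ℕ) : ℤ) =
          (64 * (((e + 1) ^ 2 + (e + 1) + 1) * (e + 1 + 1)) : ℕ) - (k : ℤ) * (64 * ((e : ℤ) + 5)) := by
        rw [hk, Nat.cast_mul, Nat.cast_sub (by omega)]; push_cast; ring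
      rw [e2]
      exact dvd_sub hZ (Dvd.dvd.mul_right dvd_rfl _)
    exact_mod_cast h2
  have hb : k ≤ 192 * (2 * e - 3) := Nat.le_of_dvd (by omega) hd
  have he : e ≤ 384 := by
    by_contra hc
    push Not at hc
    have : 385 * e ≤ e ^ 2 := by rw [sq]; exact Nat.mul_le_mul_right _ hc
    omega
  have key : ∀ e ∈ Finset.Icc 4 384, (e + 1) % 3 ≠ 1 → e + 1 ≠ 6 → (3 + e ^ 2) ∣ 192 * (2 * e - 3) →
      ¬ (3 + e ^ 2) ∣ (e + 1) ^ 3 * (((e + 1) ^ 2 + (e + 1) + 1) * (e + 1 + 1)) := by decide +kernel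
  exact key e (Finset.mem_Icc.2 ⟨by omega, he⟩) h3 h6 hd h

/-- The order of the special linear group. -/
theorem card_specialLinear_three [Fintype F] :
    Nat.card (specialLinear (Fin 3) F) = Fintype.card F ^ 3 * ((Fintype.card F) ^ 3 - 1) *
      ((Fintype.card F) ^ 2 - 1) := by
  classical
  have h1 := Cfsg.Agent.Linear.card_SL_mul (F := F) 3
  rw [show Nat.card (specialLinear (Fin 3) F) = Nat.card (Matrix.SpecialLinearGroup (Fin 3) F) from
    Nat.card_congr Cfsg.Agent.Linear.slEquivKerDet.toEquiv.symm]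
  have hp2 := Fintype.one_lt_card (α := F)
  rw [Fin.prod_univ_three] at h1
  refine Nat.eq_of_mul_eq_mul_left (show 0 < Fintype.card F - 1 by omega) (h1.trans ?_)
  simp only [Fin.val_zero, Fin.val_one, Fin.val_two, pow_zero, pow_one]
  obtain ⟨e, he⟩ : ∃ e, Fintype.card F = e + 1 := ⟨Fintype.card F - 1, by omega⟩
  rw [he]
  have h31 : (e + 1) ^ 3 - (e + 1) = (e + 1) * ((e + 1) ^ 2 - 1) := by rw [Nat.mul_sub, mul_one]; ring_nf
  have h32 : (e + 1) ^ 3 - (e + 1) ^ 2 = (e + 1) ^ 2 * e := by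
    rw [show (e + 1) ^ 3 = (e + 1) ^ 2 * e + (e + 1) ^ 2 by ring, Nat.add_sub_cancel]
  rw [h31, h32, Nat.add_sub_cancel]
  ring

variable (H : Hyp X)
include H

theorem Hyp.det {A : Matrix (Fin 3) (Fin 3) F} (h : InX X A) : A.det = 1 := by
  obtain ⟨g, hg, rfl⟩ := h
  exact mem_specialLinear_iff.1 (H.le hg)

theorem Hyp.inX_mon {A : Matrix (Fin 3) (Fin 3) F} (hm : Mon A) (hd : A.det = 1) : InX X A := by
  obtain ⟨π, d, e⟩ := IsMon.exists_eq (g := mk3 A hd) hm
  exact ⟨mk3 A hd, e ▸ H.mon π d (e ▸ mk3_mem A hd), rfl⟩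

theorem Hyp.inX_diag {a b c : F} (h : a * b * c = 1) : InX X !![a, 0, 0; 0, b, 0; 0, 0, c] :=
  H.inX_mon (mon_diag a b c) (by simp [Matrix.det_fin_three]; linear_combination h)

theorem Hyp.inX_swap {a b c : F} (h : a * b * c = -1) : InX X !![a, 0, 0; 0, 0, b; 0, c, 0] :=
  H.inX_mon (mon_swap a b c) (by simp [Matrix.det_fin_three]; linear_combination -h)

theorem Hyp.elem {a b : Fin 3} (hab : a ≠ b) {c : F} (h : InM X (c • ev F a) (ev F b)) : c = 0 := by
  by_contra hc
  exact H.not_ge (specialLinear_le_of_one_elementary (by simp) H.mon hab hc h)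

theorem Hyp.not_inX_upper {x : F} (hx : x ≠ 0) : ¬ InX X !![1, 0, 0; 0, 1, x; 0, 0, 1] := by
  rintro ⟨g, hg, e⟩
  refine hx (H.elem (a := 1) (b := 2) (by decide) ⟨g, hg, ?_⟩)
  rw [e]
  ext i j; fin_cases i <;> fin_cases j <;> simp [vecMulVec_apply, ev]

theorem Hyp.noRoot [Fintype F] (hq : 5 ≤ Fintype.card F) : NoRootAt X := by
  obtain ⟨s, hs0, hs⟩ := exists_cube_ne_one hq
  have he : (e₀ : Fin 3 → F) = ev F 0 := by ext i; fin_cases i <;> simp [e₀, ev]
  -- clearing one of the two coordinates with an element of the torus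
  have step : ∀ x y a b c x' y' : F, InM X e₀ ![0, x, y] → a * b * c = 1 →
      a = x' * b → a = y' * c → InM X e₀ ![0, (x' - 1) * x, (y' - 1) * y] := by
    intro x y a b c x' y' h habc hx' hy'
    have ha : a ≠ 0 := fun e => by simp [e] at habc
    have hb : b ≠ 0 := fun e => by simp [e] at habc
    have hc : c ≠ 0 := fun e => by simp [e] at habc
    obtain ⟨t, ht, et⟩ := H.inX_diag habc
    have h' := h.conj ht
    have einv : ((t⁻¹ : GL (Fin 3) F) : Matrix (Fin 3) (Fin 3) F) = !![a⁻¹, 0, 0; 0, b⁻¹, 0; 0, 0, c⁻¹] := by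
      refine Units.inv_eq_of_mul_eq_one_right ?_
      rw [et]
      ext i j; fin_cases i <;> fin_cases j <;> simp [Matrix.mul_apply, Fin.sum_univ_three, ha, hb, hc]
    have hu : (t : Matrix (Fin 3) (Fin 3) F) *ᵥ e₀ = a • e₀ := by
      rw [et]; ext i; fin_cases i <;> simp [e₀, Matrix.mulVec, dotProduct, Fin.sum_univ_three]
    have hv : ![0, x, y] ᵥ* ((t⁻¹ : GL (Fin 3) F) : Matrix (Fin 3) (Fin 3) F) = ![0, x * b⁻¹, y * c⁻¹] := by
      rw [einv]; ext i; fin_cases i <;> simp [Matrix.vecMul, dotProduct, Fin.sum_univ_three]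
    rw [hu, hv, inM_smul_left] at h'
    have := h'.add_right (InM.neg h (by simp [e₀])) (by simp [e₀])
    convert this using 1
    ext i; fin_cases i <;> simp
    · rw [hx']; field_simp; ring
    · rw [hy']; field_simp; ring
  intro x y h
  constructor
  · have h1 := step x y s (s⁻¹ * s⁻¹) s (s ^ 3) 1 h (by field_simp) (by field_simp) (by rw [one_mul])
    rw [sub_self, zero_mul] at h1
    have := H.elem (a := 0) (b := 1) (by decide) (c := (s ^ 3 - 1) * x) (h1.congr (by
      rw [he]; ext i j; fin_cases i <;> fin_cases j <;> simp [vecMulVec_apply, ev]))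
    exact (mul_eq_zero.1 this).resolve_left (sub_ne_zero.2 hs)
  · have h1 := step x y s s (s⁻¹ * s⁻¹) 1 (s ^ 3) h (by field_simp) (by rw [one_mul]) (by field_simp)
    rw [sub_self, zero_mul] at h1
    have := H.elem (a := 0) (b := 2) (by decide) (c := (s ^ 3 - 1) * y) (h1.congr (by
      rw [he]; ext i j; fin_cases i <;> fin_cases j <;> simp [vecMulVec_apply, ev]))
    exact (mul_eq_zero.1 this).resolve_left (sub_ne_zero.2 hs)

/-- Elements fixing the first point are block diagonal. -/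
theorem Hyp.block_diag [Fintype F] (hq : 5 ≤ Fintype.card F) {g : GL (Fin 3) F} (hg : g ∈ X)
    (hf : Fix0 (g : Matrix (Fin 3) (Fin 3) F)) :
    (g : Matrix (Fin 3) (Fin 3) F) 0 1 = 0 ∧ (g : Matrix (Fin 3) (Fin 3) F) 0 2 = 0 := by
  obtain ⟨s, hs0, hs⟩ := exists_cube_ne_one hq
  obtain ⟨h, hh, eh⟩ := H.inX_diag (a := s⁻¹ * s⁻¹) (b := s) (c := s) (by field_simp)
  have fh : Fix0 (h : Matrix (Fin 3) (Fin 3) F) := by rw [eh]; simp [Fix0]
  have e := eq_of_blk H.le (H.noRoot hq) (mul_mem hg hh) (mul_mem hh hg) (hf.mul fh) (fh.mul hf) (by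
    rw [Units.val_mul, Units.val_mul, blk_mul hf, blk_mul fh, eh]
    ext i j; fin_cases i <;> fin_cases j <;> simp [blk, Matrix.mul_apply, Fin.sum_univ_two, mul_comm])
  have e' := congrArg (fun k : GL (Fin 3) F => (k : Matrix (Fin 3) (Fin 3) F)) e
  simp only [Units.val_mul, eh] at e'
  have hne : s - s⁻¹ * s⁻¹ ≠ 0 := sub_ne_zero.2 fun h => hs (by
    field_simp at h; linear_combination h)
  constructor
  · have := congrFun (congrFun e' 0) 1
    simp [Matrix.mul_apply, Fin.sum_univ_three] at this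
    exact (mul_eq_zero.1 (show (s - s⁻¹ * s⁻¹) * (g : Matrix (Fin 3) (Fin 3) F) 0 1 = 0 by
      linear_combination this)).resolve_left hne
  · have := congrFun (congrFun e' 0) 2
    simp [Matrix.mul_apply, Fin.sum_univ_three] at this
    exact (mul_eq_zero.1 (show (s - s⁻¹ * s⁻¹) * (g : Matrix (Fin 3) (Fin 3) F) 0 2 = 0 by
      linear_combination this)).resolve_left hne

/-- An upper triangular block is diagonal. -/
theorem Hyp.upper_zero {α a b d : F} (h : InX X !![α, 0, 0; 0, a, b; 0, 0, d]) : b = 0 := by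
  have hd := H.det h
  simp [Matrix.det_fin_three] at hd
  by_contra hb
  have ha : a ≠ 0 := fun e => by simp [e] at hd
  have hα : α ≠ 0 := fun e => by simp [e] at hd
  have hd' : d ≠ 0 := fun e => by simp [e] at hd
  refine H.not_inX_upper (div_ne_zero hb ha) ?_
  convert (H.inX_diag (a := α⁻¹) (b := a⁻¹) (c := d⁻¹) (by field_simp; linear_combination -hd)).mul h using 1
  ext i j; fin_cases i <;> fin_cases j <;> simp [Matrix.mul_apply, Fin.sum_univ_three, hα, ha, hd']
  rw [div_eq_inv_mul]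

/-- A zero in the block makes it monomial. -/
theorem Hyp.block_zero {α a b c d : F} (h : InX X !![α, 0, 0; 0, a, b; 0, c, d]) :
    (c = 0 → b = 0) ∧ (b = 0 → c = 0) ∧ (a = 0 → d = 0) ∧ (d = 0 → a = 0) := by
  have hS := H.inX_swap (a := (-1 : F)) (b := 1) (c := 1) (by ring)
  refine ⟨fun e => H.upper_zero (e ▸ h), fun e => ?_, fun e => ?_, fun e => ?_⟩
  · subst e
    refine H.upper_zero (α := α) (a := d) (d := a) ?_
    convert (hS.mul h).mul hS using 1
    ext i j; fin_cases i <;> fin_cases j <;> simp [Matrix.mul_apply, Fin.sum_univ_three]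
  · subst e
    refine H.upper_zero (α := -α) (a := c) (d := b) ?_
    convert hS.mul h using 1
    ext i j; fin_cases i <;> fin_cases j <;> simp [Matrix.mul_apply, Fin.sum_univ_three]
  · subst e
    refine H.upper_zero (α := -α) (a := b) (d := c) ?_
    convert h.mul hS using 1
    ext i j; fin_cases i <;> fin_cases j <;> simp [Matrix.mul_apply, Fin.sum_univ_three]

/-- A full block has cross ratio `-1`. -/
theorem Hyp.block_cross {α a b c d : F} (h : InX X !![α, 0, 0; 0, a, b; 0, c, d]) (ha : a ≠ 0)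
    (hb : b ≠ 0) (hc : c ≠ 0) (hd : d ≠ 0) : a * d + b * c = 0 := by
  have hdet := H.det h
  simp [Matrix.det_fin_three] at hdet
  set δ := -(a * a) / (b * c) with hδ
  have hδ0 : δ ≠ 0 := div_ne_zero (neg_ne_zero.2 (mul_ne_zero ha ha)) (mul_ne_zero hb hc)
  have h' := (h.mul (H.inX_diag (a := δ⁻¹) (b := 1) (c := δ) (by field_simp))).mul h
  have e : InX X !![α * δ⁻¹ * α, 0, 0; 0, 0, b * (a + δ * d); 0, c * (a + δ * d), b * c + δ * (d * d)] := by
    convert h' using 1
    ext i j; fin_cases i <;> fin_cases j <;> simp [Matrix.mul_apply, Fin.sum_univ_three, hδ] <;>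
      field_simp <;> ring
  have := (H.block_zero e).2.2.1 rfl
  rw [hδ] at this
  field_simp at this
  rcases mul_self_eq_mul_self_iff.1 (show (a * d) * (a * d) = (b * c) * (b * c) by
    linear_combination -this) with h1 | h1
  · exact absurd hdet (by rw [show α * a * d - α * b * c = α * (a * d - b * c) by ring, h1]; simp)
  · linear_combination h1

/-- Elements fixing the first point are monomial. -/
theorem Hyp.stab_mon [Fintype F] (hq : 5 ≤ Fintype.card F) {g : GL (Fin 3) F} (hg : g ∈ X)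
    (hf : Fix0 (g : Matrix (Fin 3) (Fin 3) F)) :
    ∃ α x y, (g : Matrix (Fin 3) (Fin 3) F) = !![α, 0, 0; 0, x, 0; 0, 0, y] ∨
      (g : Matrix (Fin 3) (Fin 3) F) = !![α, 0, 0; 0, 0, x; 0, y, 0] := by
  obtain ⟨h01, h02⟩ := H.block_diag hq hg hf
  set A := (g : Matrix (Fin 3) (Fin 3) F) with hA
  have eA : A = !![A 0 0, 0, 0; 0, A 1 1, A 1 2; 0, A 2 1, A 2 2] := by
    ext i j; fin_cases i <;> fin_cases j <;> simp [h01, h02, hf.1, hf.2]
  have hX : InX X !![A 0 0, 0, 0; 0, A 1 1, A 1 2; 0, A 2 1, A 2 2] := eA ▸ inX_of_mem hg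
  obtain ⟨z1, z2, z3, z4⟩ := H.block_zero hX
  by_cases hb : A 1 2 = 0
  · exact ⟨_, _, _, Or.inl (by rw [hb, z2 hb] at eA; exact eA)⟩
  by_cases ha : A 1 1 = 0
  · exact ⟨_, _, _, Or.inr (by rw [ha, z3 ha] at eA; exact eA)⟩
  exfalso
  set a := A 1 1
  set b := A 1 2
  set c := A 2 1
  set d := A 2 2
  set α := A 0 0
  have hc : c ≠ 0 := fun e => hb (z1 e)
  have hd : d ≠ 0 := fun e => ha (z4 e)
  have hX' := hX
  have hdet := H.det hX
  simp [Matrix.det_fin_three] at hdet
  have hcr := H.block_cross hX ha hb hc hd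
  have h2 : (2 : F) ≠ 0 := fun h2 => by
    have : α * a * d - α * b * c = 0 := by linear_combination α * hcr - α * b * c * h2
    rw [this] at hdet; exact zero_ne_one hdet
  by_cases h7 : 7 ≤ Fintype.card F
  · classical
    obtain ⟨x, hx0, hx1, hx2, hx3⟩ : ∃ x : F, x ≠ 0 ∧ x ≠ 1 ∧ x ≠ -1 ∧ x * x ≠ -1 := by
      by_contra hcon
      push Not at hcon
      have hH : (Polynomial.X * (Polynomial.X ^ 2 - 1) * (Polynomial.X ^ 2 + 1) : Polynomial F) = 0 := by
        refine Polynomial.eq_zero_of_natDegree_lt_card_of_eval_eq_zero _ Function.injective_id (fun x => ?_) ?_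
        · simp only [id_eq, Polynomial.eval_mul, Polynomial.eval_sub, Polynomial.eval_add, Polynomial.eval_pow,
            Polynomial.eval_X, Polynomial.eval_one]
          by_cases e0 : x = 0
          · simp [e0]
          by_cases e1 : x = 1
          · simp [e1]
          by_cases e2 : x = -1
          · simp [e2]
          have := hcon x e0 e1 e2
          linear_combination (x * (x ^ 2 - 1)) * this
        · rw [show (Polynomial.X * (Polynomial.X ^ 2 - 1) * (Polynomial.X ^ 2 + 1) : Polynomial F).natDegree = 5 by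
            compute_degree!]
          omega
      have := congrArg Polynomial.natDegree hH
      rw [show (Polynomial.X * (Polynomial.X ^ 2 - 1) * (Polynomial.X ^ 2 + 1) : Polynomial F).natDegree = 5 by
        compute_degree!] at this
      simp at this
    set δ := x * a / d with hδ
    have hδ0 : δ ≠ 0 := div_ne_zero (mul_ne_zero hx0 ha) hd
    have h' := (hX.mul (H.inX_diag (a := δ⁻¹) (b := 1) (c := δ) (by field_simp))).mul hX
    have e : InX X !![α * δ⁻¹ * α, 0, 0; 0, a * (a * (1 - x)), b * (a * (1 + x));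
        0, c * (a * (1 + x)), -(d * (a * (1 - x)))] := by
      convert h' using 1
      ext i j; fin_cases i <;> fin_cases j <;> simp [Matrix.mul_apply, Fin.sum_univ_three, hδ]
      · field_simp
        linear_combination -x * hcr
      · field_simp
      · field_simp
      · field_simp
        linear_combination -hcr
    have h1 : a * (1 - x) ≠ 0 := mul_ne_zero ha (sub_ne_zero.2 (Ne.symm hx1))
    have h3 : a * (1 + x) ≠ 0 := mul_ne_zero ha fun e => hx2 (by linear_combination e)
    have := H.block_cross e (mul_ne_zero ha h1) (mul_ne_zero hb h3) (mul_ne_zero hc h3)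
      (neg_ne_zero.2 (mul_ne_zero hd h1))
    have e2 : (a * d) * (a * a) * (2 * (1 + x * x)) = 0 := by
      linear_combination -this + a * a * (1 + x) ^ 2 * hcr
    simp only [mul_eq_zero, h2, ha, hd, or_self, false_or] at e2
    exact hx3 (by linear_combination e2)
  · -- five elements
    have h5 : Fintype.card F = 5 := by
      obtain ⟨p, n, hp, hn, e⟩ := (isPrimePow_nat_iff _).1 (FiniteField.isPrimePow_card F)
      have : Fintype.card F = 5 ∨ Fintype.card F = 6 := by omega
      refine this.resolve_right fun h6 => ?_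
      have h2' := (Nat.prime_dvd_prime_iff_eq Nat.prime_two hp).1 (Nat.prime_two.dvd_of_dvd_pow
        (by rw [e, h6]; norm_num : 2 ∣ p ^ n))
      have h3' := (Nat.prime_dvd_prime_iff_eq Nat.prime_three hp).1 (Nat.prime_three.dvd_of_dvd_pow
        (by rw [e, h6]; norm_num : 3 ∣ p ^ n))
      omega
    haveI : Fact (Nat.Prime 5) := ⟨Nat.prime_five⟩
    haveI : CharP F 5 := charP_of_card_eq_prime (by simpa [Nat.card_eq_fintype_card] using h5)
    have h5' : (5 : F) = 0 := by exact_mod_cast CharP.cast_eq_zero F 5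
    set f := ZMod.castHom (dvd_refl 5) F with hf
    -- normalise the block
    have hH : InX X (f.mapMatrix (!![2, 0, 0; 0, 1, 1; 0, 1, 4] : Matrix (Fin 3) (Fin 3) (ZMod 5))) := by
      have hα : α ≠ 0 := fun e => by simp [e] at hdet
      have h4 : α * b * c = 2 := by
        linear_combination 2 * hdet - 2 * α * hcr + α * b * c * h5'
      convert ((H.inX_diag (a := (a / c)⁻¹) (b := 1) (c := a / c) (by field_simp)).mul hX).mul
        (H.inX_diag (a := 2 * a / (c * α)) (b := a⁻¹) (c := b⁻¹) (by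
          field_simp
          linear_combination -h4)) using 1
      ext i j; fin_cases i <;> fin_cases j <;> simp [Matrix.mul_apply, Fin.sum_univ_three, map_ofNat] <;>
        field_simp
      linear_combination c * b * h5' - hcr
    have hwd : ∀ A ∈ word5, InX X (f.mapMatrix A) := by
      intro A hA
      by_cases hAH : A = !![2, 0, 0; 0, 1, 1; 0, 1, 4]
      · exact hAH ▸ hH
      have hmA := word5_mon A hA hAH
      refine H.inX_mon (fun j => ?_) ?_
      · obtain ⟨i, hi⟩ := hmA.1 j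
        exact ⟨i, fun l hl => by simp [hi l hl]⟩
      · rw [← RingHom.map_det, hmA.2, map_one]
    have hp := InX.prod (word5.map f.mapMatrix) (by simpa using hwd)
    rw [← map_list_prod, word5_prod] at hp
    obtain ⟨k, hk, ek⟩ := hp
    refine three_ne_zero_five h5' (H.elem (a := 0) (b := 1) (by decide) (c := (3 : F)) ⟨k, hk, ?_⟩)
    rw [ek]
    ext i j; fin_cases i <;> fin_cases j <;> simp [vecMulVec_apply, ev, map_ofNat]

theorem Hyp.inX_sh (k : Fin 3) : InX X (sh k) := H.inX_mon (mon_sh k) (det_sh k)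

/-- An element of `X` fixing the column of `G` gives a monomial conjugate. -/
theorem Hyp.conj_stab [Fintype F] (hq : 5 ≤ Fintype.card F) {G B : Matrix (Fin 3) (Fin 3) F}
    (hG : InX X G) (hB : InX X B) {l : F} (hl : ∀ i, (B * G) i 0 = l * G i 0) :
    ∃ x y, (l * x * y = 1 ∧ B * G = G * !![l, 0, 0; 0, x, 0; 0, 0, y]) ∨
      (l * x * y = -1 ∧ B * G = G * !![l, 0, 0; 0, 0, x; 0, y, 0]) := by
  obtain ⟨g, hg, rfl⟩ := hG
  obtain ⟨b, hb, rfl⟩ := hB
  set k := g⁻¹ * b * g with hk
  have hkX : k ∈ X := mul_mem (mul_mem (inv_mem hg) hb) hg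
  have hgk : (g : Matrix (Fin 3) (Fin 3) F) * (k : Matrix (Fin 3) (Fin 3) F) = b * g := by
    rw [← Units.val_mul, ← Units.val_mul, hk, mul_assoc g⁻¹, mul_inv_cancel_left]
  have hcol : ∀ i, (k : Matrix (Fin 3) (Fin 3) F) i 0 = l * (1 : Matrix (Fin 3) (Fin 3) F) i 0 := by
    intro i
    rw [← Units.inv_mul g, Matrix.mul_apply, hk, Units.val_mul, Units.val_mul, Matrix.mul_assoc,
      Matrix.mul_apply, Finset.mul_sum]
    refine Finset.sum_congr rfl fun j _ => ?_
    rw [hl]; ring
  have fk : Fix0 (k : Matrix (Fin 3) (Fin 3) F) := ⟨by simp [hcol], by simp [hcol]⟩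
  obtain ⟨α, x, y, e | e⟩ := H.stab_mon hq hkX fk
  all_goals
    have hα : α = l := by simpa [e] using hcol 0
    subst hα
    have hd := H.det (inX_of_mem hkX)
    rw [e] at hd hgk
    simp [Matrix.det_fin_three] at hd
  · exact ⟨x, y, Or.inl ⟨hd, hgk.symm⟩⟩
  · exact ⟨x, y, Or.inr ⟨by linear_combination -hd, hgk.symm⟩⟩

/-- Elements moving the first point to a base point are monomial. -/
theorem Hyp.mon_of_unit_col [Fintype F] (hq : 5 ≤ Fintype.card F) {A : Matrix (Fin 3) (Fin 3) F}
    (h : InX X A) {i j : Fin 3} (hij : ∀ l, l ≠ i → A l j = 0) : Mon A := by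
  refine mon_of_mul_sh (i := i) (j := -j) ?_
  obtain ⟨g, hg, e⟩ := ((H.inX_sh i).mul h).mul (H.inX_sh (-j))
  have hf : Fix0 (g : Matrix (Fin 3) (Fin 3) F) := by
    constructor <;> rw [e, mul_sh, sh_mul] <;> simp <;> apply hij <;> simp
  rw [← e]
  obtain ⟨α, x, y, e | e⟩ := H.stab_mon hq hg hf <;> rw [e]
  · exact mon_diag _ _ _
  · exact mon_swap _ _ _

/-- The second shape: the element is equivalent to the exceptional one in characteristic seven. -/
theorem Hyp.seven [Fintype F] (hq : Fintype.card F = 7) {A : Matrix (Fin 3) (Fin 3) F} (h : InX X A)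
    {β γ u v y : F} (hy : y ≠ 0) (hβ : β ≠ 0) (hγ : γ ≠ 0)
    (e : A = !![0, u, u / y; β, v, -v / y; γ, -(γ * v) / β, γ * v / (β * y)]) : False := by
  haveI : Fact (Nat.Prime 7) := ⟨by norm_num⟩
  haveI : CharP F 7 := charP_of_card_eq_prime (by simpa [Nat.card_eq_fintype_card] using hq)
  have h7' : (7 : F) = 0 := by exact_mod_cast CharP.cast_eq_zero F 7
  have h2 : (2 : F) ≠ 0 := fun e2 => one_ne_zero (α := F) (by linear_combination h7' - 3 * e2)
  have hdet := H.det h
  subst e
  simp [Matrix.det_fin_three] at hdet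
  field_simp at hdet
  have hu : u ≠ 0 := fun e => by simp [e, hy, hβ] at hdet; exact hy hdet.symm
  have hv : v ≠ 0 := fun e => by simp [e, hy, hβ] at hdet; exact hy hdet.symm
  set f := ZMod.castHom (dvd_refl 7) F with hf
  set l0 := u⁻¹ with hl0
  set l1 := v⁻¹ with hl1
  set l2 := β / (γ * v) with hl2
  set L : Matrix (Fin 3) (Fin 3) F := !![l0, 0, 0; 0, l1, 0; 0, 0, l2] with hL
  set L' : Matrix (Fin 3) (Fin 3) F := !![u, 0, 0; 0, v, 0; 0, 0, γ * v / β] with hL'
  set R : Matrix (Fin 3) (Fin 3) F := !![5 * v / β, 0, 0; 0, 1, 0; 0, 0, y] with hR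
  set g7 : Matrix (Fin 3) (Fin 3) (ZMod 7) := !![0, 1, 1; 5, 1, 6; 5, 6, 1] with hg7
  have h6 : (6 : F) = -1 := by linear_combination h7'
  have eg : L * !![0, u, u / y; β, v, -v / y; γ, -(γ * v) / β, γ * v / (β * y)] * R = f.mapMatrix g7 := by
    ext i j
    fin_cases i <;> fin_cases j <;>
      simp [hL, hR, hg7, hl0, hl1, hl2, Matrix.mul_apply, Fin.sum_univ_three, map_ofNat, h6] <;>
      field_simp
  have hLL : L' * L = 1 := by
    ext i j; fin_cases i <;> fin_cases j <;>
      simp [hL, hL', hl0, hl1, hl2, Matrix.mul_apply, Fin.sum_univ_three] <;> field_simp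
  have hLL' : L * L' = 1 := mul_eq_one_comm.1 hLL
  have hRL : InX X (R * L) := by
    refine H.inX_mon ((mon_diag _ _ _).mul (mon_diag _ _ _)) ?_
    have := congrArg Matrix.det eg
    rw [← RingHom.map_det, show g7.det = 1 from det_g7, map_one, Matrix.det_mul,
      Matrix.det_mul, H.det h, mul_one] at this
    rwa [Matrix.det_mul, mul_comm]
  have hword : ∀ M ∈ word7, InX X (L' * f.mapMatrix M * L) := by
    intro M hM
    by_cases hMg : M = g7
    · have := h.mul hRL
      rwa [hMg, ← eg, ← Matrix.mul_assoc, ← Matrix.mul_assoc, hLL, Matrix.one_mul, Matrix.mul_assoc]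
    have hmM := word7_mon M hM hMg
    refine H.inX_mon (((mon_diag _ _ _).mul fun j => ?_).mul (mon_diag _ _ _)) ?_
    · obtain ⟨i, hi⟩ := hmM.1 j
      exact ⟨i, fun l hl => by simp [hi l hl]⟩
    · have hd1 : L'.det * L.det = 1 := by rw [← Matrix.det_mul, hLL, Matrix.det_one]
      rw [Matrix.det_mul, Matrix.det_mul, ← RingHom.map_det, hmM.2, map_one, mul_one, hd1]
  have key : ∀ l : List (Matrix (Fin 3) (Fin 3) (ZMod 7)), (∀ M ∈ l, InX X (L' * f.mapMatrix M * L)) →
      InX X (L' * f.mapMatrix l.prod * L) := by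
    intro l
    induction l with
    | nil => intro _; simpa [hLL] using InX.prod (X := X) [] (by simp)
    | cons M l ih =>
      intro hl
      have := (hl M (by simp)).mul (ih fun N hN => hl N (List.mem_cons_of_mem _ hN))
      convert this using 1
      rw [List.prod_cons, map_mul]
      simp only [Matrix.mul_assoc]
      rw [← Matrix.mul_assoc L L', hLL', Matrix.one_mul]
  obtain ⟨k, hk, ek⟩ := key word7 hword
  rw [word7_prod] at ek
  refine mul_ne_zero (mul_ne_zero (div_ne_zero (mul_ne_zero hγ hv) hβ) h2) (inv_ne_zero hu)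
    (H.elem (a := 2) (b := 0) (by decide) (c := γ * v / β * 2 * u⁻¹) ⟨k, hk, ?_⟩)
  rw [ek]
  ext i j; fin_cases i <;> fin_cases j <;>
    simp [hL, hL', hl0, hl1, hl2, Matrix.mul_apply, Fin.sum_univ_three, vecMulVec_apply, ev, map_ofNat,
      Matrix.vecMul, dotProduct] <;>
    field_simp

/-- No element has exactly one zero in a column. -/
theorem Hyp.no_one_zero [Fintype F] (hq : 5 ≤ Fintype.card F) {A : Matrix (Fin 3) (Fin 3) F}
    (h : InX X A) (h0 : A 0 0 = 0) (h1 : A 1 0 ≠ 0) (h2 : A 2 0 ≠ 0) : False := by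
  have hnm : ¬ Mon A := fun hm => by
    obtain ⟨i, hi⟩ := hm 0
    by_cases e : i = 1
    · exact h2 (hi 2 (by rw [e]; decide))
    · exact h1 (hi 1 (Ne.symm e))
  have hrow : A 0 1 ≠ 0 ∨ A 0 2 ≠ 0 := by
    by_contra hc
    push Not at hc
    have := H.det h
    simp [Matrix.det_fin_three, h0, hc.1, hc.2] at this
  -- an element of the torus fixing the column
  have hsplit : ∀ s : F, s ≠ 0 → s ^ 3 ≠ 1 → ∃ x y, s * x * y = -1 ∧
      !![s⁻¹ * s⁻¹, 0, 0; 0, s, 0; 0, 0, s] * A = A * !![s, 0, 0; 0, 0, x; 0, y, 0] := by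
    intro s hs0 hs
    obtain ⟨x, y, ⟨hxy, e⟩ | e⟩ := H.conj_stab hq h
      (H.inX_diag (a := s⁻¹ * s⁻¹) (b := s) (c := s) (by field_simp)) (l := s) (fun i => by
        fin_cases i <;> simp [Matrix.mul_apply, Fin.sum_univ_three, h0])
    swap
    · exact ⟨x, y, e⟩
    exfalso
    have hs' : s⁻¹ * s⁻¹ - s ≠ 0 := sub_ne_zero.2 fun hh => hs (by
      field_simp at hh; linear_combination -hh)
    have e' := fun i j => congrFun (congrFun e i) j
    have e01 := e' 0 1; have e11 := e' 1 1; have e21 := e' 2 1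
    have e02 := e' 0 2; have e12 := e' 1 2; have e22 := e' 2 2
    simp [Matrix.mul_apply, Fin.sum_univ_three] at e01 e11 e21 e02 e12 e22
    rcases hrow with hj | hj
    · by_cases hx : x = s
      · exact hj ((mul_eq_zero.1 (show (s⁻¹ * s⁻¹ - s) * A 0 1 = 0 by
          linear_combination e01 + A 0 1 * hx)).resolve_left hs')
      have hx' : s - x ≠ 0 := sub_ne_zero.2 (Ne.symm hx)
      have a11 := (mul_eq_zero.1 (show (s - x) * A 1 1 = 0 by linear_combination e11)).resolve_left hx'
      have a21 := (mul_eq_zero.1 (show (s - x) * A 2 1 = 0 by linear_combination e21)).resolve_left hx'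
      exact hnm (H.mon_of_unit_col hq h (i := 0) (j := 1) fun l hl => by fin_cases l <;> simp_all)
    · by_cases hx : y = s
      · exact hj ((mul_eq_zero.1 (show (s⁻¹ * s⁻¹ - s) * A 0 2 = 0 by
          linear_combination e02 + A 0 2 * hx)).resolve_left hs')
      have hx' : s - y ≠ 0 := sub_ne_zero.2 (Ne.symm hx)
      have a11 := (mul_eq_zero.1 (show (s - y) * A 1 2 = 0 by linear_combination e12)).resolve_left hx'
      have a21 := (mul_eq_zero.1 (show (s - y) * A 2 2 = 0 by linear_combination e22)).resolve_left hx'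
      exact hnm (H.mon_of_unit_col hq h (i := 0) (j := 2) fun l hl => by fin_cases l <;> simp_all)
  by_cases h7 : Fintype.card F = 7
  swap
  · obtain ⟨s, hs0, hs6⟩ := exists_sixth_ne_one hq h7
    have hs : s ^ 3 ≠ 1 := fun e => hs6 (by linear_combination (s ^ 3 + 1) * e)
    obtain ⟨x, y, hxy, e⟩ := hsplit s hs0 hs
    have e01 := congrFun (congrFun e 0) 1
    have e02 := congrFun (congrFun e 0) 2
    simp [Matrix.mul_apply, Fin.sum_univ_three] at e01 e02
    field_simp at e01 e02
    have hy : y ≠ 0 := fun e => by simp [e] at hxy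
    have a01 : A 0 1 = 0 := (mul_eq_zero.1 (show (1 + s ^ 3) * A 0 1 = 0 by
      linear_combination e01 + y * s ^ 2 * e02 + A 0 1 * s ^ 3 * hxy)).resolve_left
      fun e3 => hs6 (by linear_combination (s ^ 3 - 1) * e3)
    have a02 : A 0 2 = 0 := by
      rw [a01] at e01
      simpa [hy, hs0] using e01
    exact hrow.elim (· a01) (· a02)
  -- seven elements
  haveI : Fact (Nat.Prime 7) := ⟨by norm_num⟩
  haveI : CharP F 7 := charP_of_card_eq_prime (by simpa [Nat.card_eq_fintype_card] using h7)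
  have h7' : (7 : F) = 0 := by exact_mod_cast CharP.cast_eq_zero F 7
  have hm1 : (-1 : F) ^ 3 ≠ 1 := fun e => one_ne_zero (α := F) (by linear_combination h7' + 3 * e)
  obtain ⟨x, y, hxy, e⟩ := hsplit (-1) (by norm_num) hm1
  have e01 := congrFun (congrFun e 0) 1
  have e11 := congrFun (congrFun e 1) 1
  have e21 := congrFun (congrFun e 2) 1
  simp [Matrix.mul_apply, Fin.sum_univ_three] at e01 e11 e21
  have hy : y ≠ 0 := fun e => by simp [e] at hxy
  set β := A 1 0 with hβ
  set γ := A 2 0 with hγ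
  obtain ⟨x', y', e'⟩ := H.conj_stab hq h
    (H.inX_swap (a := (-1 : F)) (b := β / γ) (c := γ / β) (by field_simp)) (l := 1) (fun i => by
      fin_cases i <;> simp [Matrix.mul_apply, Fin.sum_univ_three, h0, ← hβ, ← hγ] <;> field_simp)
  have a02 : A 0 2 = A 0 1 / y := by field_simp; linear_combination -e01
  have a12 : A 1 2 = -A 1 1 / y := by field_simp; linear_combination -e11
  have a22 : A 2 2 = -A 2 1 / y := by field_simp; linear_combination -e21
  have hu : A 0 1 ≠ 0 := fun e => hrow.elim (· e) (· (by rw [a02, e, zero_div]))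
  rcases e' with ⟨hp, e'⟩ | ⟨hp, e'⟩
  · have f01 := congrFun (congrFun e' 0) 1
    have f21 := congrFun (congrFun e' 2) 1
    simp [Matrix.mul_apply, Fin.sum_univ_three] at f01 f21
    have hx' : x' = -1 := (mul_left_cancel₀ hu (show A 0 1 * x' = A 0 1 * -1 by linear_combination -f01))
    rw [hx'] at f21
    field_simp at f21
    have a21 : A 2 1 = -(γ * A 1 1) / β := by field_simp; linear_combination f21
    refine H.seven h7 h hy h1 h2 (u := A 0 1) (v := A 1 1) ?_
    ext i j
    fin_cases i <;> fin_cases j <;> simp [h0, a02, a12, ← hβ, ← hγ]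
    · exact a21
    · rw [a22, a21]; field_simp
  · have f01 := congrFun (congrFun e' 0) 1
    have f11 := congrFun (congrFun e' 1) 1
    simp [Matrix.mul_apply, Fin.sum_univ_three, a02, a12] at f01 f11
    field_simp at f01 f11
    have hy' : y' = -y := f01.symm
    rw [hy'] at f11
    have a21 : A 2 1 = γ * A 1 1 / β := by
      field_simp
      exact mul_left_cancel₀ hy (by linear_combination f11)
    have hd := H.det h
    simp [Matrix.det_fin_three, h0, a02, a12, a22, a21, ← hβ, ← hγ] at hd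
    field_simp at hd
    ring_nf at hd
    exact hy hd.symm

/-- A column is supported at one point or everywhere. -/
theorem Hyp.col_cases [Fintype F] (hq : 5 ≤ Fintype.card F) {A : Matrix (Fin 3) (Fin 3) F}
    (h : InX X A) : Mon A ∨ ∀ l, A l 0 ≠ 0 := by
  by_contra hc
  push Not at hc
  obtain ⟨hnm, l, hl⟩ := hc
  have hX := (H.inX_sh l).mul h
  have hnm' : ¬ Mon ((sh l : Matrix (Fin 3) (Fin 3) F) * A) := fun hm => hnm (mon_of_mul_sh (i := l) (j := 0) (by
    have e : (sh l : Matrix (Fin 3) (Fin 3) F) * A * sh 0 = (sh l : Matrix (Fin 3) (Fin 3) F) * A := by ext r c; rw [mul_sh]; simp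
    rwa [e]))
  have z0 : ((sh l : Matrix (Fin 3) (Fin 3) F) * A : Matrix (Fin 3) (Fin 3) F) 0 0 = 0 := by rw [sh_mul, zero_add]; exact hl
  refine H.no_one_zero hq hX z0 (fun z1 => hnm' ?_) (fun z2 => hnm' ?_)
  · exact H.mon_of_unit_col hq hX (i := 2) (j := 0) fun r hr => by fin_cases r <;> simp_all
  · exact H.mon_of_unit_col hq hX (i := 1) (j := 0) fun r hr => by fin_cases r <;> simp_all

/-- The class invariant of a full vector decides membership in the orbit. -/
theorem Hyp.full_iff {a b c : F} (ha : a ≠ 0) (hb : b ≠ 0) (hc : c ≠ 0) :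
    InO X ![a, b, c] ↔ InO X ![1, a * b / (c * c), 1] := by
  have scal : ∀ (v : Fin 3 → F) (μ : F), μ ≠ 0 → InO X v → InO X (μ • v) := by
    rintro v μ hμ ⟨A, hA, e⟩
    exact ⟨A * _, hA.mul (H.inX_diag (a := μ) (b := μ⁻¹) (c := 1) (by field_simp)), fun i => by
      simp [Matrix.mul_apply, Fin.sum_univ_three, e, mul_comm]⟩
  set w := a * b / (c * c) with hw
  have hw0 : w ≠ 0 := by simp [hw, ha, hb, hc]
  constructor
  · intro h
    have := scal _ c⁻¹ (inv_ne_zero hc) (h.mulVec (H.inX_diag (a := c / a) (b := w * c / b) (c := 1)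
      (by rw [hw]; field_simp)))
    convert this using 1
    ext i; fin_cases i <;> simp [Matrix.mulVec, dotProduct, Fin.sum_univ_three] <;> field_simp
  · intro h
    have := scal _ c hc (h.mulVec (H.inX_diag (a := a / c) (b := b / (w * c)) (c := 1)
      (by rw [hw]; field_simp)))
    convert this using 1
    ext i; fin_cases i <;> simp [Matrix.mulVec, dotProduct, Fin.sum_univ_three] <;> field_simp

/-- The torus in the stabiliser and the orbit bound the order from below. -/
theorem Hyp.dvd_card [Fintype F] (hq : 5 ≤ Fintype.card F) :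
    ((Fintype.card F - 1) * (3 * (Fintype.card F - 1) + (Fintype.card F - 1) ^ 2 *
      Nat.card {w : Fˣ // InO X ![1, (w : F), 1]})) ∣ Nat.card (specialLinear (Fin 3) F) := by
  classical
  letI : MulAction X (Fin 3 → F) :=
    { smul := fun g v => ((g : GL (Fin 3) F) : Matrix (Fin 3) (Fin 3) F) *ᵥ v
      one_smul := fun v => Matrix.one_mulVec v
      mul_smul := fun g g' v => (Matrix.mulVec_mulVec v _ _).symm }
  have hsmul : ∀ (g : X) (v : Fin 3 → F), g • v = ((g : GL (Fin 3) F) : Matrix (Fin 3) (Fin 3) F) *ᵥ v :=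
    fun _ _ => rfl
  set e : Fin 3 → F := Pi.single 0 1 with he
  set q := Fintype.card F with hqd
  -- the orbit
  let φ : (Fin 3 × Fˣ) ⊕ (Fˣ × Fˣ × {w : Fˣ // InO X ![1, (w : F), 1]}) → MulAction.orbit X e :=
    Sum.elim (fun p => ⟨Pi.single p.1 (p.2 : F), by
      obtain ⟨g, hg, eg⟩ := (H.inX_sh (-p.1)).mul (H.inX_diag (a := (p.2 : F)) (b := (p.2 : F)⁻¹) (c := 1)
        (by simp))
      refine ⟨⟨g, hg⟩, funext fun r => ?_⟩
      show ((g : Matrix (Fin 3) (Fin 3) F) *ᵥ e) r = _
      rw [he, Matrix.mulVec_single_one, eg]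
      simp only [Matrix.col_apply, sh_mul]
      by_cases hr : r = p.1
      · simp [hr]
      · have hne : r + -p.1 ≠ 0 := fun e => hr (by simpa [← sub_eq_add_neg, sub_eq_zero] using e)
        revert hne
        generalize r + -p.1 = k
        intro hne
        fin_cases k <;> simp_all⟩)
    (fun p => ⟨![(p.1 : F), ((p.2.2.1 : Fˣ) : F) * ((p.2.1 : F) * p.2.1) / p.1, p.2.1], by
      have h := (H.full_iff p.1.ne_zero (b := ((p.2.2.1 : Fˣ) : F) * ((p.2.1 : F) * p.2.1) / p.1)
        (by simp) p.2.1.ne_zero).2 (by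
          convert p.2.2.2 using 3
          field_simp)
      obtain ⟨A, ⟨g, hg, eg⟩, hA⟩ := h
      refine ⟨⟨g, hg⟩, funext fun r => ?_⟩
      show ((g : Matrix (Fin 3) (Fin 3) F) *ᵥ e) r = _
      rw [he, Matrix.mulVec_single_one, eg, Matrix.col_apply, hA]⟩)
  have hφ : Function.Bijective φ := by
    constructor
    · rintro (⟨i, c⟩ | ⟨a, c, w⟩) (⟨i', c'⟩ | ⟨a', c', w'⟩) hh
      all_goals replace hh := congrArg Subtype.val hh
      · simp only [φ, Sum.elim_inl] at hh
        obtain rfl : i = i' := by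
          by_contra hne
          have := congrFun hh i
          simp [hne] at this
        simpa [Units.ext_iff] using congrFun hh i
      · exfalso
        simp only [φ, Sum.elim_inl, Sum.elim_inr] at hh
        have h0 := congrFun hh 0; have h2 := congrFun hh 2
        fin_cases i <;> simp at h0 h2 <;>
          first | exact Units.ne_zero _ h0.symm | exact Units.ne_zero _ h2.symm | exact Units.ne_zero _ h0 |
            exact Units.ne_zero _ h2
      · exfalso
        simp only [φ, Sum.elim_inl, Sum.elim_inr] at hh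
        have h0 := congrFun hh 0; have h2 := congrFun hh 2
        fin_cases i' <;> simp at h0 h2 <;>
          first | exact Units.ne_zero _ h0.symm | exact Units.ne_zero _ h2.symm | exact Units.ne_zero _ h0 |
            exact Units.ne_zero _ h2
      · simp only [φ, Sum.elim_inr] at hh
        obtain rfl : a = a' := Units.ext (congrFun hh 0)
        obtain rfl : c = c' := Units.ext (congrFun hh 2)
        have := congrFun hh 1
        simp at this
        simp [Subtype.ext_iff, Units.ext_iff, this]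
    · rintro ⟨v, ⟨g, hg⟩, hv⟩
      have hv' : ∀ i, v i = (g : Matrix (Fin 3) (Fin 3) F) i 0 := fun i => by
        rw [← hv]; show ((g : Matrix (Fin 3) (Fin 3) F) *ᵥ e) i = _
        rw [he, Matrix.mulVec_single_one, Matrix.col_apply]
      have hO : InO X v := ⟨_, inX_of_mem hg, fun i => (hv' i).symm⟩
      rcases H.col_cases hq (inX_of_mem hg) with hm | hf
      · obtain ⟨i, hi⟩ := hm 0
        have hne : v i ≠ 0 := fun e0 => by
          have hd := H.det (inX_of_mem hg)
          rw [Matrix.det_eq_zero_of_column_eq_zero 0 fun l => by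
            by_cases hl : l = i
            · rw [hl, ← hv', e0]
            · exact hi l hl] at hd
          exact zero_ne_one hd
        refine ⟨Sum.inl (i, Units.mk0 _ hne), Subtype.ext (funext fun r => ?_)⟩
        simp only [φ, Sum.elim_inl]
        by_cases hr : r = i
        · simp [hr]
        · simp [hr, hv' r, hi r hr]
      · have h0 : v 0 ≠ 0 := by rw [hv']; exact hf 0
        have h1 : v 1 ≠ 0 := by rw [hv']; exact hf 1
        have h2 : v 2 ≠ 0 := by rw [hv']; exact hf 2
        have ev3 : v = ![v 0, v 1, v 2] := by ext i; fin_cases i <;> rfl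
        refine ⟨Sum.inr (Units.mk0 _ h0, Units.mk0 _ h2, ⟨Units.mk0 (v 0 * v 1 / (v 2 * v 2))
          (by simp [h0, h1, h2]), (H.full_iff h0 h1 h2).1 (ev3 ▸ hO)⟩), Subtype.ext ?_⟩
        simp only [φ, Sum.elim_inr, Units.val_mk0]
        conv_rhs => rw [ev3]
        ext i; fin_cases i <;> simp
        field_simp
  have hO : Nat.card (MulAction.orbit X e) =
      3 * (q - 1) + (q - 1) ^ 2 * Nat.card {w : Fˣ // InO X ![1, (w : F), 1]} := by
    rw [← Nat.card_congr (Equiv.ofBijective φ hφ), Nat.card_sum, Nat.card_prod, Nat.card_prod, Nat.card_prod,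
      Nat.card_fin, Nat.card_units, Nat.card_eq_fintype_card (α := F)]
    ring
  -- the torus
  let ψ : Fˣ →* GL (Fin 3) F := MonoidHom.mk' (fun x => mk3 !![1, 0, 0; 0, (x : F), 0; 0, 0, (x : F)⁻¹]
      (by simp [Matrix.det_fin_three])) fun x y => Units.ext (by
    simp only [Units.val_mul, mk3_val]
    ext i j; fin_cases i <;> fin_cases j <;> simp [Matrix.mul_apply, Fin.sum_univ_three, mul_comm])
  have hS : (q - 1) ∣ Nat.card (MulAction.stabilizer X e) := by
    have hinj : Function.Injective ψ := fun x y hxy => Units.ext (by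
      simpa [ψ] using congrFun (congrFun (congrArg (fun g : GL (Fin 3) F => (g : Matrix (Fin 3) (Fin 3) F)) hxy) 1) 1)
    have hle : ψ.range ≤ (MulAction.stabilizer X e).map X.subtype := by
      rintro _ ⟨x, rfl⟩
      obtain ⟨g, hg, eg⟩ := H.inX_diag (a := (1 : F)) (b := (x : F)) (c := (x : F)⁻¹) (by simp)
      refine ⟨⟨g, hg⟩, ?_, Units.ext eg⟩
      show (g : Matrix (Fin 3) (Fin 3) F) *ᵥ e = e
      rw [he, Matrix.mulVec_single_one, eg]
      ext r; fin_cases r <;> simp
    have := Subgroup.card_dvd_of_le hle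
    rwa [← Nat.card_congr (MonoidHom.ofInjective hinj).toEquiv, Nat.card_units,
      Nat.card_eq_fintype_card (α := F), ← hqd,
      ← Nat.card_congr (Subgroup.equivMapOfInjective _ X.subtype X.subtype_injective).toEquiv] at this
  refine dvd_trans ?_ (Subgroup.card_dvd_of_le H.le)
  rw [← Nat.card_congr (MulAction.orbitProdStabilizerEquivGroup X e), Nat.card_prod, hO, mul_comm (q - 1)]
  exact Nat.mul_dvd_mul_left _ hS

/-- Everything commuting with the shift through the orbit lies in the subgroup. -/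
theorem Hyp.commute_mem [Fintype F] (hq : 5 ≤ Fintype.card F) {w : F} (hw : w ≠ 0)
    (h : InO X ![1, w, 1]) {C : Matrix (Fin 3) (Fin 3) F} (hC : C.det = 1)
    (hcomm : C * !![0, 1 / w, 0; 0, 0, w; 1, 0, 0] = !![0, 1 / w, 0; 0, 0, w; 1, 0, 0] * C) :
    InX X C := by
  obtain ⟨A, hA, hcol⟩ := h
  set P : Matrix (Fin 3) (Fin 3) F := !![0, 1 / w, 0; 0, 0, w; 1, 0, 0] with hP
  have hPX : InX X P := H.inX_mon (fun j => ⟨![2, 0, 1] j, fun l hl => by
    fin_cases j <;> fin_cases l <;> simp_all⟩) (by simp [hP, Matrix.det_fin_three, hw])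
  have hP3 : P * P * P = 1 := by
    ext i j; fin_cases i <;> fin_cases j <;> simp [hP, Matrix.mul_apply, Fin.sum_univ_three, hw]
  obtain ⟨g, hg, rfl⟩ := hA
  set G := (g : Matrix (Fin 3) (Fin 3) F) with hG
  set G' := ((g⁻¹ : GL (Fin 3) F) : Matrix (Fin 3) (Fin 3) F) with hG'
  have hGG : G' * G = 1 := Units.inv_mul g
  have hGG' : G * G' = 1 := Units.mul_inv g
  obtain ⟨x, y, hd⟩ := H.conj_stab hq (inX_of_mem hg) hPX (l := 1) (fun i => by
    fin_cases i <;> simp [hP, Matrix.mul_apply, Fin.sum_univ_three, ← hG, hcol, hw])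
  have cube : ∀ D, P * G = G * D → D * D * D = 1 := by
    intro D hD
    calc D * D * D = G' * (G * (D * D * D)) := by rw [← Matrix.mul_assoc, hGG, Matrix.one_mul]
      _ = G' * (P * (P * (P * G))) := by
        rw [hD]
        conv_rhs => rw [← Matrix.mul_assoc P G D, hD, Matrix.mul_assoc G D D, ← Matrix.mul_assoc P G (D * D), hD]
        simp only [Matrix.mul_assoc]
      _ = 1 := by rw [← Matrix.mul_assoc P P, ← Matrix.mul_assoc (P * P), hP3, Matrix.one_mul, hGG]
  rcases hd with ⟨hxy, e⟩ | ⟨hxy, e⟩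
  swap
  · exfalso
    have := congrFun (congrFun (cube _ e) 1) 1
    simp [Matrix.mul_apply, Fin.sum_univ_three] at this
  set D : Matrix (Fin 3) (Fin 3) F := !![1, 0, 0; 0, x, 0; 0, 0, y] with hD
  have c3 := cube D e
  have hx3 : x * x * x = 1 := by
    simpa [hD, Matrix.mul_apply, Fin.sum_univ_three] using congrFun (congrFun c3 1) 1
  rw [one_mul] at hxy
  have hx1 : x ≠ 1 := fun hx => by
    subst hx
    rw [one_mul] at hxy
    have hD1 : D = 1 := by
      subst hxy; ext i j; fin_cases i <;> fin_cases j <;> simp [hD]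
    rw [hD1, Matrix.mul_one] at e
    have hP1 : P = 1 := by
      calc P = P * (G * G') := by rw [hGG', Matrix.mul_one]
        _ = 1 := by rw [← Matrix.mul_assoc, e, hGG']
    have := congrFun (congrFun hP1 0) 0
    simp [hP] at this
  have hy1 : y ≠ 1 := fun hy => hx1 (by rw [← hxy, hy, mul_one])
  have hxy' : x ≠ y := fun hy => hx1 (by
    subst hy
    linear_combination hx3 - x * hxy)
  set M := G' * C * G with hM
  have hMD : M * D = D * M := by
    calc M * D = G' * C * (G * D) := by simp only [hM, Matrix.mul_assoc]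
      _ = G' * (C * P) * G := by rw [← e]; simp only [hG, Matrix.mul_assoc]
      _ = G' * (P * G) * (G' * C * G) := by
        rw [hcomm]; simp only [Matrix.mul_assoc]; rw [← Matrix.mul_assoc G G', hGG', Matrix.one_mul]
      _ = D * M := by rw [e, ← Matrix.mul_assoc G', hGG, Matrix.one_mul]
  have m := fun i j => congrFun (congrFun hMD i) j
  have m01 := m 0 1; have m02 := m 0 2; have m10 := m 1 0; have m12 := m 1 2
  have m20 := m 2 0; have m21 := m 2 1
  simp [hD, Matrix.mul_apply, Fin.sum_univ_three] at m01 m02 m10 m12 m20 m21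
  have kill : ∀ a c d : F, c ≠ d → a * c = d * a → a = 0 := fun a c d hcd hh =>
    (mul_eq_zero.1 (show a * (c - d) = 0 by linear_combination hh)).resolve_right (sub_ne_zero.2 hcd)
  have hMdiag : M = !![M 0 0, 0, 0; 0, M 1 1, 0; 0, 0, M 2 2] := by
    ext i j
    fin_cases i <;> fin_cases j <;> simp
    · exact kill _ x 1 hx1 (by linear_combination m01)
    · exact kill _ y 1 hy1 (by linear_combination m02)
    · exact kill _ 1 x (Ne.symm hx1) (by linear_combination m10)
    · exact kill _ y x (Ne.symm hxy') (by linear_combination m12)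
    · exact kill _ 1 y (Ne.symm hy1) (by linear_combination m20)
    · exact kill _ x y hxy' (by linear_combination m21)
  have hMX : InX X M := H.inX_mon (hMdiag ▸ mon_diag _ _ _) (by
    rw [hM, Matrix.det_mul, Matrix.det_mul, hC, mul_one, ← Matrix.det_mul, hGG, Matrix.det_one])
  have := ((inX_of_mem hg).mul hMX).mul (inX_of_mem (inv_mem hg))
  convert this using 1
  rw [hM, ← hG, ← hG']
  simp only [Matrix.mul_assoc]
  rw [hGG', Matrix.mul_one, ← Matrix.mul_assoc, hGG', Matrix.one_mul]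

/-- Every element is monomial. -/
theorem Hyp.all_mon [Fintype F] (hq : 5 ≤ Fintype.card F) {A : Matrix (Fin 3) (Fin 3) F}
    (h : InX X A) : Mon A := by
  classical
  by_contra hnm
  have hf := (H.col_cases hq h).resolve_left hnm
  set W : Set Fˣ := {w | InO X ![1, (w : F), 1]} with hW
  have ev3 : (fun i => A i 0) = ![A 0 0, A 1 0, A 2 0] := by ext i; fin_cases i <;> rfl
  have hne : (Units.mk0 (A 0 0 * A 1 0 / (A 2 0 * A 2 0)) (by simp [hf]) : Fˣ) ∈ W :=
    (H.full_iff (hf 0) (hf 1) (hf 2)).1 (ev3 ▸ ⟨A, h, fun _ => rfl⟩)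
  set C : Subgroup Fˣ := (powMonoidHom 3 : Fˣ →* Fˣ).range with hC
  have hstab : ∀ w ∈ W, ∀ c ∈ C, w * c ∈ W := by
    rintro w hw _ ⟨μ, rfl⟩
    show InO X ![1, ((w * μ ^ 3 : Fˣ) : F), 1]
    have h1 := hw.mulVec (H.inX_diag (a := (μ : F)⁻¹) (b := (μ : F) * μ) (c := (μ : F)⁻¹) (by
      field_simp))
    have h2 : InO X ![(μ : F)⁻¹, (w : F) * ((μ : F) * μ), (μ : F)⁻¹] := by
      convert h1 using 1
      ext i; fin_cases i <;> simp [Matrix.mulVec, dotProduct, Fin.sum_univ_three, mul_comm]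
    convert (H.full_iff (by simp) (by simp) (by simp)).1 h2 using 3
    push_cast; field_simp
  have hpre : W = QuotientGroup.mk ⁻¹' ((QuotientGroup.mk : Fˣ → Fˣ ⧸ C) '' W) := by
    refine Set.Subset.antisymm (Set.subset_preimage_image _ _) fun w hw => ?_
    obtain ⟨w', hw', e⟩ := hw
    simpa using hstab w' hw' _ (QuotientGroup.eq.1 e)
  set T := (QuotientGroup.mk : Fˣ → Fˣ ⧸ C) '' W with hT
  have hcardW : Nat.card W = Nat.card C * Nat.card T := by
    conv_lhs => rw [hpre]
    rw [Nat.card_congr (QuotientGroup.preimageMkEquivSubgroupProdSet C T), Nat.card_prod]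
  have hT1 : 1 ≤ Nat.card T := by
    haveI : Nonempty T := ⟨⟨_, Set.mem_image_of_mem _ hne⟩⟩
    exact Nat.card_pos
  have hTle : Nat.card T ≤ Nat.card (Fˣ ⧸ C) := Nat.card_le_card_of_injective _ Subtype.val_injective
  have hidx : Nat.card (Fˣ ⧸ C) * Nat.card C = Fintype.card F - 1 := by
    rw [← Subgroup.card_eq_card_quotient_mul_card_subgroup, Nat.card_units, Nat.card_eq_fintype_card]
  have hCcard := IsCyclic.card_powMonoidHom_range (G := Fˣ) 3
  rw [← hC, Nat.card_units, Nat.card_eq_fintype_card (α := F)] at hCcard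
  set q := Fintype.card F with hqd
  have hdvd := H.dvd_card hq
  rw [card_specialLinear_three, ← hqd, show Nat.card {w : Fˣ // InO X ![1, (w : F), 1]} = Nat.card W
    from rfl, hcardW] at hdvd
  have hpp : IsPrimePow q := FiniteField.isPrimePow_card F
  by_cases h3 : 3 ∣ q - 1
  swap
  · rw [(Nat.prime_three.coprime_iff_not_dvd.2 h3).symm.gcd_eq_one, Nat.div_one] at hCcard
    rw [hCcard] at hidx hdvd
    have hq1 : Nat.card (Fˣ ⧸ C) = 1 := by
      refine Nat.eq_of_mul_eq_mul_right (show 0 < q - 1 by omega) ?_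
      rw [hidx, one_mul]
    have : Nat.card T = 1 := by omega
    rw [this, mul_one] at hdvd
    obtain ⟨e, he⟩ : ∃ e, q = e + 1 := ⟨q - 1, by omega⟩
    rw [he, Nat.add_sub_cancel] at hdvd
    have e1 : (e + 1) ^ 3 - 1 = e * ((e + 1) ^ 2 + (e + 1) + 1) := Nat.sub_eq_of_eq_add (by ring)
    have e2 : (e + 1) ^ 2 - 1 = e * (e + 1 + 1) := Nat.sub_eq_of_eq_add (by ring)
    rw [e1, e2, show e * (3 * e + e ^ 2 * e) = (e * e) * (3 + e ^ 2) by ring,
      show (e + 1) ^ 3 * (e * ((e + 1) ^ 2 + (e + 1) + 1)) * (e * (e + 1 + 1)) =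
        (e * e) * ((e + 1) ^ 3 * (((e + 1) ^ 2 + (e + 1) + 1) * (e + 1 + 1))) by ring] at hdvd
    refine univ_arith (q := q) hq (by omega) (fun h6 => ?_) ?_
    · exact absurd (h6 ▸ hpp) (by decide)
    · rw [he, Nat.add_sub_cancel]
      exact Nat.dvd_of_mul_dvd_mul_left (Nat.mul_pos (by omega) (by omega)) hdvd
  obtain ⟨t, ht⟩ := h3
  have hgcd : (q - 1).gcd 3 = 3 := Nat.gcd_eq_right ⟨t, ht⟩
  rw [hgcd, ht, Nat.mul_div_cancel_left _ (by norm_num : 0 < 3)] at hCcard
  rw [hCcard, ht] at hidx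
  have hidx3 : Nat.card (Fˣ ⧸ C) = 3 := Nat.eq_of_mul_eq_mul_right (show 0 < t by omega) hidx
  rw [hCcard, ht] at hdvd
  obtain ⟨hj, hq16⟩ := orbit_arith (t := t) (j := Nat.card T) (q := q) (by omega) (by omega) hpp hT1
    (by omega) (by
      rw [ht]
      convert hdvd using 1
      ring)
  obtain ⟨hTs, -⟩ := Nat.card_eq_one_iff_unique.1 hj
  set w0 : Fˣ := Units.mk0 (A 0 0 * A 1 0 / (A 2 0 * A 2 0)) (by simp [hf]) with hw0
  -- circulants through the orbit
  have circ : ∀ c0 c1 c2 : F, c0 ^ 3 + c1 ^ 3 + c2 ^ 3 - 3 * c0 * c1 * c2 = 1 → c0 ≠ 0 → c1 ≠ 0 →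
      c2 ≠ 0 ∧ ∃ μ : Fˣ, c0 * c1 / (c2 * c2) = (μ : F) ^ 3 := by
    intro c0 c1 c2 hdet hc0 hc1
    have hX := H.commute_mem hq w0.ne_zero hne
      (C := !![c0, c2 / w0, c1; w0 * c1, c0, w0 * c2; c2, c1 / w0, c0]) (by
        simp [Matrix.det_fin_three]
        field_simp
        linear_combination hdet) (by
        ext i j; fin_cases i <;> fin_cases j <;> simp [Matrix.mul_apply, Fin.sum_univ_three] <;> field_simp)
    have hfull := (H.col_cases hq hX).resolve_left fun hm => by
      obtain ⟨i, hi⟩ := hm 0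
      by_cases e : i = 0
      · simpa [hc1] using hi 1 (by rw [e]; decide)
      · simpa [hc0] using hi 0 (Ne.symm e)
    have hc2 : c2 ≠ 0 := by simpa using hfull 2
    have hO : InO X ![c0, (w0 : F) * c1, c2] := ⟨_, hX, fun i => by fin_cases i <;> simp⟩
    have hw : Units.mk0 (c0 * ((w0 : F) * c1) / (c2 * c2)) (by simp [hc0, hc1, hc2]) ∈ W :=
      (H.full_iff hc0 (by simp [hc1]) hc2).1 hO
    have e := congrArg Subtype.val (Subsingleton.elim (⟨_, Set.mem_image_of_mem _ hne⟩ : T)
      ⟨_, Set.mem_image_of_mem _ hw⟩)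
    obtain ⟨μ, hμ⟩ := QuotientGroup.eq.1 e
    refine ⟨hc2, μ, ?_⟩
    have := congrArg Units.val hμ
    simp at this
    rw [this]
    field_simp
  rcases hq16 with h16 | h25
  · obtain ⟨h2, v, hv⟩ := exists_root_sixteen (F := F) h16
    have hv0 : v ≠ 0 := fun e => by simp [e] at hv
    have hd : v ^ 3 + v = v * v ^ 8 := by
      linear_combination (-v * (v ^ 4 + v + 1)) * hv - v ^ 2 * h2
    obtain ⟨-, μ, hμ⟩ := circ (1 / v ^ 3) (1 / v ^ 3) (v / v ^ 3) (by
      field_simp
      linear_combination hd + h2 * (1 - 2 * v)) (by simp [hv0]) (by simp [hv0])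
    field_simp at hμ
    have h15 : ∀ x : F, x ≠ 0 → x ^ 15 = 1 := fun x hx => by
      rw [← show q - 1 = 15 by omega]; exact FiniteField.pow_card_sub_one_eq_one x hx
    have h10 : v ^ 10 = 1 := by
      have := h15 _ μ.ne_zero
      calc v ^ 10 = v ^ 10 * (μ : F) ^ 15 := by rw [this, mul_one]
        _ = (v ^ 2 * (μ : F) ^ 3) ^ 5 := by ring
        _ = 1 := by rw [← hμ, one_pow]
    have h5 : v ^ 5 = 1 := by
      have := h15 v hv0
      calc v ^ 5 = v ^ 10 * v ^ 5 := by rw [h10, one_mul]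
        _ = v ^ 15 := by ring
        _ = 1 := this
    have h21 : v ^ 2 + v = 1 := by linear_combination h5 - v * hv
    exact one_ne_zero (α := F) (by linear_combination -hv + (v ^ 2 - v + 2) * h21 - (2 * v) * h2 + h2)
  · have h5 : (5 : F) = 0 := by
      have : ((25 : ℕ) : F) = 0 := h25 ▸ Nat.cast_card_eq_zero F
      exact (pow_eq_zero_iff two_ne_zero).1 (show (5 : F) ^ 2 = 0 by push_cast at this; linear_combination this)
    have h3 : (3 : F) ≠ 0 := three_ne_zero_five h5
    exact (circ (1 / 3) (1 / 3) 0 (by field_simp; linear_combination -5 * h5) (by simp [h3])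
      (by simp [h3])).1 rfl

omit H in
/-- The stabiliser of a frame is maximal in the special linear group of dimension three. -/
theorem monomial_maximal_aux [Fintype F] (hq : 5 ≤ Fintype.card F) (D : Fin 3 → Submodule F (Fin 3 → F))
    (hD : IsMDecomposition 1 D) :
    IsMaximalIn (specialLinear (Fin 3) F) (decompositionStabilizer D ⊓ specialLinear (Fin 3) F) := by
  classical
  refine ⟨lt_of_le_not_ge inf_le_right fun hle =>
    MaxSub.not_le_decompositionStabilizer hD (hle.trans inf_le_left), fun M hM hMK => ?_⟩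
  by_contra hc
  push Not at hc
  obtain ⟨hne, htop⟩ := hc
  obtain ⟨b₀, hb₀⟩ := ClassicalMax.exists_adapted_basis hD
  set b := b₀.reindex (Equiv.uniqueProd (Fin 3) (Fin 1)) with hb
  have hbi : ∀ i, D i = Submodule.span F {b i} := fun i => by
    rw [hb₀ i]
    congr 1
    ext v
    simp only [Set.mem_range, Set.mem_singleton_iff, hb, Module.Basis.reindex_apply]
    refine ⟨fun ⟨k, hk⟩ => ?_, fun hv => ⟨0, ?_⟩⟩
    · rw [← hk]; exact congrArg b₀ (Prod.ext (Subsingleton.elim _ _) rfl)
    · rw [hv]; exact congrArg b₀ (Prod.ext (Subsingleton.elim _ _) rfl)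
  set E := DecompMax.Lin.inBasis b
  have hstab : ∀ g : GL (Fin 3) F, IsMon (E g) → g ∈ decompositionStabilizer D := fun g hg =>
    DecompMax.mem_stabilizer_of_forall_mem hD fun i x hx => by
      obtain ⟨j, hj⟩ := hg i
      refine ⟨j, ?_⟩
      rw [hbi] at hx ⊢
      obtain ⟨c, rfl⟩ := Submodule.mem_span_singleton.1 hx
      rw [Matrix.mulVec_smul]
      refine Submodule.smul_mem _ _ (Submodule.mem_span_singleton.2
        ⟨(E g : Matrix (Fin 3) (Fin 3) F) j i, b.equivFun.injective ?_⟩)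
      rw [← DecompMax.Lin.inBasis_mulVec, map_smul]
      ext l
      simp only [Module.Basis.equivFun_self, Matrix.mulVec, dotProduct, Pi.smul_apply, smul_eq_mul]
      rw [Finset.sum_eq_single i (fun k _ hk => by simp [Ne.symm hk]) (by simp)]
      by_cases hl : l = j
      · subst hl; simp [E]
      · simp [Ne.symm hl, show (E g : Matrix (Fin 3) (Fin 3) F) l i = 0 from hj l hl, E]
  set X := M.map E.toMonoidHom
  have H : Hyp X :=
    { mon := fun π d hh => ⟨E.symm (monGL π d), hM ⟨hstab _ (by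
          rw [show E (E.symm (monGL π d)) = monGL π d from E.apply_symm_apply _]
          exact isMon_monGL π d), by
          show E.symm (monGL π d) ∈ specialLinear (Fin 3) F
          rw [← DecompMax.Lin.inBasis_mem_specialLinear b,
            show DecompMax.Lin.inBasis b (E.symm (monGL π d)) = monGL π d from E.apply_symm_apply _]
          exact hh⟩, E.apply_symm_apply _⟩
      le := by
        rintro _ ⟨g, hg, rfl⟩
        exact (DecompMax.Lin.inBasis_mem_specialLinear b g).2 (hMK hg)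
      not_ge := fun hle => htop (le_antisymm hMK fun g hg => by
        obtain ⟨g', hg', e⟩ := hle ((DecompMax.Lin.inBasis_mem_specialLinear b g).2 hg)
        rwa [← E.injective e]) }
  exact hne (le_antisymm (fun g hg => ⟨hstab g (H.all_mon hq (inX_of_mem ⟨g, hg, rfl⟩)), hMK hg⟩) hM)

end Cfsg.Agent.SLThree.Monom

namespace Cfsg.Agent.SLThree

/-- The stabiliser of a frame is maximal in the special linear group of dimension three. -/
theorem monomial_maximal {F : Type*} [Field F] [Fintype F] :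
    5 ≤ Fintype.card F → ∀ D : Fin 3 → Submodule F (Fin 3 → F), Cfsg.Geo.IsMDecomposition 1 D →
      Cfsg.Geo.IsMaximalIn (Cfsg.Geo.specialLinear (Fin 3) F)
        (Cfsg.Geo.decompositionStabilizer D ⊓ Cfsg.Geo.specialLinear (Fin 3) F) :=
  fun hq D hD => Monom.monomial_maximal_aux hq D hD

end Cfsg.Agent.SLThree
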