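import Cfsg.Agent.SLThree.OrthStd
import Cfsg.Agent.GeoClasses.OrthOddBase

/-!
Similarity groups of non-degenerate quadratic forms are maximal in `SL(3, F)`, `q` odd.
-/

set_option autoImplicit false
set_option linter.unusedSectionVars false
set_option linter.unusedSimpArgs false
set_option linter.style.haveILetI false

namespace Cfsg.Agent.SLThree.Orth

open Matrix Cfsg.Geo Cfsg.Agent.GeoClasses Cfsg.Agent.MaxSub.SubfieldMax
open scoped MatrixGroups Matrix

variable {F : Type*} [Field F]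

/-- The value of the form on a representative. -/
def val (P : Pt F) : F := Q₀ (rep P)

theorem val_inl (a b : F) : val (Sum.inl (a, b) : Pt F) = b * b - a := by simp [val, rep, Q₀]
theorem val_mid (a : F) : val (Sum.inr (Sum.inl a) : Pt F) = 1 := by simp [val, rep, Q₀]
theorem val_base (u : Unit) : val (Sum.inr (Sum.inr u) : Pt F) = 0 := by simp [val, rep, Q₀]

theorem Q₀_smul (c : F) (v : Fin 3 → F) : Q₀ (c • v) = c ^ 2 * Q₀ v := by simp [Q₀]; ring

theorem conic_orbit (P : Pt F) : P ∈ ptOrbit (H₀ F) e₀ ↔ val P = 0 := by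
  constructor
  · rintro ⟨g, ⟨⟨c, hc⟩, -⟩, e⟩
    obtain ⟨d, -, ed⟩ := (line_eq_iff (rep_ne_zero P)).1 e.symm
    rw [val, ed, Q₀_smul, hc]
    simp [Q₀, e₀]
  · intro h
    rcases P with ⟨a, b⟩ | a | ⟨⟩
    · rw [val_inl, sub_eq_zero] at h
      refine ⟨u b * mk3 wM wM_det, mul_mem (u_mem b) w_mem, ?_⟩
      rw [Units.val_mul, u_val, mk3_val]
      congr 1
      subst h
      ext i; fin_cases i <;> simp [rep, e₀, uM, wM, Matrix.mulVec, dotProduct, Fin.sum_univ_three,
        Matrix.mul_apply]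
    · exact absurd (val_mid a ▸ h) one_ne_zero
    · exact ⟨1, one_mem _, by simp [rep, e₀]⟩

/-- A step of `H₀`. -/
theorem step {X : Subgroup (GL (Fin 3) F)} (hX : H₀ F ≤ X) {P Q : Pt F} (hP : P ∈ ptOrbit X e₀)
    {g : GL (Fin 3) F} (hg : g ∈ H₀ F) {c : F} (hc : c ≠ 0)
    (h : (g : Matrix (Fin 3) (Fin 3) F) *ᵥ rep P = c • rep Q) : Q ∈ ptOrbit X e₀ :=
  mem_ptOrbit_smul hP (hX hg) ((line_eq_iff (mulVec_ne_zero g (rep_ne_zero P))).2 ⟨c, hc, h⟩)

theorem mem_shift {X : Subgroup (GL (Fin 3) F)} (hX : H₀ F ≤ X) (a b : F) :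
    (Sum.inl (a, b) : Pt F) ∈ ptOrbit X e₀ ↔ (Sum.inl (a - b * b, 0) : Pt F) ∈ ptOrbit X e₀ := by
  constructor
  · intro h
    refine step hX h (u_mem (-b)) one_ne_zero ?_
    rw [u_val]
    ext i; fin_cases i <;> simp [rep, uM, Matrix.mulVec, dotProduct, Fin.sum_univ_three]
    ring
  · intro h
    refine step hX h (u_mem b) one_ne_zero ?_
    rw [u_val]
    ext i; fin_cases i <;> simp [rep, uM, Matrix.mulVec, dotProduct, Fin.sum_univ_three]

theorem mem_scale {X : Subgroup (GL (Fin 3) F)} (hX : H₀ F ≤ X) {z t : F} (ht : t ≠ 0)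
    (h : (Sum.inl (z, 0) : Pt F) ∈ ptOrbit X e₀) : (Sum.inl (t * t * z, 0) : Pt F) ∈ ptOrbit X e₀ := by
  refine step hX h (hd_mem ht) (inv_ne_zero ht) ?_
  rw [mk3_val]
  ext i; fin_cases i <;> simp [rep, hdM, Matrix.mulVec, dotProduct, Fin.sum_univ_three]
  field_simp

theorem mem_mid (h2 : (2 : F) ≠ 0) {X : Subgroup (GL (Fin 3) F)} (hX : H₀ F ≤ X) (a : F) :
    (Sum.inr (Sum.inl a) : Pt F) ∈ ptOrbit X e₀ ↔
      (Sum.inl (-(1 / 4 : F), 0) : Pt F) ∈ ptOrbit X e₀ := by
  have h4 : (4 : F) ≠ 0 := by rw [show (4 : F) = 2 * 2 by norm_num]; exact mul_ne_zero h2 h2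
  set g₁ := mk3 (wM : Matrix (Fin 3) (Fin 3) F) wM_det * u ((2 - a) / 2) with hg₁
  have hg₁m : g₁ ∈ H₀ F := mul_mem w_mem (u_mem _)
  have e1 : (g₁ : Matrix (Fin 3) (Fin 3) F) *ᵥ rep (Sum.inr (Sum.inl a)) =
      (2 : F) • rep (Sum.inl (0, -(1 / 2 : F))) := by
    rw [hg₁, Units.val_mul, u_val, mk3_val]
    ext i; fin_cases i <;> simp [rep, wM, uM, Matrix.mulVec, dotProduct, Fin.sum_univ_three, Matrix.mul_apply, Matrix.vecHead, Matrix.vecTail] <;>
      field_simp <;> ring
  have hq : (0 : F) - -(1 / 2) * -(1 / 2) = -(1 / 4) := by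
    field_simp; norm_num
  constructor
  · intro h
    have := (mem_shift hX _ _).1 (step hX h hg₁m h2 e1)
    rwa [hq] at this
  · intro h
    have h' : (Sum.inl (0, -(1 / 2 : F)) : Pt F) ∈ ptOrbit X e₀ := by
      rw [mem_shift hX, hq]; exact h
    refine step hX h' (inv_mem hg₁m) (inv_ne_zero h2) ?_
    have := congrArg ((((g₁⁻¹ : GL (Fin 3) F) : Matrix (Fin 3) (Fin 3) F)) *ᵥ ·) e1
    simp only [Matrix.mulVec_mulVec, ← Units.val_mul, inv_mul_cancel, Units.val_one, Matrix.one_mulVec,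
      Matrix.mulVec_smul] at this
    rw [this, smul_smul, inv_mul_cancel₀ h2, one_smul]

/-- Classes of anisotropic points. -/
theorem mem_class (h2 : (2 : F) ≠ 0) {X : Subgroup (GL (Fin 3) F)} (hX : H₀ F ≤ X) {P Q : Pt F}
    (hP : P ∈ ptOrbit X e₀) {t : F} (ht : t ≠ 0) (h : val Q = t * t * val P) (hP0 : val P ≠ 0) :
    Q ∈ ptOrbit X e₀ := by
  have h4 : (4 : F) ≠ 0 := by rw [show (4 : F) = 2 * 2 by norm_num]; exact mul_ne_zero h2 h2
  -- reduce both to the normal form
  have red : ∀ R : Pt F, val R ≠ 0 → ∃ z s : F, s ≠ 0 ∧ z = -(s * s * val R) ∧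
      (R ∈ ptOrbit X e₀ ↔ (Sum.inl (z, 0) : Pt F) ∈ ptOrbit X e₀) := by
    intro R hR
    rcases R with ⟨a, b⟩ | a | ⟨⟩
    · exact ⟨a - b * b, 1, one_ne_zero, by rw [val_inl]; ring, mem_shift hX a b⟩
    · exact ⟨-(1 / 4), 1 / 2, by simp [h2], by rw [val_mid]; field_simp; norm_num,
        mem_mid h2 hX a⟩
    · exact absurd (val_base _) hR
  obtain ⟨z, s, hs, hz, hPz⟩ := red P hP0
  obtain ⟨z', s', hs', hz', hQz⟩ := red Q (by rw [h]; exact mul_ne_zero (mul_ne_zero ht ht) hP0)
  rw [hQz, hz', h]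
  have := mem_scale hX (t := s' * t / s) (div_ne_zero (mul_ne_zero hs' ht) hs) (hPz.1 hP)
  convert this using 4
  rw [hz]
  field_simp

variable [Fintype F] [DecidableEq F]

theorem card_val (S : F → Prop) [DecidablePred S] :
    Nat.card {P : Pt F // S (val P)} = Fintype.card F * (Finset.univ.filter S).card +
      (Fintype.card F * (if S 1 then 1 else 0) + if S 0 then 1 else 0) := by
  rw [Nat.card_eq_fintype_card, Fintype.card_subtype, Finset.card_filter, Fintype.sum_sum_type,
    Fintype.sum_sum_type, Fintype.sum_prod_type_right]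
  congr 1
  · have : ∀ b : F, (∑ a : F, if S (val (Sum.inl (a, b) : Pt F)) then 1 else 0) =
        (Finset.univ.filter S).card := by
      intro b
      rw [Finset.card_filter]
      refine Fintype.sum_equiv (Equiv.subLeft (b * b)) _ _ fun a => ?_
      rw [val_inl]; rfl
    simp [this]
  · congr 1
    · simp [val_mid]
    · simp only [val_base, Finset.univ_unique, Finset.sum_singleton]

theorem two_mul_squares (h2 : (2 : F) ≠ 0) :
    (Finset.univ.filter fun z : F => z ≠ 0 ∧ IsSquare z).card =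
      (Finset.univ.filter fun z : F => z ≠ 0 ∧ ¬ IsSquare z).card ∧
    2 * (Finset.univ.filter fun z : F => z ≠ 0 ∧ IsSquare z).card + 1 = Fintype.card F := by
  have hchar : ringChar F ≠ 2 := fun hc => h2 (by
    haveI : CharP F 2 := ringChar.of_eq hc
    exact CharTwo.two_eq_zero)
  obtain ⟨ν, hν⟩ := FiniteField.exists_nonsquare hchar
  have hν0 : ν ≠ 0 := fun h => hν (h ▸ IsSquare.zero)
  have heq : (Finset.univ.filter fun z : F => z ≠ 0 ∧ IsSquare z).card =
      (Finset.univ.filter fun z : F => z ≠ 0 ∧ ¬ IsSquare z).card := by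
    refine Finset.card_equiv (Equiv.mulLeft₀ ν hν0) fun z => ?_
    simp only [Finset.mem_filter, Finset.mem_univ, true_and]
    change (z ≠ 0 ∧ IsSquare z) ↔ (ν * z ≠ 0 ∧ ¬ IsSquare (ν * z))
    constructor
    · rintro ⟨h0, a, rfl⟩
      refine ⟨mul_ne_zero hν0 h0, fun ⟨b, hb⟩ => hν ⟨b / a, ?_⟩⟩
      have ha : a ≠ 0 := fun h => h0 (by rw [h, mul_zero])
      field_simp
      linear_combination hb
    · rintro ⟨h0, hns⟩
      refine ⟨fun h => h0 (by rw [h, mul_zero]), ?_⟩
      by_contra hz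
      refine hns ?_
      rw [FiniteField.isSquare_iff hchar h0, mul_pow,
        (FiniteField.pow_dichotomy hchar hν0).resolve_left
          (fun h => hν ((FiniteField.isSquare_iff hchar hν0).2 h)),
        (FiniteField.pow_dichotomy hchar (fun h => h0 (by rw [h, mul_zero]))).resolve_left
          (fun h => hz ((FiniteField.isSquare_iff hchar (fun h => h0 (by rw [h, mul_zero]))).2 h))]
      ring
  refine ⟨heq, ?_⟩
  have hsplit := Finset.card_filter_add_card_filter_not
    (s := Finset.univ.filter fun z : F => z ≠ 0) (fun z => IsSquare z)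
  rw [Finset.filter_filter, Finset.filter_filter, ← heq, Finset.filter_ne' Finset.univ 0,
    Finset.card_erase_of_mem (Finset.mem_univ 0), Finset.card_univ] at hsplit
  have := Fintype.one_lt_card (α := F)
  omega

omit [DecidableEq F] in
/-- The standard similarity group has no proper overgroup in `SL`. -/
theorem le_H₀ (h2 : (2 : F) ≠ 0) {X : Subgroup (GL (Fin 3) F)} (hX : H₀ F ≤ X)
    (hXS : X ≤ specialLinear (Fin 3) F) (hno : ¬ specialLinear (Fin 3) F ≤ X) : X ≤ H₀ F := by
  classical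
  have he : (e₀ : Fin 3 → F) ≠ 0 := fun h => by simpa [e₀] using congrFun h 0
  have hstab := stab_le h2 hX hXS hno
  by_cases horb : ptOrbit X e₀ ⊆ ptOrbit (H₀ F) e₀
  · exact le_of_stab_le hX hstab horb he
  exfalso
  obtain ⟨P₀, hP₀, hP₀'⟩ := Set.not_subset.1 horb
  rw [conic_orbit] at hP₀'
  -- divisibility
  have hA := card_eq_orbit X he
  have hB := card_eq_orbit (H₀ F) he
  have heq : (X ⊓ subspaceStabilizer (line (e₀ : Fin 3 → F))) =
      (H₀ F ⊓ subspaceStabilizer (line (e₀ : Fin 3 → F))) :=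
    le_antisymm (le_inf hstab inf_le_right) (inf_le_inf_right _ hX)
  rw [heq] at hA
  have hdvd : Nat.card (ptOrbit (H₀ F) e₀) ∣ Nat.card (ptOrbit X e₀) := by
    have h := Subgroup.card_dvd_of_le hX
    rw [hA, hB] at h
    exact Nat.dvd_of_mul_dvd_mul_right Nat.card_pos h
  have hset : ptOrbit (H₀ F) e₀ = {P | val P = 0} := Set.ext conic_orbit
  obtain ⟨hnn, hn⟩ := two_mul_squares h2
  set n := (Finset.univ.filter fun z : F => z ≠ 0 ∧ IsSquare z).card with hn'
  have hconic : Nat.card (ptOrbit (H₀ F) e₀) = Fintype.card F + 1 := by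
    rw [hset]
    show Nat.card {P : Pt F // val P = 0} = _
    rw [card_val (fun z => z = 0)]
    have h1 : (Finset.univ.filter fun z : F => z = 0).card = 1 :=
      Finset.card_eq_one.2 ⟨0, by ext z; simp⟩
    rw [h1, if_neg one_ne_zero, if_pos rfl]
    ring
  have hzero : ∀ P, val P = 0 → P ∈ ptOrbit X e₀ := fun P hP =>
    ptOrbit_mono hX _ ((conic_orbit P).2 hP)
  have hsame : ∀ P Q, P ∈ ptOrbit X e₀ → val P ≠ 0 → val Q ≠ 0 →
      (IsSquare (val P) ↔ IsSquare (val Q)) → Q ∈ ptOrbit X e₀ := by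
    intro P Q hP hP0 hQ0 hiff
    have : IsSquare (val Q / val P) := by
      by_cases hs : IsSquare (val P)
      · exact (hiff.1 hs).div hs
      · have hchar : ringChar F ≠ 2 := fun hc => h2 (by
          haveI : CharP F 2 := ringChar.of_eq hc
          exact CharTwo.two_eq_zero)
        have hm : ∀ x : F, x ≠ 0 → ¬ IsSquare x → x ^ (Fintype.card F / 2) = -1 := fun x hx hx' =>
          (FiniteField.pow_dichotomy hchar hx).resolve_left
            fun h => hx' ((FiniteField.isSquare_iff hchar hx).2 h)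
        rw [FiniteField.isSquare_iff hchar (div_ne_zero hQ0 hP0), div_pow,
          hm _ hP0 hs, hm _ hQ0 (fun h => hs (hiff.2 h))]
        simp
    obtain ⟨t, ht⟩ := this
    have ht0 : t ≠ 0 := fun h => div_ne_zero hQ0 hP0 (by rw [ht, h, mul_zero])
    exact mem_class h2 hX hP ht0 (by rw [← ht, div_mul_cancel₀ _ hP0]) hP0
  have h0s : IsSquare (0 : F) := IsSquare.zero
  have h1s : IsSquare (1 : F) := IsSquare.one
  have hsize : Nat.card (ptOrbit X e₀) = (Fintype.card F + 1) + Fintype.card F * (n + 1) ∨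
      Nat.card (ptOrbit X e₀) = (Fintype.card F + 1) + Fintype.card F * n ∨
      Nat.card (ptOrbit X e₀) = Fintype.card F ^ 2 + Fintype.card F + 1 := by
    by_cases hp : ∃ P ∈ ptOrbit X e₀, val P ≠ 0 ∧ IsSquare (val P) <;>
      by_cases hm : ∃ P ∈ ptOrbit X e₀, val P ≠ 0 ∧ ¬ IsSquare (val P)
    · refine Or.inr (Or.inr ?_)
      rw [← card_pt]
      refine Nat.card_congr (Equiv.subtypeUnivEquiv fun Q => ?_)
      by_cases hQ0 : val Q = 0
      · exact hzero Q hQ0
      obtain ⟨P, hP, hP0, hPs⟩ := hp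
      obtain ⟨P', hP', hP0', hPs'⟩ := hm
      by_cases hs : IsSquare (val Q)
      · exact hsame P Q hP hP0 hQ0 (iff_of_true hPs hs)
      · exact hsame P' Q hP' hP0' hQ0 (iff_of_false hPs' hs)
    · refine Or.inl ?_
      have : ptOrbit X e₀ = {Q | IsSquare (val Q)} := by
        ext Q
        constructor
        · intro hQ
          by_contra hs
          exact hm ⟨Q, hQ, fun h => hs (h ▸ h0s : IsSquare (val Q)), hs⟩
        · intro hs
          by_cases hQ0 : val Q = 0
          · exact hzero Q hQ0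
          obtain ⟨P, hP, hP0, hPs⟩ := hp
          exact hsame P Q hP hP0 hQ0 (iff_of_true hPs hs)
      rw [this]
      show Nat.card {P : Pt F // IsSquare (val P)} = _
      rw [card_val (fun z => IsSquare z), if_pos h1s, if_pos h0s]
      have : (Finset.univ.filter fun z : F => IsSquare z).card = n + 1 := by
        rw [hn', show (Finset.univ.filter fun z : F => IsSquare z) =
          insert 0 (Finset.univ.filter fun z : F => z ≠ 0 ∧ IsSquare z) from ?_,
          Finset.card_insert_of_notMem (by simp)]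
        ext z
        by_cases hz : z = 0 <;> simp [hz]
      rw [this]; ring
    · refine Or.inr (Or.inl ?_)
      have : ptOrbit X e₀ = {Q | val Q = 0 ∨ ¬ IsSquare (val Q)} := by
        ext Q
        constructor
        · intro hQ
          by_contra hs
          simp only [Set.mem_ofPred_eq, not_or, not_not] at hs
          exact hp ⟨Q, hQ, hs.1, hs.2⟩
        · rintro (hQ0 | hs)
          · exact hzero Q hQ0
          obtain ⟨P, hP, hP0, hPs⟩ := hm
          exact hsame P Q hP hP0 (fun h => hs (h ▸ h0s)) (iff_of_false hPs hs)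
      rw [this]
      show Nat.card {P : Pt F // val P = 0 ∨ ¬ IsSquare (val P)} = _
      rw [card_val (fun z => z = 0 ∨ ¬ IsSquare z), if_neg (by simp [h1s]), if_pos (Or.inl rfl)]
      have : (Finset.univ.filter fun z : F => z = 0 ∨ ¬ IsSquare z).card = n + 1 := by
        rw [hnn, show (Finset.univ.filter fun z : F => z = 0 ∨ ¬ IsSquare z) =
          insert 0 (Finset.univ.filter fun z : F => z ≠ 0 ∧ ¬ IsSquare z) from ?_,
          Finset.card_insert_of_notMem (by simp)]
        ext z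
        by_cases hz : z = 0 <;> simp [hz]
      rw [this]; ring
    · exfalso
      by_cases hs : IsSquare (val P₀)
      · exact hp ⟨P₀, hP₀, hP₀', hs⟩
      · exact hm ⟨P₀, hP₀, hP₀', hs⟩
  rw [hconic] at hdvd
  obtain ⟨k, hk⟩ := hdvd
  rw [← hn] at hsize hk
  have hn1 : 1 ≤ n := by
    have := Fintype.one_lt_card (α := F); omega
  rcases hsize with h | h | h <;> rw [h] at hk
  · have hk' : k * (2 * (n + 1)) = (n + 1) * (2 * n + 3) := by linear_combination -hk
    have : k * 2 = 2 * n + 3 := Nat.eq_of_mul_eq_mul_left (by omega : 0 < n + 1) (by linear_combination hk')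
    omega
  · have hk' : (n + 1) * (2 * k) = (n + 1) * (2 * n + 1) + 1 := by linear_combination -hk
    have h3 : n + 1 ∣ 1 := (Nat.dvd_add_right (dvd_mul_right _ _)).1 (hk' ▸ dvd_mul_right _ _)
    have := Nat.le_of_dvd one_pos h3
    omega
  · have : (4 * n ^ 2 + 6 * n + 3) = 2 * ((n + 1) * k) := by linear_combination hk
    omega

omit [DecidableEq F] in
/-- Clause (6): the similarity group of a non-degenerate quadratic form is maximal. -/
theorem orth_maximal (hodd : Odd (Fintype.card F)) (Q : (Fin 3 → F) → F)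
    (hQ : IsNondegenerateQuadraticForm Q) :
    IsMaximalIn (specialLinear (Fin 3) F) (quadSimilarityGroup Q ⊓ specialLinear (Fin 3) F) := by
  classical
  have h2 : (2 : F) ≠ 0 := two_ne_zero_iff_odd_card.2 hodd
  have hstd : IsMaximalIn (specialLinear (Fin 3) F)
      (quadSimilarityGroup (Q₀ : (Fin 3 → F) → F) ⊓ specialLinear (Fin 3) F) :=
    isMaximalIn_of (not_le F) fun X hX hXS hno => (le_H₀ h2 hX hXS hno).trans inf_le_left
  set f := QuadraticMap.polar Q with hf
  set G := gramMatrix f with hG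
  have hfG : f = formOf (RingEquiv.refl F) G := bilinearForm_eq_formOf hQ.polar_bilinear
  have hsym : Gᵀ = G := by
    ext a b
    simp only [hG, gramMatrix, Matrix.transpose_apply, hf, QuadraticMap.polar]
    have h : (Pi.single b 1 + Pi.single a 1 : Fin 3 → F) = Pi.single a 1 + Pi.single b 1 := add_comm _ _
    rw [h]
    ring
  have hGu : IsUnit G := isUnit_of_isNondegenerateForm (σ := RingEquiv.refl F) (by rw [← hfG]; exact hQ.nondegenerate)
  have hdet : G.det ≠ 0 := ((Matrix.isUnit_iff_isUnit_det G).1 hGu).ne_zero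
  set J₀ : Matrix (Fin 3) (Fin 3) F := !![0, 0, -1; 0, 2, 0; -1, 0, 0] with hJ₀
  have hJdet : J₀.det = -2 := by simp [hJ₀, Matrix.det_fin_three]
  set κ : F := G.det * -2 with hκ
  have hκ0 : κ ≠ 0 := mul_ne_zero hdet (neg_ne_zero.2 h2)
  have hκG : IsUnit (κ • G) := by
    rw [Matrix.isUnit_iff_isUnit_det, Matrix.det_smul]
    exact isUnit_iff_ne_zero.2 (mul_ne_zero (pow_ne_zero _ hκ0) hdet)
  obtain ⟨D, hD⟩ := exists_congr_of_det h2 (J := J₀) (J' := κ • G)
    (by rw [Matrix.isUnit_iff_isUnit_det, hJdet]; exact isUnit_iff_ne_zero.2 (neg_ne_zero.2 h2))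
    hκG (by ext i j; fin_cases i <;> fin_cases j <;> simp [hJ₀]) (by rw [Matrix.transpose_smul, hsym])
    ⟨κ * κ, by rw [hJdet, Matrix.det_smul, Fintype.card_fin, hκ]; ring⟩
  have hQQ : ∀ v, κ * Q ((D : Matrix (Fin 3) (Fin 3) F) *ᵥ v) = Q₀ v := by
    intro v
    have h1 := formOf_mulVec (RingEquiv.refl F) (κ • G) (D : Matrix (Fin 3) (Fin 3) F) v v
    rw [hD] at h1
    have h2v : formOf (RingEquiv.refl F) J₀ v v = 2 * Q₀ v := by
      simp [formOf, hJ₀, Q₀, Matrix.mulVec, dotProduct, Fin.sum_univ_three, Matrix.vecHead, Matrix.vecTail]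
      ring
    have h3 : ∀ x, formOf (RingEquiv.refl F) (κ • G) x x = κ * (2 * Q x) := by
      intro x
      rw [show formOf (RingEquiv.refl F) (κ • G) x x = κ * formOf (RingEquiv.refl F) G x x by
        simp [formOf, Matrix.smul_mulVec, dotProduct_smul], ← hfG, hf, QuadraticMap.polar]
      have := hQ.smul 2 x
      rw [show x + x = (2 : F) • x from (two_smul F x).symm, this]
      ring
    rw [h3, h2v] at h1
    apply mul_left_cancel₀ h2
    linear_combination h1
  have hconj : quadSimilarityGroup Q =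
      (quadSimilarityGroup (Q₀ : (Fin 3 → F) → F)).map (MulAut.conj D).toMonoidHom := by
    ext g
    constructor
    · rintro ⟨c, hc⟩
      refine ⟨D⁻¹ * g * D, ⟨c, fun v => ?_⟩, by simp [mul_assoc]⟩
      rw [← hQQ, ← hQQ, Units.val_mul, Units.val_mul, ← Matrix.mulVec_mulVec, ← Matrix.mulVec_mulVec,
        mulVec_inv_cancel, hc]
      ring
    · rintro ⟨k, ⟨c, hc⟩, rfl⟩
      refine ⟨c, fun v => ?_⟩
      set w := ((D⁻¹ : GL (Fin 3) F) : Matrix (Fin 3) (Fin 3) F) *ᵥ v with hw
      have hv : (D : Matrix (Fin 3) (Fin 3) F) *ᵥ w = v := mulVec_inv_cancel D v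
      apply mul_left_cancel₀ hκ0
      simp only [MulEquiv.coe_toMonoidHom, MulAut.conj_apply, Units.val_mul, ← Matrix.mulVec_mulVec]
      rw [← hw, hQQ, hc, ← hQQ, hv]
      ring
  rw [hconj]
  exact isMaximalIn_conj D hstd

end Cfsg.Agent.SLThree.Orth
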