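import Cfsg.Agent.SLThree.Stab

/-!
The similarity group of the form `v₁² - v₀ v₂`: no proper overgroup in `SL(3, F)`, `q` odd.
-/

set_option autoImplicit false
set_option linter.unusedSectionVars false
set_option linter.unusedSimpArgs false

namespace Cfsg.Agent.SLThree.Orth

open Matrix Cfsg.Geo Cfsg.Agent.GeoClasses Cfsg.Agent.MaxSub.SubfieldMax
open scoped MatrixGroups Matrix

variable {F : Type*} [Field F]

/-- The standard quadratic form. -/
def Q₀ (v : Fin 3 → F) : F := v 1 * v 1 - v 0 * v 2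

def uM (s : F) : Matrix (Fin 3) (Fin 3) F := !![1, 2 * s, s * s; 0, 1, s; 0, 0, 1]

theorem uM_det (s : F) : (uM s).det = 1 := by simp [uM, Matrix.det_fin_three]

/-- Unipotent isometries fixing the first base point. -/
noncomputable def u (s : F) : GL (Fin 3) F := mk3 (uM s) (uM_det s)

theorem u_val (s : F) : (u s : Matrix (Fin 3) (Fin 3) F) = uM s := rfl

theorem u_mul (s t : F) : u s * u t = u (s + t) := by
  apply Units.ext
  rw [Units.val_mul, u_val, u_val, u_val]
  ext i j
  fin_cases i <;> fin_cases j <;> simp [uM, Matrix.mul_apply, Fin.sum_univ_three, Matrix.vecHead, Matrix.vecTail] <;> ring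

theorem u_inv (s : F) : (u s)⁻¹ = u (-s) := by
  refine inv_eq_of_mul_eq_one_right ?_
  rw [u_mul, add_neg_cancel]
  exact Units.ext (by rw [u_val, Units.val_one]; ext i j; fin_cases i <;> fin_cases j <;> simp [uM])

def hdM (t : F) : Matrix (Fin 3) (Fin 3) F := !![t, 0, 0; 0, 1, 0; 0, 0, t⁻¹]

theorem hdM_det {t : F} (h : t ≠ 0) : (hdM t).det = 1 := by simp [hdM, Matrix.det_fin_three, h]

def wM : Matrix (Fin 3) (Fin 3) F := !![0, 0, 1; 0, -1, 0; 1, 0, 0]

theorem wM_det : (wM : Matrix (Fin 3) (Fin 3) F).det = 1 := by simp [wM, Matrix.det_fin_three]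

/-- The group: determinant one similitudes. -/
def H₀ (F : Type*) [Field F] : Subgroup (GL (Fin 3) F) :=
  quadSimilarityGroup (Q₀ : (Fin 3 → F) → F) ⊓ specialLinear (Fin 3) F

theorem mk3_mem_H₀ {A : Matrix (Fin 3) (Fin 3) F} (h : A.det = 1) (c : Fˣ)
    (hA : ∀ v, Q₀ (A *ᵥ v) = (c : F) * Q₀ v) : mk3 A h ∈ H₀ F :=
  ⟨⟨c, by simpa using hA⟩, mk3_mem A h⟩

theorem u_mem (s : F) : u s ∈ H₀ F :=
  mk3_mem_H₀ _ 1 fun v => by
    simp [Q₀, uM, Matrix.mulVec, dotProduct, Fin.sum_univ_three, Matrix.vecHead, Matrix.vecTail]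
    ring

theorem hd_mem {t : F} (h : t ≠ 0) : mk3 (hdM t) (hdM_det h) ∈ H₀ F :=
  mk3_mem_H₀ _ 1 fun v => by
    simp [Q₀, hdM, Matrix.mulVec, dotProduct, Fin.sum_univ_three, Matrix.vecHead, Matrix.vecTail]
    field_simp

theorem w_mem : mk3 (wM : Matrix (Fin 3) (Fin 3) F) wM_det ∈ H₀ F :=
  mk3_mem_H₀ _ 1 fun v => by
    simp [Q₀, wM, Matrix.mulVec, dotProduct, Fin.sum_univ_three, Matrix.vecHead, Matrix.vecTail]
    ring

/-- An overgroup is irreducible. -/
theorem irreducible (h2 : (2 : F) ≠ 0) {X : Subgroup (GL (Fin 3) F)} (hX : H₀ F ≤ X) :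
    ActsIrreducibly (matrixSet X) := by
  intro W hW
  have hinv : ∀ g ∈ H₀ F, ∀ v ∈ W, (g : Matrix (Fin 3) (Fin 3) F) *ᵥ v ∈ W := fun g hg v hv =>
    hW _ ⟨g, hX hg, rfl⟩ ⟨v, hv, Matrix.toLin'_apply _ _⟩
  by_cases hb : W = ⊥
  · exact Or.inl hb
  refine Or.inr (eq_top_iff.2 fun v _ => ?_)
  obtain ⟨x, hx, hx0⟩ := W.exists_mem_ne_zero_of_ne_bot hb
  have hu : ∀ s, ∀ y ∈ W, uM s *ᵥ y - y ∈ W := fun s y hy => sub_mem (hinv _ (u_mem s) y hy) hy
  have he0 : (![1, 0, 0] : Fin 3 → F) ∈ W := by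
    by_cases h2x : x 2 = 0
    · by_cases h1x : x 1 = 0
      · have h0x : x 0 ≠ 0 := fun h0 => hx0 (by ext i; fin_cases i <;> assumption)
        convert W.smul_mem (x 0)⁻¹ hx using 1
        ext i; fin_cases i <;> simp [h1x, h2x, h0x]
      · convert W.smul_mem (2 * x 1)⁻¹ (hu 1 x hx) using 1
        ext i; fin_cases i <;> simp [uM, Matrix.mulVec, dotProduct, Fin.sum_univ_three, Matrix.vecHead, Matrix.vecTail, h2x]
        field_simp
    · convert W.smul_mem (2 * x 2)⁻¹ (add_mem (hu 1 x hx) (hu (-1) x hx)) using 1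
      ext i; fin_cases i <;> simp [uM, Matrix.mulVec, dotProduct, Fin.sum_univ_three, Matrix.vecHead, Matrix.vecTail]
      field_simp
      ring
  have he2 : (![0, 0, 1] : Fin 3 → F) ∈ W := by
    convert hinv _ w_mem _ he0 using 1
    ext i; fin_cases i <;> simp [wM, Matrix.mulVec, dotProduct, Fin.sum_univ_three, Matrix.vecHead, Matrix.vecTail]
  have he1 : (![0, 1, 0] : Fin 3 → F) ∈ W := by
    convert sub_mem (hu 1 _ he2) he0 using 1
    ext i; fin_cases i <;> simp [uM, Matrix.mulVec, dotProduct, Fin.sum_univ_three, Matrix.vecHead, Matrix.vecTail]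
  convert add_mem (add_mem (W.smul_mem (v 0) he0) (W.smul_mem (v 1) he1)) (W.smul_mem (v 2) he2) using 1
  ext i; fin_cases i <;> simp

theorem not_le (F : Type*) [Field F] :
    ¬ specialLinear (Fin 3) F ≤ quadSimilarityGroup (Q₀ : (Fin 3 → F) → F) := by
  intro h
  have hd : (!![1, 0, 0; 1, 1, 0; 0, 0, 1] : Matrix (Fin 3) (Fin 3) F).det = 1 := by
    simp [Matrix.det_fin_three]
  obtain ⟨c, hc⟩ := h (mk3_mem _ hd)
  have := hc ![1, 0, 0]
  simp [Q₀, Matrix.mulVec, dotProduct, Fin.sum_univ_three, Matrix.vecHead, Matrix.vecTail] at this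

theorem noRoot (h2 : (2 : F) ≠ 0) {X : Subgroup (GL (Fin 3) F)} (hX : H₀ F ≤ X)
    (hno : ¬ specialLinear (Fin 3) F ≤ X) : NoRootAt X := by
  have hd : ∀ x y : F, (![0, x, y] : Fin 3 → F) ⬝ᵥ e₀ = 0 := fun x y => by
    simp [e₀, dotProduct, Fin.sum_univ_three, Matrix.vecHead, Matrix.vecTail]
  have hroot : ¬ RootIn X e₀ ![0, 0, 1] := fun hr => hno (sl_le_of_root (irreducible h2 hX)
    (fun h => by simpa [e₀] using congrFun h 0) (fun h => by simpa using congrFun h 2) (hd 0 1) hr)
  have hadd : ∀ {a b}, InM X e₀ a → InM X e₀ b → a ⬝ᵥ e₀ = 0 → InM X e₀ (a + b) :=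
    fun ha hb h0 => ha.add_right hb h0
  have hx : ∀ x y, InM X e₀ ![0, x, y] → x = 0 := by
    intro x y h
    by_contra hx
    refine hroot fun c => ?_
    have h' := h.conj (hX (u_mem (-c / x)))
    rw [u_inv, u_val, u_val] at h'
    have e1 : uM (-c / x) *ᵥ e₀ = e₀ := by
      ext i; fin_cases i <;> simp [uM, e₀, Matrix.mulVec, dotProduct, Fin.sum_univ_three, Matrix.vecHead, Matrix.vecTail]
    have e2 : (![0, x, y] : Fin 3 → F) ᵥ* uM (-(-c / x)) = ![0, x, c + y] := by
      ext i; fin_cases i <;> simp [uM, Matrix.vecMul, dotProduct, Fin.sum_univ_three, Matrix.vecHead, Matrix.vecTail]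
      field_simp
    rw [e1, e2] at h'
    convert hadd h' (InM.neg h (hd x y)) (hd _ _) using 1
    ext i; fin_cases i <;> simp
  intro x y h
  obtain rfl := hx x y h
  refine ⟨rfl, ?_⟩
  by_contra hy
  refine hroot fun c => ?_
  have hsq : ∀ t : F, InM X e₀ ![0, 0, t * t * y] := by
    intro t
    rcases eq_or_ne t 0 with rfl | ht
    · exact ⟨1, one_mem _, by ext i j; fin_cases i <;> fin_cases j <;> simp [vecMulVec_apply]⟩
    have hX' := hX (hd_mem ht)
    have h' := h.conj hX'
    have einv : (((mk3 (hdM t) (hdM_det ht))⁻¹ : GL (Fin 3) F) : Matrix (Fin 3) (Fin 3) F) = hdM t⁻¹ := by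
      refine Units.inv_eq_of_mul_eq_one_right ?_
      rw [mk3_val]
      ext i j
      fin_cases i <;> fin_cases j <;> simp [hdM, Matrix.mul_apply, Fin.sum_univ_three, Matrix.vecHead, Matrix.vecTail, ht]
    rw [einv, mk3_val] at h'
    refine h'.congr ?_
    ext i j
    fin_cases i <;> fin_cases j <;>
      simp [vecMulVec_apply, hdM, e₀, Matrix.mulVec, Matrix.vecMul, dotProduct, Fin.sum_univ_three, Matrix.vecHead, Matrix.vecTail]
    ring
  convert hadd (hsq ((c / y + 1) / 2)) (InM.neg (hsq ((c / y - 1) / 2)) (hd _ _)) (hd _ _) using 1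
  ext i; fin_cases i <;> simp
  field_simp
  ring

theorem stab_le (h2 : (2 : F) ≠ 0) {X : Subgroup (GL (Fin 3) F)} (hX : H₀ F ≤ X)
    (hXS : X ≤ specialLinear (Fin 3) F) (hno : ¬ specialLinear (Fin 3) F ≤ X) :
    X ⊓ subspaceStabilizer (line (e₀ : Fin 3 → F)) ≤ H₀ F := by
  have hK := noRoot h2 hX hno
  rintro g ⟨hgX, hg0⟩
  have fg := fix0_iff.1 hg0
  have fu : ∀ s : F, Fix0 (uM s) := fun s => by simp [Fix0, uM]
  have bu : ∀ s : F, blk (uM s) = !![1, s; 0, 1] := fun s => by simp [blk, uM]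
  set G : Matrix (Fin 3) (Fin 3) F := (g : Matrix (Fin 3) (Fin 3) F) with hG
  have hdet : G.det = 1 := mem_specialLinear_iff.1 (hXS hgX)
  rw [det_fix0 fg] at hdet
  by_cases hr : G 2 1 = 0
  · have hb : G 1 1 ≠ 0 := fun h => by
      simp [blk, Matrix.det_fin_two, hr, h] at hdet
    have hc : G 2 2 ≠ 0 := fun h => by
      simp [blk, Matrix.det_fin_two, hr, h] at hdet
    set s := -G 1 2 / G 1 1 with hs
    set g' := g * u s with hg'
    have hg'X : g' ∈ X := mul_mem hgX (hX (u_mem s))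
    suffices g' ∈ H₀ F by
      have h := mul_mem this (inv_mem (u_mem s))
      rwa [hg', mul_inv_cancel_right] at h
    set A : Matrix (Fin 3) (Fin 3) F := (g' : Matrix (Fin 3) (Fin 3) F) with hA
    have hAval : A = G * uM s := by rw [hA, hg', Units.val_mul, u_val, hG]
    have fA : Fix0 A := hAval ▸ fg.mul (fu s)
    have a11 : A 1 1 = G 1 1 := by
      simp [hAval, uM, Matrix.mul_apply, Fin.sum_univ_three, Matrix.vecHead, Matrix.vecTail, fg.1]
    have a12 : A 1 2 = 0 := by
      simp [hAval, uM, Matrix.mul_apply, Fin.sum_univ_three, Matrix.vecHead, Matrix.vecTail, fg.1, hs]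
      field_simp
      ring
    have a21 : A 2 1 = 0 := by
      simp [hAval, uM, Matrix.mul_apply, Fin.sum_univ_three, Matrix.vecHead, Matrix.vecTail, fg.2, hr]
    have a22 : A 2 2 = G 2 2 := by
      simp [hAval, uM, Matrix.mul_apply, Fin.sum_univ_three, Matrix.vecHead, Matrix.vecTail, fg.2, hr]
    set s' := A 1 1 / A 2 2 with hs'
    have hc' : A 2 2 ≠ 0 := a22 ▸ hc
    have hcomm : g' * u 1 = u s' * g' := by
      refine eq_of_blk hXS hK (mul_mem hg'X (hX (u_mem 1))) (mul_mem (hX (u_mem s')) hg'X) ?_ ?_ ?_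
      · rw [Units.val_mul, u_val]; exact fA.mul (fu 1)
      · rw [Units.val_mul, u_val]; exact (fu s').mul fA
      · rw [Units.val_mul g', Units.val_mul (u s') g', u_val, u_val, ← hA, blk_mul fA, blk_mul (fu s'), bu, bu]
        ext i j
        fin_cases i <;> fin_cases j <;>
          simp [blk, Matrix.mul_apply, a12, a21, ← hA, hs', hc']
    have hm := congrArg (fun k : GL (Fin 3) F => (k : Matrix (Fin 3) (Fin 3) F)) hcomm
    simp only [Units.val_mul, u_val, ← hA] at hm
    have m01 := congrFun (congrFun hm 0) 1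
    have m02 := congrFun (congrFun hm 0) 2
    simp [uM, Matrix.mul_apply, Fin.sum_univ_three, Matrix.vecHead, Matrix.vecTail, fA.1, fA.2, a12, a21] at m01 m02
    have hb' : A 1 1 ≠ 0 := a11 ▸ hb
    have hac : A 0 0 * A 2 2 = A 1 1 * A 1 1 := by
      rw [hs'] at m01
      field_simp at m01
      apply mul_left_cancel₀ h2
      linear_combination m01
    have hx : A 0 1 = 0 := by
      rw [hs'] at m02
      field_simp at m02
      apply mul_left_cancel₀ hc'
      linear_combination m02 - hac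
    have hdetA : A 0 0 * (A 1 1 * A 2 2) = 1 := by
      have := mem_specialLinear_iff.1 (hXS hg'X)
      rw [← hA, det_fix0 fA, Matrix.det_fin_two] at this
      simpa [blk, a12, a21] using this
    set D : Matrix (Fin 3) (Fin 3) F := !![A 0 0, 0, 0; 0, A 1 1, 0; 0, 0, A 2 2] with hD
    have hDdet : D.det = 1 := by
      rw [hD, Matrix.det_fin_three]; simp; linear_combination hdetA
    have hDmem : mk3 D hDdet ∈ H₀ F :=
      mk3_mem_H₀ _ (Units.mk0 (A 1 1 * A 1 1) (mul_ne_zero hb' hb')) fun v => by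
        simp [hD, Q₀, Matrix.mulVec, dotProduct, Fin.sum_univ_three, Matrix.vecHead, Matrix.vecTail]
        linear_combination (-(v 0 * v 2)) * hac
    have : g' = mk3 D hDdet := eq_of_blk hXS hK hg'X (hX hDmem) fA (by simp [Fix0, hD]) (by
      ext i j
      fin_cases i <;> fin_cases j <;> simp [blk, hD, ← hA, a12, a21])
    rw [this]; exact hDmem
  · exfalso
    set g₂ := u (-G 1 1 / G 2 1) * g * u (-G 2 2 / G 2 1) with hg₂
    have hg₂X : g₂ ∈ X := mul_mem (mul_mem (hX (u_mem _)) hgX) (hX (u_mem _))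
    set A : Matrix (Fin 3) (Fin 3) F := (g₂ : Matrix (Fin 3) (Fin 3) F) with hA
    have hAval : A = uM (-G 1 1 / G 2 1) * G * uM (-G 2 2 / G 2 1) := by
      rw [hA, hg₂, Units.val_mul, Units.val_mul, u_val, u_val, hG]
    have fA : Fix0 A := hAval ▸ ((fu _).mul fg).mul (fu _)
    have hbA : blk A = !![1, -G 1 1 / G 2 1; 0, 1] * blk G * !![1, -G 2 2 / G 2 1; 0, 1] := by
      rw [hAval, blk_mul ((fu _).mul fg), blk_mul (fu _), bu, bu]
    have a11 : blk A 0 0 = 0 := by
      rw [hbA]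
      simp [blk, Matrix.mul_apply, hr]
    have a22 : blk A 1 1 = 0 := by
      rw [hbA]
      simp [blk, Matrix.mul_apply, hr]
      rw [mul_div_cancel₀ _ hr]
      ring
    have hBdet : (blk A).det ≠ 0 := by
      have h := mem_specialLinear_iff.1 (hXS hg₂X)
      rw [← hA, det_fix0 fA] at h
      intro h0
      rw [h0, mul_zero] at h
      exact zero_ne_one h
    rw [Matrix.det_fin_two, a11, a22] at hBdet
    simp at hBdet
    set m := blk A 0 1
    set r := blk A 1 0
    have hB : blk A = !![0, m; r, 0] := by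
      ext i j; fin_cases i <;> fin_cases j
      · exact a11
      · rfl
      · rfl
      · exact a22
    set v := g₂ * u (-m / r) * g₂⁻¹ with hv
    have hvX : v ∈ X := mul_mem (mul_mem hg₂X (hX (u_mem _))) (inv_mem hg₂X)
    have fv : Fix0 (v : Matrix (Fin 3) (Fin 3) F) := by
      rw [hv, Units.val_mul, Units.val_mul, u_val, ← hA]
      exact (fA.mul (fu _)).mul fA.inv
    have bv : blk (v : Matrix (Fin 3) (Fin 3) F) = !![1, 0; -1, 1] := by
      have h1 : blk (v : Matrix (Fin 3) (Fin 3) F) * blk A = blk A * !![1, -m / r; 0, 1] := by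
        rw [← blk_mul fv, ← bu, ← blk_mul fA, hA, ← Units.val_mul, hv, inv_mul_cancel_right,
          Units.val_mul, u_val]
      have hinv : IsUnit (blk A).det := by
        rw [hB, Matrix.det_fin_two]; simp [hBdet.1, hBdet.2]
      have h2' : blk (v : Matrix (Fin 3) (Fin 3) F) * blk A = (!![1, 0; -1, 1] : Matrix _ _ F) * blk A := by
        rw [h1, hB]
        ext i j
        fin_cases i <;> fin_cases j <;> simp [Matrix.mul_apply]
        field_simp [hBdet.2]
      exact (Matrix.isUnit_iff_isUnit_det _).2 hinv |>.mul_left_injective h2'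
    set t := u 1 * v * u 1 with ht
    have htX : t ∈ X := mul_mem (mul_mem (hX (u_mem 1)) hvX) (hX (u_mem 1))
    have ft : Fix0 (t : Matrix (Fin 3) (Fin 3) F) := by
      rw [ht, Units.val_mul, Units.val_mul, u_val]; exact ((fu 1).mul fv).mul (fu 1)
    have bt : blk (t : Matrix (Fin 3) (Fin 3) F) = !![0, 1; -1, 0] := by
      rw [ht, Units.val_mul, Units.val_mul, u_val, blk_mul ((fu 1).mul fv), blk_mul (fu 1), bu, bv]
      ext i j; fin_cases i <;> fin_cases j <;> simp [Matrix.mul_apply]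
    set S := t * t with hS
    have hSX : S ∈ X := mul_mem htX htX
    have fS : Fix0 (S : Matrix (Fin 3) (Fin 3) F) := by rw [hS, Units.val_mul]; exact ft.mul ft
    have bS : blk (S : Matrix (Fin 3) (Fin 3) F) = -1 := by
      rw [hS, Units.val_mul, blk_mul ft, bt]
      ext i j; fin_cases i <;> fin_cases j <;> simp [Matrix.mul_apply]
    have hS00 : (S : Matrix (Fin 3) (Fin 3) F) 0 0 = 1 := by
      have h := mem_specialLinear_iff.1 (hXS hSX)
      rw [det_fix0 fS, bS] at h
      simpa [Matrix.det_neg] using h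
    have hcomm : S * u 1 = u 1 * S := by
      refine eq_of_blk hXS hK (mul_mem hSX (hX (u_mem 1))) (mul_mem (hX (u_mem 1)) hSX) ?_ ?_ ?_
      · rw [Units.val_mul, u_val]; exact fS.mul (fu 1)
      · rw [Units.val_mul, u_val]; exact (fu 1).mul fS
      · rw [Units.val_mul S, Units.val_mul (u 1) S, u_val, blk_mul fS, blk_mul (fu 1), bS]
        simp
    have hm := congrFun (congrFun (congrArg (fun k : GL (Fin 3) F => (k : Matrix (Fin 3) (Fin 3) F)) hcomm) 0) 1
    have b11 := congrFun (congrFun bS 0) 0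
    simp [blk] at b11
    simp [Units.val_mul, u_val, uM, Matrix.mul_apply, Fin.sum_univ_three, Matrix.vecHead, Matrix.vecTail, fS.2, hS00, b11] at hm
    have b21 := congrFun (congrFun bS 1) 0
    simp [blk] at b21
    simp [b21] at hm
    exact mul_ne_zero h2 h2 (by linear_combination hm)

end Cfsg.Agent.SLThree.Orth
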