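import Mathlib

/-!
Arithmetic for overgroups of a Singer normaliser in `SL(3, q)`: if the index `k` satisfies
`k ≡ 1 mod M` and `3k = a m` with `a ∣ q³` small and `m ∣ (q-1)²(q+1)`, then `k = 1`, or `a = 1`
and `m = (q-1)²(q+1)`, or `q ≤ 4`.
-/

set_option autoImplicit false
set_option maxHeartbeats 800000

namespace Cfsg.Agent.SLThree.SingerArith

/-- The core: the case of a large cofactor. -/
theorem no_large {q d J m i a : ℕ} (hq : 5 ≤ q) (hd : d = 1 ∨ d = 3 ∧ q % 3 = 1) (hJ : 1 ≤ J)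
    (hi : 1 ≤ i) (hlin : m * i + d * J + d * 2 = d * q)
    (ham : a * m = 3 + J * (q ^ 2 + q + 1)) (haq2 : 2 * a ≤ q ^ 2)
    (hdiv : (a ≤ q ∧ a ∣ q) ∨ q ∣ a) : False := by
  have hm : m + d * J + d * 2 ≤ d * q := by nlinarith
  rcases hdiv with ⟨haq, hdvd⟩ | hqa
  · have h3J : a ∣ J + 3 := by
      have h1 : a ∣ 3 + J * (q ^ 2 + q + 1) := ⟨m, ham.symm⟩
      have h2 : a ∣ J * (q ^ 2 + q) := (hdvd.trans (Dvd.intro (q + 1) (by ring))).mul_left J
      have : a ∣ J * (q ^ 2 + q) + (J + 3) := by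
        convert h1 using 1; ring
      exact (Nat.dvd_add_right h2).1 this
    have haJ : a ≤ J + 3 := Nat.le_of_dvd (by omega) h3J
    rcases hd with rfl | ⟨rfl, h31⟩
    · nlinarith
    · have hq7 : 7 ≤ q := by omega
      have hm3 : m + 9 ≤ 3 * q := by omega
      have h1 : a * (m + 9) ≤ (J + 3) * (3 * q) := Nat.mul_le_mul haJ hm3
      have h2 : a * m + 9 ≤ (J + 3) * (3 * q) := by
        have : 1 ≤ a := Nat.pos_of_ne_zero fun h => by subst h; simp at ham; omega
        nlinarith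
      nlinarith [Nat.mul_le_mul hJ (le_refl (q ^ 2))]
  · have h3J : q ∣ J + 3 := by
      have h1 : q ∣ 3 + J * (q ^ 2 + q + 1) := hqa.trans ⟨m, ham.symm⟩
      have h2 : q ∣ J * (q ^ 2 + q) := (Dvd.intro (q + 1) (by ring)).mul_left J
      have : q ∣ J * (q ^ 2 + q) + (J + 3) := by
        convert h1 using 1; ring
      exact (Nat.dvd_add_right h2).1 this
    have hJq : J + 2 ≤ q := by
      rcases hd with rfl | ⟨rfl, -⟩ <;> omega
    obtain ⟨c, hc⟩ := h3J
    have hc1 : c = 1 := by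
      rcases Nat.lt_or_ge c 2 with h | h
      · rcases Nat.eq_zero_or_pos c with rfl | h' <;> omega
      · have : q * 2 ≤ q * c := Nat.mul_le_mul_left _ h
        omega
    subst hc1
    have hm3 : m ≤ 3 := by
      rcases hd with rfl | ⟨rfl, -⟩ <;> omega
    have : a * m ≤ a * 3 := Nat.mul_le_mul_left _ hm3
    nlinarith

/-- The main arithmetical statement. -/
theorem eq_one_or_hall {q p n d M k a m : ℕ} (hp : p.Prime) (hn : 1 ≤ n) (hq : q = p ^ n)
    (hq4 : q ≠ 4) (hd : d = 1 ∧ q % 3 ≠ 1 ∨ d = 3 ∧ q % 3 = 1) (hdM : d * M = q ^ 2 + q + 1)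
    (hk : k % M = 1) (hkm : a * m = 3 * k) (ha : a ∣ q ^ 3) (ha2 : p * a ≤ q ^ 2)
    (hm : m ∣ (q - 1) ^ 2 * (q + 1)) :
    k = 1 ∨ 5 ≤ q ∧ a = 1 ∧ m = (q - 1) ^ 2 * (q + 1) := by
  have hq2 : 2 ≤ q := hq ▸ le_trans hp.two_le (Nat.le_self_pow (by omega) p)
  have haq2 : 2 * a ≤ q ^ 2 := le_trans (Nat.mul_le_mul_right a hp.two_le) ha2
  by_cases hk1 : k = 1
  · exact Or.inl hk1
  have hM2 : 2 ≤ M := by
    by_contra h
    interval_cases M <;> rcases hd with ⟨rfl, -⟩ | ⟨rfl, -⟩ <;> nlinarith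
  obtain ⟨j, hj⟩ : ∃ j, k = 1 + j * M := ⟨k / M, by
    have := Nat.mod_add_div k M
    rw [hk, mul_comm] at this
    exact this.symm⟩
  have hj1 : 1 ≤ j := by
    rcases Nat.eq_zero_or_pos j with rfl | h
    · simp at hj; exact absurd hj hk1
    · exact h
  by_cases hq5 : q < 5
  · -- `q = 2, 3`
    exfalso
    interval_cases q
    · rcases hd with ⟨rfl, -⟩ | ⟨rfl, h⟩
      · obtain rfl : M = 7 := by omega
        have h1 : a ≤ 2 := by omega
        have h2 : m ≤ 3 := Nat.le_of_dvd (by norm_num) hm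
        have := Nat.mul_le_mul h1 h2
        omega
      · omega
    · rcases hd with ⟨rfl, -⟩ | ⟨rfl, h⟩
      · obtain rfl : M = 13 := by omega
        have h1 : a ≤ 4 := by omega
        have h2 : m ≤ 16 := Nat.le_of_dvd (by norm_num) hm
        have h3 : a ∈ (27 : ℕ).divisors := Nat.mem_divisors.2 ⟨by simpa using ha, by norm_num⟩
        rw [show (27 : ℕ).divisors = {1, 3, 9, 27} by decide] at h3
        have h4 : m ∈ (16 : ℕ).divisors := Nat.mem_divisors.2 ⟨by simpa using hm, by norm_num⟩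
        rw [show (16 : ℕ).divisors = {1, 2, 4, 8, 16} by decide] at h4
        simp only [Finset.mem_insert, Finset.mem_singleton] at h3 h4
        rcases h3 with rfl | rfl | rfl | rfl <;> rcases h4 with rfl | rfl | rfl | rfl | rfl <;> omega
      · omega
    · exact hq4 rfl
  replace hq5 : 5 ≤ q := by omega
  obtain ⟨l, hl⟩ := hm
  set R := (q - 1) ^ 2 * (q + 1) with hR
  have hR0 : 0 < R := by
    have : 0 < q - 1 := by omega
    positivity
  -- coprimality to q
  have hRcop : Nat.Coprime R q := by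
    refine Nat.Coprime.mul_left (Nat.Coprime.pow_left 2 ?_) ?_
    · exact (Nat.coprime_self_sub_left (show 1 ≤ q by omega)).2 (Nat.coprime_one_left q)
    · simp
  have hla : Nat.Coprime l a := by
    refine Nat.Coprime.coprime_dvd_right ha ((Nat.Coprime.coprime_dvd_left ⟨m, ?_⟩ hRcop).pow_right 3)
    rw [hl, mul_comm]
  have hM3 : ¬ 3 ∣ M := by
    intro h3
    obtain ⟨M', rfl⟩ := h3
    rcases hd with ⟨rfl, h⟩ | ⟨rfl, h⟩
    · obtain ⟨t, rfl | rfl | rfl⟩ : ∃ t, q = 3 * t ∨ q = 3 * t + 1 ∨ q = 3 * t + 2 :=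
        ⟨q / 3, by omega⟩
      · ring_nf at hdM; omega
      · omega
      · ring_nf at hdM; omega
    · obtain ⟨t, rfl⟩ : ∃ t, q = 3 * t + 1 := ⟨q / 3, by omega⟩
      ring_nf at hdM
      omega
  -- the key congruence `l ≡ a mod M`
  have hRI : (R : ℤ) = ((q : ℤ) - 2) * ((d : ℤ) * M) + 3 := by
    have e : ((d : ℤ) * M) = (q : ℤ) ^ 2 + q + 1 := by exact_mod_cast hdM
    rw [e, hR, Nat.cast_mul, Nat.cast_pow, Nat.cast_sub (by omega)]
    push_cast
    ring
  have hamI : (a : ℤ) * m = 3 + 3 * j * M := by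
    have : a * m = 3 + 3 * j * M := by rw [hkm, hj]; ring
    exact_mod_cast this
  have hlI : (R : ℤ) = (m : ℤ) * l := by exact_mod_cast hl
  have hdvd : (M : ℤ) ∣ 3 * ((l : ℤ) - a) := by
    refine ⟨(a : ℤ) * (((q : ℤ) - 2) * d) - 3 * j * l, ?_⟩
    linear_combination (-(l : ℤ)) * hamI + (a : ℤ) * hRI - (a : ℤ) * hlI
  have hcop3 : IsCoprime (M : ℤ) 3 := by
    rw [Int.isCoprime_iff_gcd_eq_one]
    exact (Nat.coprime_comm.1 ((Nat.Prime.coprime_iff_not_dvd Nat.prime_three).2 hM3))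
  obtain ⟨i, hi⟩ := hcop3.dvd_of_dvd_mul_left hdvd
  have hm0 : 0 < m := by
    rcases Nat.eq_zero_or_pos m with rfl | h
    · simp at hl; omega
    · exact h
  have hl0 : 0 < l := by
    rcases Nat.eq_zero_or_pos l with rfl | h
    · simp at hl; omega
    · exact h
  have ha0 : 0 < a := Nat.pos_of_ne_zero fun h => by subst h; simp at hkm; omega
  rcases lt_trichotomy i 0 with hi0 | rfl | hi0
  · -- `l < a`: then `a = q²/2`
    exfalso
    have haM : M < a := by nlinarith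
    have hd3 : d = 3 := by
      rcases hd with ⟨rfl, -⟩ | ⟨h, -⟩
      · nlinarith
      · exact h
    subst hd3
    have hp2 : p = 2 := by
      by_contra h
      have : 3 ≤ p := by have := hp.two_le; omega
      nlinarith
    subst hp2
    obtain ⟨e, he, rfl⟩ : ∃ e, e ≤ 3 * n ∧ a = 2 ^ e := by
      rw [hq, ← pow_mul, Nat.dvd_prime_pow Nat.prime_two] at ha
      obtain ⟨e, he, rfl⟩ := ha
      exact ⟨e, by linarith [he], rfl⟩
    have hq2n : q ^ 2 = 2 ^ (2 * n) := by rw [hq, ← pow_mul, mul_comm]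
    have he1 : e + 1 ≤ 2 * n := by
      have : (2 : ℕ) ^ (e + 1) ≤ 2 ^ (2 * n) := by rw [← hq2n, pow_succ]; linarith
      exact (Nat.pow_le_pow_iff_right (by norm_num)).1 this
    have he2 : 2 * n < e + 2 := by
      have : (2 : ℕ) ^ (2 * n) < 2 ^ (e + 2) := by rw [← hq2n, pow_add]; nlinarith
      exact (Nat.pow_lt_pow_iff_right (by norm_num)).1 this
    have hae : 2 * 2 ^ e = q ^ 2 := by
      rw [hq2n, show 2 * n = e + 1 by omega]; ring
    have haI : 2 * ((2 ^ e : ℕ) : ℤ) = (q : ℤ) ^ 2 := by exact_mod_cast hae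
    have hMI : 3 * (M : ℤ) = (q : ℤ) ^ 2 + q + 1 := by exact_mod_cast hdM
    have hi1 : i = -1 := by
      by_contra h
      have : i ≤ -2 := by omega
      nlinarith
    subst hi1
    have h6 : 6 * (l : ℤ) + 3 = ((q : ℤ) - 1) ^ 2 := by
      linear_combination 6 * hi + 3 * haI - 2 * hMI
    have h6' : 6 * (l : ℤ) = ((q : ℤ) + 1) * ((q : ℤ) - 3) + 1 := by
      linear_combination h6
    have hR' : (l : ℤ) ∣ ((q : ℤ) - 1) ^ 2 * ((q : ℤ) + 1) := by
      refine ⟨(m : ℤ), ?_⟩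
      have : ((q : ℤ) - 1) ^ 2 * ((q : ℤ) + 1) = (R : ℤ) := by
        rw [hR, Nat.cast_mul, Nat.cast_pow, Nat.cast_sub (by omega)]
        push_cast
        ring
      rw [this, hlI, mul_comm]
    have hcl : IsCoprime (l : ℤ) ((q : ℤ) + 1) := ⟨6, -((q : ℤ) - 3), by linear_combination h6'⟩
    have h3 : (l : ℤ) ∣ 3 := by
      have h := hcl.dvd_of_dvd_mul_right hR'
      rw [← h6] at h
      exact (dvd_add_right (Dvd.intro_left 6 rfl)).1 h
    have hl3 : (l : ℤ) ≤ 3 := Int.le_of_dvd (by norm_num) h3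
    have hq8 : 8 ≤ q := by
      rw [hq]
      have : 3 ≤ n := by
        by_contra h
        rcases (show n = 1 ∨ n = 2 by omega) with rfl | rfl <;> norm_num at hq <;> omega
      exact le_trans (by norm_num) (Nat.pow_le_pow_right (by norm_num) this)
    nlinarith
  · -- `l = a`
    have hal : l = a := by
      simp at hi; omega
    subst hal
    obtain rfl : l = 1 := Nat.coprime_self _ |>.1 hla
    exact Or.inr ⟨hq5, rfl, by rw [hl, mul_one]⟩
  · exfalso
    have hdI : (3 * j : ℤ) + m * i = d * ((q : ℤ) - 2) := by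
      refine mul_right_cancel₀ (show (M : ℤ) ≠ 0 by omega) ?_
      linear_combination (-1 : ℤ) * hamI - (m : ℤ) * hi - hlI + hRI
    obtain ⟨i', rfl⟩ := Int.eq_ofNat_of_zero_le hi0.le
    have hdN : m * i' + 3 * j + d * 2 = d * q := by
      have : ((m * i' + 3 * j + d * 2 : ℕ) : ℤ) = ((d * q : ℕ) : ℤ) := by
        push_cast
        linear_combination hdI
      exact_mod_cast this
    have hdiv : (a ≤ q ∧ a ∣ q) ∨ q ∣ a := by
      rw [hq, ← pow_mul, Nat.dvd_prime_pow hp] at ha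
      obtain ⟨e, -, rfl⟩ := ha
      rcases le_total e n with h | h
      · exact Or.inl ⟨hq ▸ Nat.pow_le_pow_right hp.pos h, hq ▸ pow_dvd_pow p h⟩
      · exact Or.inr (hq ▸ pow_dvd_pow p h)
    rcases hd with ⟨rfl, -⟩ | ⟨rfl, h31⟩
    · refine no_large (m := m) (J := 3 * j) hq5 (Or.inl rfl) (by omega) (show 1 ≤ i' by omega) (by omega) ?_ haq2 hdiv
      rw [hkm, hj, ← hdM]; ring
    · refine no_large (m := m) (J := j) hq5 (Or.inr ⟨rfl, h31⟩) hj1 (show 1 ≤ i' by omega) (by omega) ?_ haq2 hdiv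
      rw [hkm, hj, ← hdM]; ring

end Cfsg.Agent.SLThree.SingerArith
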