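import Cfsg.Agent.SLThree.Basic
import Cfsg.Agent.SLThree.HallP
import Cfsg.Agent.SLThree.SingerArith
import Cfsg.Agent.MaxSub.FieldSub
import Cfsg.Agent.Elusive.SingerPrime

/-!
The normaliser of a cubic extension field is maximal in `SL(3, q)` for `q ≠ 4`.
-/

set_option autoImplicit false
set_option linter.unusedSectionVars false
set_option linter.style.haveILetI false

namespace Cfsg.Agent.SLThree.SingerNorm

open Matrix Cfsg.Geo
open Cfsg.Agent.Elusive.SingerPrime (orbit orbit_bijective mem_of_commute)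
open scoped MatrixGroups Matrix

variable {F : Type*} [Field F] [Fintype F] {K : Subalgebra F (Matrix (Fin 3) (Fin 3) F)}

local notation "q" => Fintype.card F

/-- Conjugation as an algebra map. -/
def cjA (g : GL (Fin 3) F) : Matrix (Fin 3) (Fin 3) F →ₐ[F] Matrix (Fin 3) (Fin 3) F where
  toFun m := (g : Matrix (Fin 3) (Fin 3) F) * m * ((g⁻¹ : GL (Fin 3) F) : Matrix (Fin 3) (Fin 3) F)
  map_one' := by simp
  map_mul' a b := by simp [mul_assoc, ← Units.val_mul]
  map_zero' := by simp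
  map_add' a b := by simp [mul_add, add_mul]
  commutes' r := by
    rw [← Algebra.commutes, mul_assoc, Units.mul_inv, mul_one]

theorem cjA_apply (g : GL (Fin 3) F) (m : Matrix (Fin 3) (Fin 3) F) :
    cjA g m = (g : Matrix (Fin 3) (Fin 3) F) * m * ((g⁻¹ : GL (Fin 3) F) : Matrix (Fin 3) (Fin 3) F) := rfl

theorem cjA_mul (g h : GL (Fin 3) F) (m : Matrix (Fin 3) (Fin 3) F) : cjA (g * h) m = cjA g (cjA h m) := by
  simp [cjA_apply, _root_.mul_inv_rev, mul_assoc]

/-- A non-scalar element generates the field. -/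
theorem le_of_nonscalar (hK : IsFieldSubalgebra 3 K) {c : Matrix (Fin 3) (Fin 3) F} (hc : c ∈ K)
    (hns : ∀ a : F, c ≠ a • 1) {A : Subalgebra F (Matrix (Fin 3) (Fin 3) F)} (hcA : c ∈ A) : K ≤ A := by
  letI : Field K := (MaxSub.isField_of_isFieldSubalgebra hK).toField
  haveI := Subalgebra.isSimpleOrder_of_finrank_prime F K (by rw [hK.finrank_eq]; norm_num)
  rcases eq_bot_or_eq_top (A.comap K.val) with h | h
  · exfalso
    have : (⟨c, hc⟩ : K) ∈ (⊥ : Subalgebra F K) := h ▸ (show (⟨c, hc⟩ : K) ∈ A.comap K.val from hcA)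
    obtain ⟨a, ha⟩ := Algebra.mem_bot.1 this
    refine hns a ?_
    rw [← Algebra.algebraMap_eq_smul_one]
    exact (congrArg Subtype.val ha).symm
  · intro x hx
    exact (show (⟨x, hx⟩ : K) ∈ A.comap K.val from h ▸ Algebra.mem_top)

/-- The units of `K` inside `GL`. -/
def unitsHom (K : Subalgebra F (Matrix (Fin 3) (Fin 3) F)) : Kˣ →* GL (Fin 3) F :=
  Units.map (K.val : K →* Matrix (Fin 3) (Fin 3) F)

theorem unitsHom_injective : Function.Injective (unitsHom K) :=
  Units.map_injective Subtype.val_injective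

/-- The Singer cycle of `SL`. -/
def singerSub (K : Subalgebra F (Matrix (Fin 3) (Fin 3) F)) : Subgroup Kˣ :=
  (specialLinear (Fin 3) F).comap (unitsHom K)

theorem unitsHom_mem_normalizer (hK : IsFieldSubalgebra 3 K) (u : Kˣ) :
    unitsHom K u ∈ subalgebraNormalizer K := by
  rw [MaxSub.mem_normalizer_iff_map_le]
  intro k hk
  have e : ((unitsHom K u : GL (Fin 3) F) : Matrix (Fin 3) (Fin 3) F) ∈ K := (u : K).2
  rw [hK.comm _ e k hk, mul_assoc, Units.mul_inv, mul_one]
  exact hk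

/-- Elements centralising `K` are units of `K`. -/
theorem exists_unit_of_commute (hK : IsFieldSubalgebra 3 K) {g : GL (Fin 3) F}
    (h : ∀ k ∈ K, cjA g k = k) : ∃ u : Kˣ, unitsHom K u = g := by
  haveI : Fact (Nat.Prime 3) := ⟨Nat.prime_three⟩
  have h1 : ∀ k ∈ K, (g : Matrix (Fin 3) (Fin 3) F) * k = k * g := fun k hk => by
    conv_rhs => rw [← h k hk, cjA_apply, mul_assoc, Units.inv_mul, mul_one]
  have h2 : ∀ k ∈ K, ((g⁻¹ : GL (Fin 3) F) : Matrix (Fin 3) (Fin 3) F) * k = k * (g⁻¹ : GL (Fin 3) F) :=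
    fun k hk => by
      have := congrArg (fun m => ((g⁻¹ : GL (Fin 3) F) : Matrix (Fin 3) (Fin 3) F) * m *
        ((g⁻¹ : GL (Fin 3) F) : Matrix (Fin 3) (Fin 3) F)) (h1 k hk)
      simp [← mul_assoc] at this
      simpa [mul_assoc] using this.symm
  exact ⟨⟨⟨g, mem_of_commute hK h1⟩, ⟨_, mem_of_commute hK h2⟩, Subtype.ext (Units.mul_inv g),
    Subtype.ext (Units.inv_mul g)⟩, Units.ext rfl⟩

/-- The action of the normaliser on `K`. -/
noncomputable def galHom (K : Subalgebra F (Matrix (Fin 3) (Fin 3) F)) :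
    subalgebraNormalizer K →* (K ≃ₐ[F] K) where
  toFun g := AlgEquiv.ofAlgHom
    (((cjA (g : GL (Fin 3) F)).comp K.val).codRestrict K fun k => (g.2 k).1 k.2)
    (((cjA (g⁻¹ : GL (Fin 3) F)).comp K.val).codRestrict K fun k => ((inv_mem g.2) k).1 k.2)
    (AlgHom.ext fun k => Subtype.ext (by
      show cjA (g : GL (Fin 3) F) (cjA (g⁻¹ : GL (Fin 3) F) k) = k
      rw [← cjA_mul, mul_inv_cancel, cjA_apply]; simp))
    (AlgHom.ext fun k => Subtype.ext (by
      show cjA (g⁻¹ : GL (Fin 3) F) (cjA (g : GL (Fin 3) F) k) = k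
      rw [← cjA_mul, inv_mul_cancel, cjA_apply]; simp))
  map_one' := AlgEquiv.ext fun k => Subtype.ext (by
    show cjA (1 : GL (Fin 3) F) (k : Matrix (Fin 3) (Fin 3) F) = k
    simp [cjA_apply])
  map_mul' g h := AlgEquiv.ext fun k => Subtype.ext (cjA_mul _ _ _)

theorem galHom_apply (g : subalgebraNormalizer K) (k : K) :
    ((galHom K g k : K) : Matrix (Fin 3) (Fin 3) F) = cjA (g : GL (Fin 3) F) k := rfl

/-- The first basis vector. -/
def v₀ (F : Type*) [Field F] : Fin 3 → F := Pi.single 0 1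

theorem v₀_ne : (v₀ F : Fin 3 → F) ≠ 0 := fun h => by simpa [v₀] using congrFun h 0

/-- `K ≅ F³`. -/
noncomputable def orbitEquiv (hK : IsFieldSubalgebra 3 K) : K ≃ₗ[F] (Fin 3 → F) :=
  haveI : Fact (Nat.Prime 3) := ⟨Nat.prime_three⟩
  LinearEquiv.ofBijective (orbit K (v₀ F)) (orbit_bijective hK v₀_ne)

theorem orbitEquiv_mul (hK : IsFieldSubalgebra 3 K) (a b : K) :
    orbitEquiv hK (a * b) = (a : Matrix (Fin 3) (Fin 3) F) *ᵥ orbitEquiv hK b := by
  show ((a * b : K) : Matrix (Fin 3) (Fin 3) F) *ᵥ v₀ F = _ *ᵥ ((b : Matrix (Fin 3) (Fin 3) F) *ᵥ v₀ F)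
  rw [Subalgebra.coe_mul, Matrix.mulVec_mulVec]

theorem det_eq_norm (hK : IsFieldSubalgebra 3 K) (k : K) :
    letI : Field K := (MaxSub.isField_of_isFieldSubalgebra hK).toField
    (k : Matrix (Fin 3) (Fin 3) F).det = Algebra.norm F k := by
  letI : Field K := (MaxSub.isField_of_isFieldSubalgebra hK).toField
  set e := orbitEquiv hK
  have h : Matrix.toLin' (k : Matrix (Fin 3) (Fin 3) F) =
      (e : K →ₗ[F] (Fin 3 → F)) ∘ₗ Algebra.lmul F K k ∘ₗ (e.symm : (Fin 3 → F) →ₗ[F] K) := by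
    refine LinearMap.ext fun v => ?_
    show (k : Matrix (Fin 3) (Fin 3) F) *ᵥ v = e (k * e.symm v)
    rw [orbitEquiv_mul]
    simp [e]
  rw [Algebra.norm_apply, ← LinearMap.det_toLin', h, LinearMap.det_conj]

theorem det_unitsHom_surjective (hK : IsFieldSubalgebra 3 K) (a : Fˣ) :
    ∃ u : Kˣ, ((unitsHom K u : GL (Fin 3) F) : Matrix (Fin 3) (Fin 3) F).det = a := by
  letI : Field K := (MaxSub.isField_of_isFieldSubalgebra hK).toField
  haveI : Finite K := Finite.of_injective (fun x : K => (x : Matrix (Fin 3) (Fin 3) F)) Subtype.val_injective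
  obtain ⟨x, hx⟩ := FiniteField.norm_surjective F K (a : F)
  have hx0 : x ≠ 0 := fun h => a.ne_zero (by rw [← hx, h, Algebra.norm_zero])
  refine ⟨Units.mk0 x hx0, ?_⟩
  show (x : Matrix (Fin 3) (Fin 3) F).det = a
  rw [det_eq_norm hK, hx]

theorem card_singerSub (hK : IsFieldSubalgebra 3 K) : Nat.card (singerSub K) = q ^ 2 + q + 1 := by
  letI : Field K := (MaxSub.isField_of_isFieldSubalgebra hK).toField
  haveI : Finite K := Finite.of_injective (fun x : K => (x : Matrix (Fin 3) (Fin 3) F)) Subtype.val_injective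
  let f : Kˣ →* Fˣ := Matrix.GeneralLinearGroup.det.comp (unitsHom K)
  have hf : Function.Surjective f := fun a => by
    obtain ⟨u, hu⟩ := det_unitsHom_surjective hK a
    exact ⟨u, Units.ext (by simpa [f] using hu)⟩
  have hker : f.ker = singerSub K := rfl
  have h1 := Subgroup.card_eq_card_quotient_mul_card_subgroup f.ker
  rw [Nat.card_congr (QuotientGroup.quotientKerEquivOfSurjective f hf).toEquiv, hker, Linear.card_units_eq (F := F),
    Nat.card_units, Module.natCard_eq_pow_finrank (K := F) (V := K), hK.finrank_eq, Nat.card_eq_fintype_card] at h1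
  apply Nat.eq_of_mul_eq_mul_left (Linear.sub_one_pos (F := F))
  rw [← h1]
  obtain ⟨m, hm⟩ : ∃ m, q = m + 1 := ⟨q - 1, by have := Fintype.card_pos (α := F); omega⟩
  rw [hm, Nat.add_sub_cancel]
  apply Nat.sub_eq_of_eq_add
  ring

/-- Every field automorphism is induced by an element of the normaliser in `SL`. -/
theorem galHom_surjective (hK : IsFieldSubalgebra 3 K) (σ : K ≃ₐ[F] K) :
    ∃ g : subalgebraNormalizer K, (g : GL (Fin 3) F) ∈ specialLinear (Fin 3) F ∧ galHom K g = σ := by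
  classical
  set e := orbitEquiv hK
  let L : (Fin 3 → F) ≃ₗ[F] (Fin 3 → F) := e.symm.trans (σ.toLinearEquiv.trans e)
  let g₀ : GL (Fin 3) F := ⟨LinearMap.toMatrix' (L : (Fin 3 → F) →ₗ[F] (Fin 3 → F)),
    LinearMap.toMatrix' (L.symm : (Fin 3 → F) →ₗ[F] (Fin 3 → F)),
    by rw [← LinearMap.toMatrix'_comp, LinearEquiv.comp_coe, LinearEquiv.symm_trans_self]; simp,
    by rw [← LinearMap.toMatrix'_comp, LinearEquiv.comp_coe, LinearEquiv.self_trans_symm]; simp⟩
  have hg₀ : ∀ k : K, cjA g₀ k = (σ k : Matrix (Fin 3) (Fin 3) F) := by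
    intro k
    have : (g₀ : Matrix (Fin 3) (Fin 3) F) * k = (σ k : Matrix (Fin 3) (Fin 3) F) * g₀ := by
      apply Matrix.toLin'.injective
      refine LinearMap.ext fun v => ?_
      obtain ⟨x, rfl⟩ := e.surjective v
      simp only [Matrix.toLin'_apply, ← Matrix.mulVec_mulVec]
      rw [← orbitEquiv_mul]
      simp only [g₀, LinearMap.toMatrix'_mulVec, LinearEquiv.coe_coe, L, LinearEquiv.trans_apply,
        LinearEquiv.symm_apply_apply, AlgEquiv.toLinearEquiv_apply]
      rw [← orbitEquiv_mul]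
      simp only [e, LinearEquiv.symm_apply_apply]
      exact congrArg _ (map_mul σ k x)
    rw [cjA_apply, this, mul_assoc, Units.mul_inv, mul_one]
  obtain ⟨u, hu⟩ := det_unitsHom_surjective hK (Matrix.GeneralLinearGroup.det g₀)⁻¹
  have hcj : ∀ k : K, cjA (unitsHom K u * g₀) k = (σ k : Matrix (Fin 3) (Fin 3) F) := by
    intro k
    have e : ((unitsHom K u : GL (Fin 3) F) : Matrix (Fin 3) (Fin 3) F) ∈ K := (u : K).2
    rw [cjA_mul, hg₀, cjA_apply, hK.comm _ e _ (σ k).2, mul_assoc, Units.mul_inv, mul_one]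
  have hmem : unitsHom K u * g₀ ∈ subalgebraNormalizer K := by
    rw [MaxSub.mem_normalizer_iff_map_le]
    intro k hk
    rw [← cjA_apply, show k = ((⟨k, hk⟩ : K) : Matrix (Fin 3) (Fin 3) F) from rfl, hcj]
    exact (σ _).2
  refine ⟨⟨_, hmem⟩, ?_, AlgEquiv.ext fun k => Subtype.ext (hcj k)⟩
  rw [HallP.mem_sl, Units.val_mul, Matrix.det_mul, hu]
  have hne : (g₀ : Matrix (Fin 3) (Fin 3) F).det ≠ 0 := Matrix.GeneralLinearGroup.det_ne_zero g₀
  simp [hne]

theorem card_normalizer_sl (hK : IsFieldSubalgebra 3 K) :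
    Nat.card (subalgebraNormalizer K ⊓ specialLinear (Fin 3) F : Subgroup (GL (Fin 3) F)) = 3 * (q ^ 2 + q + 1) ∧
    ∀ g ∈ subalgebraNormalizer K, ∃ u : Kˣ, unitsHom K u = g ^ 3 := by
  letI : Field K := (MaxSub.isField_of_isFieldSubalgebra hK).toField
  haveI : Finite K := Finite.of_injective (fun x : K => (x : Matrix (Fin 3) (Fin 3) F)) Subtype.val_injective
  haveI : FiniteDimensional F K := Module.Finite.of_finite
  have h3 : Nat.card (K ≃ₐ[F] K) = 3 := by
    rw [IsGalois.card_aut_eq_finrank, hK.finrank_eq]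
  constructor
  · set N := subalgebraNormalizer K ⊓ specialLinear (Fin 3) F
    let f : N →* (K ≃ₐ[F] K) := (galHom K).comp (Subgroup.inclusion inf_le_left)
    have hf : Function.Surjective f := fun σ => by
      obtain ⟨g, hg, e⟩ := galHom_surjective hK σ
      exact ⟨⟨g, g.2, hg⟩, e⟩
    have h1 := Subgroup.card_eq_card_quotient_mul_card_subgroup f.ker
    rw [Nat.card_congr (QuotientGroup.quotientKerEquivOfSurjective f hf).toEquiv, h3] at h1
    rw [h1, ← card_singerSub hK]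
    congr 1
    refine Nat.card_congr ((Equiv.ofBijective (fun u : singerSub K => (⟨⟨unitsHom K u,
      unitsHom_mem_normalizer hK u, u.2⟩, ?_⟩ : f.ker)) ⟨?_, ?_⟩).symm)
    · refine AlgEquiv.ext fun k => Subtype.ext ?_
      show cjA (unitsHom K u) k = (k : Matrix (Fin 3) (Fin 3) F)
      have e : ((unitsHom K u : GL (Fin 3) F) : Matrix (Fin 3) (Fin 3) F) ∈ K := (u : Kˣ).1.2
      rw [cjA_apply, hK.comm _ e _ k.2, mul_assoc, Units.mul_inv, mul_one]
    · intro u v e
      exact Subtype.ext (unitsHom_injective (congrArg (fun x : f.ker => ((x : N) : GL (Fin 3) F)) e))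
    · intro g
      obtain ⟨u, hu⟩ := exists_unit_of_commute hK (g := ((g : N) : GL (Fin 3) F)) fun k hk => by
        have := DFunLike.congr_fun (MonoidHom.mem_ker.1 g.2) ⟨k, hk⟩
        exact congrArg Subtype.val this
      refine ⟨⟨u, ?_⟩, Subtype.ext (Subtype.ext hu)⟩
      show unitsHom K u ∈ specialLinear (Fin 3) F
      rw [hu]; exact (g : N).2.2
  · intro g hg
    refine exists_unit_of_commute hK fun k hk => ?_
    have h : galHom K (⟨g, hg⟩ ^ 3) = 1 := by
      rw [map_pow]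
      have hc := pow_card_eq_one' (x := galHom K ⟨g, hg⟩)
      rwa [h3] at hc
    exact congrArg Subtype.val (DFunLike.congr_fun h ⟨k, hk⟩)

/-- `d` and `M`. -/
theorem exists_dM : ∃ d M : ℕ, (d = 1 ∧ q % 3 ≠ 1 ∨ d = 3 ∧ q % 3 = 1) ∧ d * M = q ^ 2 + q + 1 ∧ d < q ^ 2 + q + 1 ∧
    Nat.gcd 3 (q ^ 2 + q + 1) = d ∧ Nat.gcd 9 (q ^ 2 + q + 1) = d := by
  have hq := Fintype.one_lt_card (α := F)
  by_cases h : q % 3 = 1
  · obtain ⟨t, ht⟩ : ∃ t, q = 3 * t + 1 := ⟨q / 3, by omega⟩
    have e : q ^ 2 + q + 1 = 3 * (3 * t ^ 2 + 3 * t + 1) := by rw [ht]; ring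
    refine ⟨3, 3 * t ^ 2 + 3 * t + 1, Or.inr ⟨rfl, h⟩, e.symm, by nlinarith, ?_, ?_⟩
    · rw [e]; exact Nat.gcd_mul_right_right _ _
    · rw [e, show (9 : ℕ) = 3 * 3 from rfl, Nat.gcd_mul_left]
      have : Nat.gcd 3 (3 * t ^ 2 + 3 * t + 1) = 1 := by
        rw [show 3 * t ^ 2 + 3 * t + 1 = 1 + 3 * (t ^ 2 + t) from by ring, Nat.gcd_add_mul_left_right, Nat.gcd_one_right]
      rw [this]
  · have h3 : Nat.Coprime 3 (q ^ 2 + q + 1) := by
      rw [Nat.Prime.coprime_iff_not_dvd Nat.prime_three]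
      intro hd
      obtain ⟨t, ht | ht⟩ : ∃ t, q = 3 * t ∨ q = 3 * t + 2 := ⟨q / 3, by omega⟩ <;>
      · rw [ht] at hd; ring_nf at hd; omega
    refine ⟨1, q ^ 2 + q + 1, Or.inl ⟨rfl, h⟩, one_mul _, by nlinarith, h3, ?_⟩
    exact Nat.Coprime.pow_left 2 h3

variable {d : ℕ}

/-- A scalar element of the Singer cycle has order dividing `d`. -/
theorem pow_eq_one_of_scalar (hK : IsFieldSubalgebra 3 K) (hd : Nat.gcd 3 (q ^ 2 + q + 1) = d)
    {u : Kˣ} (hu : u ∈ singerSub K) {a : F}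
    (ha : ((unitsHom K u : GL (Fin 3) F) : Matrix (Fin 3) (Fin 3) F) = a • 1) : u ^ d = 1 := by
  have h1 : u ^ (q ^ 2 + q + 1) = 1 := by
    rw [← card_singerSub hK]
    exact congrArg Subtype.val (pow_card_eq_one' (x := (⟨u, hu⟩ : singerSub K)))
  have h3 : u ^ 3 = 1 := by
    refine unitsHom_injective (Units.ext ?_)
    have hdet := HallP.mem_sl.1 (show unitsHom K u ∈ specialLinear (Fin 3) F from hu)
    rw [ha, Matrix.det_smul, Matrix.det_one, mul_one, Fintype.card_fin] at hdet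
    rw [map_pow, map_one, Units.val_pow_eq_pow_val, ha, smul_pow, hdet, one_pow, one_smul, Units.val_one]
  rw [← hd]
  exact pow_gcd_eq_one.2 ⟨h3, h1⟩

theorem exists_nonscalar (hK : IsFieldSubalgebra 3 K) (hd : Nat.gcd 3 (q ^ 2 + q + 1) = d)
    (hdlt : d < q ^ 2 + q + 1) : ∃ u ∈ singerSub K,
      ∀ a : F, ((unitsHom K u : GL (Fin 3) F) : Matrix (Fin 3) (Fin 3) F) ≠ a • 1 := by
  classical
  by_contra hcon
  push Not at hcon
  letI : Field K := (MaxSub.isField_of_isFieldSubalgebra hK).toField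
  haveI : Finite K := Finite.of_injective (fun x : K => (x : Matrix (Fin 3) (Fin 3) F)) Subtype.val_injective
  have hle : singerSub K ≤ (powMonoidHom d : Kˣ →* Kˣ).ker := fun u hu => by
    obtain ⟨a, ha⟩ := hcon u hu
    exact pow_eq_one_of_scalar hK hd hu ha
  have := Subgroup.card_le_of_le hle
  rw [card_singerSub hK, IsCyclic.card_powMonoidHom_ker] at this
  have hd0 : 0 < d := hd ▸ Nat.gcd_pos_of_pos_left _ (by norm_num)
  have := Nat.gcd_le_right (Nat.card Kˣ) hd0
  omega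

theorem irreducible_of_singer (hK : IsFieldSubalgebra 3 K) {X : Subgroup (GL (Fin 3) F)}
    {u : Kˣ} (hu : unitsHom K u ∈ X)
    (hns : ∀ a : F, ((unitsHom K u : GL (Fin 3) F) : Matrix (Fin 3) (Fin 3) F) ≠ a • 1) :
    ActsIrreducibly (matrixSet X) := by
  intro W hW
  rcases eq_or_ne W ⊥ with hb | hb
  · exact Or.inl hb
  right
  let A : Subalgebra F (Matrix (Fin 3) (Fin 3) F) :=
    { carrier := {m | ∀ w ∈ W, m *ᵥ w ∈ W}
      mul_mem' := fun {a b} ha hb w hw => by rw [← Matrix.mulVec_mulVec]; exact ha _ (hb w hw)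
      add_mem' := fun {a b} ha hb w hw => by rw [Matrix.add_mulVec]; exact add_mem (ha w hw) (hb w hw)
      algebraMap_mem' := fun r w hw => by
        rw [Algebra.algebraMap_eq_smul_one, Matrix.smul_mulVec, Matrix.one_mulVec]
        exact W.smul_mem r hw }
  have hle : K ≤ A := le_of_nonscalar hK (u : K).2 hns fun w hw =>
    hW _ ⟨_, hu, rfl⟩ ⟨w, hw, rfl⟩
  obtain ⟨v, hvW, hv⟩ := W.ne_bot_iff.1 hb
  haveI : Fact (Nat.Prime 3) := ⟨Nat.prime_three⟩
  refine eq_top_iff.2 fun y _ => ?_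
  obtain ⟨k, rfl⟩ := (orbit_bijective hK hv).2 y
  exact hle k.2 v hvW

set_option synthInstance.maxHeartbeats 200000 in
/-- The index congruence. -/
theorem index_mod (hK : IsFieldSubalgebra 3 K) {d M : ℕ} (hdM : d * M = q ^ 2 + q + 1) (hdlt : d < q ^ 2 + q + 1)
    (hd9 : Nat.gcd 9 (q ^ 2 + q + 1) = d) (hd3 : Nat.gcd 3 (q ^ 2 + q + 1) = d) {X : Subgroup (GL (Fin 3) F)}
    (hX : subalgebraNormalizer K ⊓ specialLinear (Fin 3) F ≤ X) (hXS : X ≤ specialLinear (Fin 3) F) :
    Nat.card (X ⧸ (subalgebraNormalizer K ⊓ specialLinear (Fin 3) F).subgroupOf X) % M = 1 := by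
  classical
  letI : Field K := (MaxSub.isField_of_isFieldSubalgebra hK).toField
  haveI : Finite K := Finite.of_injective (fun x : K => (x : Matrix (Fin 3) (Fin 3) F)) Subtype.val_injective
  set N := (subalgebraNormalizer K ⊓ specialLinear (Fin 3) F).subgroupOf X
  let j : singerSub K →* X :=
    ((unitsHom K).comp (singerSub K).subtype).codRestrict X fun u =>
      hX ⟨unitsHom_mem_normalizer hK u, u.2⟩
  letI : MulAction (singerSub K) (X ⧸ N) := MulAction.compHom _ j
  set x₀ : X ⧸ N := QuotientGroup.mk 1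
  have hfix : ∀ u : singerSub K, u • x₀ = x₀ := fun u => by
    show ((j u * 1 : X) : X ⧸ N) = _
    apply QuotientGroup.eq.2
    rw [mul_one, mul_one]
    exact inv_mem (show j u ∈ N from ⟨unitsHom_mem_normalizer hK u, u.2⟩)
  -- orbits of other points
  have horb : ∀ x : X ⧸ N, x ≠ x₀ → M ∣ Nat.card (MulAction.orbit (singerSub K) x) := by
    intro x hx
    induction x using QuotientGroup.induction_on with | H g =>
    have hst : ∀ u ∈ MulAction.stabilizer (singerSub K) (QuotientGroup.mk g : X ⧸ N), u ^ d = 1 := by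
      intro u hu
      have hu' : ((j u * g : X) : X ⧸ N) = QuotientGroup.mk g := hu
      have hn : (g : GL (Fin 3) F)⁻¹ * (unitsHom K u) * g ∈ subalgebraNormalizer K := by
        have := inv_mem (QuotientGroup.eq.1 hu')
        rw [Subgroup.mem_subgroupOf] at this
        simpa [_root_.mul_inv_rev, mul_assoc, j] using this.1
      obtain ⟨w, hw⟩ := (card_normalizer_sl hK).2 _ hn
      have hconj : ((g : GL (Fin 3) F)⁻¹ * unitsHom K u * g) ^ 3 =
          (g : GL (Fin 3) F)⁻¹ * unitsHom K ((u : Kˣ) ^ 3) * g := by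
        rw [map_pow]
        simp only [pow_succ, pow_zero, one_mul, mul_assoc, mul_inv_cancel_left]
      by_cases hsc : ∃ a : F, ((unitsHom K ((u : Kˣ) ^ 3) : GL (Fin 3) F) : Matrix (Fin 3) (Fin 3) F) = a • 1
      · obtain ⟨a, ha⟩ := hsc
        have hd' := pow_eq_one_of_scalar hK hd3 (Subgroup.pow_mem _ u.2 3) ha
        refine Subtype.ext ?_
        rw [Subgroup.coe_pow, Subgroup.coe_one, ← hd9]
        refine pow_gcd_eq_one.2 ⟨?_, ?_⟩
        · rw [show (9 : ℕ) = 3 * 3 from rfl, pow_mul]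
          obtain ⟨t, ht⟩ : d ∣ 3 := hd3 ▸ Nat.gcd_dvd_left 3 _
          calc (((u : Kˣ) ^ 3)) ^ 3 = (((u : Kˣ) ^ 3) ^ d) ^ t := by rw [← pow_mul _ d t, ← ht]
            _ = 1 := by rw [hd', one_pow]
        · rw [← card_singerSub hK]
          exact congrArg Subtype.val (pow_card_eq_one' (x := u))
      · exfalso
        push Not at hsc
        apply hx
        apply QuotientGroup.eq.2
        rw [Subgroup.mem_subgroupOf, mul_one]
        refine ⟨?_, Subgroup.inv_mem _ (hXS g.2)⟩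
        show (g : GL (Fin 3) F)⁻¹ ∈ subalgebraNormalizer K
        rw [MaxSub.mem_normalizer_iff_map_le]
        intro k hk
        have hle : K ≤ K.comap (cjA (g : GL (Fin 3) F)⁻¹) := le_of_nonscalar hK ((u : Kˣ) ^ 3).1.2 hsc (by
          show cjA (g : GL (Fin 3) F)⁻¹ _ ∈ K
          rw [cjA_apply, inv_inv]
          have e : ((unitsHom K w : GL (Fin 3) F) : Matrix (Fin 3) (Fin 3) F) ∈ K := (w : K).2
          rw [hw, hconj, Units.val_mul, Units.val_mul] at e
          exact e)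
        rw [← cjA_apply]
        exact hle hk
    have hcard : Nat.card (MulAction.stabilizer (singerSub K) (QuotientGroup.mk g : X ⧸ N)) ∣ d := by
      have hd_dvd : d ∣ Nat.card (singerSub K) := card_singerSub hK ▸ ⟨M, hdM.symm⟩
      have hker : Nat.card (powMonoidHom d : singerSub K →* singerSub K).ker = d := by
        rw [IsCyclic.card_powMonoidHom_ker, Nat.gcd_eq_right hd_dvd]
      rw [← hker]
      exact Subgroup.card_dvd_of_le fun u hu => hst u hu
    obtain ⟨c, hc⟩ := hcard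
    have h1 := Subgroup.card_eq_card_quotient_mul_card_subgroup
      (MulAction.stabilizer (singerSub K) (QuotientGroup.mk g : X ⧸ N))
    rw [← Nat.card_congr (MulAction.orbitEquivQuotientStabilizer _ _), card_singerSub hK, ← hdM] at h1
    refine ⟨c, ?_⟩
    have hpos : 0 < Nat.card (MulAction.stabilizer (singerSub K) (QuotientGroup.mk g : X ⧸ N)) := Nat.card_pos
    apply Nat.eq_of_mul_eq_mul_right hpos
    rw [← h1]
    calc d * M = Nat.card (MulAction.stabilizer (singerSub K) (QuotientGroup.mk g : X ⧸ N)) * c * M := by rw [← hc]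
      _ = _ := by ring
  haveI : Fintype (X ⧸ N) := Fintype.ofFinite _
  haveI : Fintype (MulAction.orbitRel.Quotient (singerSub K) (X ⧸ N)) := Fintype.ofFinite _
  rw [Nat.card_congr (MulAction.selfEquivSigmaOrbits' (singerSub K) (X ⧸ N)), Nat.card_sigma]
  rw [← Finset.add_sum_erase _ _ (Finset.mem_univ (Quotient.mk'' x₀ : MulAction.orbitRel.Quotient (singerSub K) (X ⧸ N)))]
  have h1 : Nat.card (MulAction.orbitRel.Quotient.orbit
      (Quotient.mk'' x₀ : MulAction.orbitRel.Quotient (singerSub K) (X ⧸ N))) = 1 := by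
    rw [MulAction.orbitRel.Quotient.orbit_mk]
    haveI : Subsingleton (MulAction.orbit (singerSub K) x₀) := ⟨fun a b => Subtype.ext (by
      obtain ⟨u, hu⟩ := a.2
      obtain ⟨v, hv⟩ := b.2
      rw [← hu, ← hv]
      exact (hfix u).trans (hfix v).symm)⟩
    haveI : Nonempty (MulAction.orbit (singerSub K) x₀) := (MulAction.nonempty_orbit x₀).to_subtype
    exact Nat.card_unique
  rw [h1, Nat.add_mod, Nat.mod_eq_zero_of_dvd (Finset.dvd_sum fun ω hω => ?_)]
  · have hM : 2 ≤ M := by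
      rcases Nat.lt_or_ge M 2 with hM | hM
      · exfalso
        interval_cases M <;> omega
      · exact hM
    rw [add_zero, Nat.mod_mod, Nat.mod_eq_of_lt hM]
  · induction ω using Quotient.inductionOn' with | h x =>
    rw [MulAction.orbitRel.Quotient.orbit_mk]
    exact horb x fun e => (Finset.mem_erase.1 hω).1 (congrArg Quotient.mk'' e)

/-- Overgroups of the Singer normaliser. -/
theorem le_normalizer (hq4 : q ≠ 4) (hK : IsFieldSubalgebra 3 K) (X : Subgroup (GL (Fin 3) F))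
    (hX : subalgebraNormalizer K ⊓ specialLinear (Fin 3) F ≤ X) (hXS : X ≤ specialLinear (Fin 3) F)
    (hne : ¬ specialLinear (Fin 3) F ≤ X) : X ≤ subalgebraNormalizer K := by
  classical
  obtain ⟨p, hchar⟩ := CharP.exists F
  haveI : Fact p.Prime := ⟨CharP.char_is_prime F p⟩
  obtain ⟨n, hp, hn⟩ := FiniteField.card F p
  obtain ⟨d, M, hd, hdM, hdlt, hd3, hd9⟩ := exists_dM (F := F)
  have hk := index_mod hK hdM hdlt hd9 hd3 hX hXS
  set N := subalgebraNormalizer K ⊓ specialLinear (Fin 3) F with hN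
  set k := Nat.card (X ⧸ N.subgroupOf X)
  have hcardN := (card_normalizer_sl hK).1
  have hcardX : Nat.card X = 3 * k * (q ^ 2 + q + 1) := by
    rw [Subgroup.card_eq_card_quotient_mul_card_subgroup (N.subgroupOf X),
      Nat.card_congr (Subgroup.subgroupOfEquivOfLe hX).toEquiv, hcardN]
    ring
  obtain ⟨u, hu, hns⟩ := exists_nonscalar hK hd3 hdlt
  have hirr := irreducible_of_singer hK (hX ⟨unitsHom_mem_normalizer hK u, hu⟩) hns
  obtain ⟨P⟩ := (inferInstance : Nonempty (Sylow p X))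
  obtain ⟨ha, ha2⟩ := Unitri.sylow_bound hirr hne P
  set a := Nat.card P
  set N0 := q ^ 2 + q + 1 with hN0
  have hN0pos : 0 < N0 := by omega
  have hcop : Nat.Coprime (q ^ 3) N0 := by
    refine Nat.Coprime.pow_left 3 ?_
    rw [hN0, show q ^ 2 + q + 1 = 1 + q * (q + 1) by ring, Nat.coprime_add_mul_left_right]
    exact Nat.coprime_one_right _
  have haX : a ∣ 3 * k * N0 := hcardX ▸ Subgroup.card_subgroup_dvd_card _
  obtain ⟨m, hm⟩ : a ∣ 3 * k := (Nat.Coprime.coprime_dvd_left ha hcop).dvd_of_dvd_mul_right haX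
  have hidx : (P : Subgroup X).index = m * N0 := by
    apply Nat.eq_of_mul_eq_mul_left (Nat.card_pos : 0 < a)
    rw [Subgroup.card_mul_index, hcardX, hm, mul_assoc]
  have hpidx : ¬ p ∣ (P : Subgroup X).index := P.not_dvd_index
  have hdvdSL := Subgroup.card_dvd_of_le hXS
  rw [hcardX, HallP.card_sl, ← mul_assoc, Nat.mul_dvd_mul_iff_right hN0pos, hm] at hdvdSL
  have hmR : m ∣ (q - 1) ^ 2 * (q + 1) := by
    have hmq : Nat.Coprime m (q ^ 3) := by
      rw [hn, ← pow_mul]
      exact Nat.Coprime.pow_right _ ((Nat.coprime_comm.1 ((Nat.Prime.coprime_iff_not_dvd hp).2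
        fun h => hpidx (hidx ▸ h.mul_right _))))
    exact hmq.dvd_of_dvd_mul_left ((Dvd.intro_left a rfl).trans hdvdSL)
  rcases SingerArith.eq_one_or_hall hp n.pos hn hq4 hd hdM hk hm.symm ha ha2 hmR with h1 | ⟨hq5, ha1, hm1⟩
  · have : N = X := Subgroup.eq_of_le_of_card_ge hX (by rw [hcardX, hcardN, h1, mul_one])
    exact this ▸ inf_le_left
  · exfalso
    have hc : Nat.card X = (q - 1) ^ 2 * (q + 1) * N0 := by
      rw [hcardX, hm, ha1, one_mul, hm1]
    refine HallP.not_hall (p := p) hq5 ⟨hXS, ?_, hc⟩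
    have : Nat.card X = (P : Subgroup X).index := by rw [hidx, hc, hm1]
    rwa [this]

end Cfsg.Agent.SLThree.SingerNorm

namespace Cfsg.Agent.SLThree

open Cfsg.Geo

/-- The normaliser of a cubic subfield is maximal in `SL(3, q)` for `q ≠ 4`. -/
theorem singer_maximal {F : Type*} [Field F] [Fintype F] :
    Fintype.card F ≠ 4 → ∀ K : Subalgebra F (Matrix (Fin 3) (Fin 3) F), Cfsg.Geo.IsFieldSubalgebra 3 K →
      Cfsg.Geo.IsMaximalIn (Cfsg.Geo.specialLinear (Fin 3) F)
        (Cfsg.Geo.subalgebraNormalizer K ⊓ Cfsg.Geo.specialLinear (Fin 3) F) := fun hq4 K hK =>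
  isMaximalIn_of (MaxSub.not_specialLinear_le_normalizer (by norm_num) (by simp) hK)
    fun X h1 h2 h3 => SingerNorm.le_normalizer hq4 hK X h1 h2 h3

end Cfsg.Agent.SLThree
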