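import Cfsg.Agent.SLThree.Basic

/-!
The stabiliser of the first base point of a subgroup of `SL(3, F)`: the image on the quotient
plane, and rigidity when there are no transvections centred at the point.
-/

set_option autoImplicit false
set_option linter.unusedSectionVars false

namespace Cfsg.Agent.SLThree

open Matrix Cfsg.Geo Cfsg.Agent.GeoClasses Cfsg.Agent.MaxSub.SubfieldMax
open scoped MatrixGroups Matrix

variable {F : Type*} [Field F]

/-- A matrix of determinant one as an element of `GL`. -/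
noncomputable def mk3 (A : Matrix (Fin 3) (Fin 3) F) (h : A.det = 1) : GL (Fin 3) F :=
  Matrix.GeneralLinearGroup.mkOfDetNeZero A (by rw [h]; exact one_ne_zero)

@[simp] theorem mk3_val (A : Matrix (Fin 3) (Fin 3) F) (h : A.det = 1) :
    (mk3 A h : Matrix (Fin 3) (Fin 3) F) = A := rfl

theorem mk3_mem (A : Matrix (Fin 3) (Fin 3) F) (h : A.det = 1) : mk3 A h ∈ specialLinear (Fin 3) F :=
  mem_specialLinear_iff.2 h

/-- The block on the quotient plane. -/
def blk (A : Matrix (Fin 3) (Fin 3) F) : Matrix (Fin 2) (Fin 2) F := !![A 1 1, A 1 2; A 2 1, A 2 2]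

/-- The matrix fixes the first base point. -/
def Fix0 (A : Matrix (Fin 3) (Fin 3) F) : Prop := A 1 0 = 0 ∧ A 2 0 = 0

theorem fix0_iff {g : GL (Fin 3) F} :
    g ∈ subspaceStabilizer (line (e₀ : Fin 3 → F)) ↔ Fix0 (g : Matrix (Fin 3) (Fin 3) F) :=
  mem_stab_e₀

theorem fix0_one : Fix0 (1 : Matrix (Fin 3) (Fin 3) F) := by simp [Fix0]

theorem Fix0.mul {A B : Matrix (Fin 3) (Fin 3) F} (hA : Fix0 A) (hB : Fix0 B) : Fix0 (A * B) := by
  simp [Fix0, Matrix.mul_apply, Fin.sum_univ_three, hA.1, hA.2, hB.1, hB.2]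

theorem Fix0.inv {g : GL (Fin 3) F} (h : Fix0 (g : Matrix (Fin 3) (Fin 3) F)) :
    Fix0 ((g⁻¹ : GL (Fin 3) F) : Matrix (Fin 3) (Fin 3) F) :=
  fix0_iff.1 (inv_mem (fix0_iff.2 h))

theorem blk_mul {A B : Matrix (Fin 3) (Fin 3) F} (hA : Fix0 A) : blk (A * B) = blk A * blk B := by
  ext i j
  fin_cases i <;> fin_cases j <;>
    simp [blk, Matrix.mul_apply, Fin.sum_univ_three, Fin.sum_univ_two, hA.1, hA.2]

theorem blk_one : blk (1 : Matrix (Fin 3) (Fin 3) F) = 1 := by
  ext i j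
  fin_cases i <;> fin_cases j <;> simp [blk]

theorem det_fix0 {A : Matrix (Fin 3) (Fin 3) F} (hA : Fix0 A) : A.det = A 0 0 * (blk A).det := by
  rw [Matrix.det_fin_three, Matrix.det_fin_two]
  simp [blk, hA.1, hA.2]
  ring

theorem InM.neg {M : Subgroup (GL (Fin 3) F)} {u a : Fin 3 → F} (h : InM M u a) (h0 : a ⬝ᵥ u = 0) :
    InM M u (-a) := by
  obtain ⟨g, hg, e⟩ := h
  refine ⟨g⁻¹, inv_mem hg, ?_⟩
  rw [inv_val_of_sq e (vmv_mul_vmv_zero h0 u a), vecMulVec_neg, sub_eq_add_neg]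

/-- There are no transvections of `X` centred at the first base point. -/
def NoRootAt (X : Subgroup (GL (Fin 3) F)) : Prop :=
  ∀ x y : F, InM X e₀ ![0, x, y] → x = 0 ∧ y = 0

/-- Without such transvections, the image on the quotient determines the element. -/
theorem eq_of_blk {X : Subgroup (GL (Fin 3) F)} (hX : X ≤ specialLinear (Fin 3) F) (hK : NoRootAt X)
    {g h : GL (Fin 3) F} (hg : g ∈ X) (hh : h ∈ X) (fg : Fix0 (g : Matrix (Fin 3) (Fin 3) F))
    (fh : Fix0 (h : Matrix (Fin 3) (Fin 3) F))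
    (e : blk (g : Matrix (Fin 3) (Fin 3) F) = blk (h : Matrix (Fin 3) (Fin 3) F)) : g = h := by
  set k := g * h⁻¹ with hk
  have fk : Fix0 (k : Matrix (Fin 3) (Fin 3) F) := by rw [hk, Units.val_mul]; exact fg.mul fh.inv
  have bk : blk (k : Matrix (Fin 3) (Fin 3) F) = 1 := by
    rw [hk, Units.val_mul, blk_mul fg, e, ← blk_mul fh, ← Units.val_mul, mul_inv_cancel, Units.val_one,
      blk_one]
  have hkX : k ∈ X := mul_mem hg (inv_mem hh)
  have h00 : (k : Matrix (Fin 3) (Fin 3) F) 0 0 = 1 := by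
    have := mem_specialLinear_iff.1 (hX hkX)
    rwa [det_fix0 fk, bk, Matrix.det_one, mul_one] at this
  have hval : (k : Matrix (Fin 3) (Fin 3) F) =
      1 + vecMulVec e₀ ![0, (k : Matrix (Fin 3) (Fin 3) F) 0 1, (k : Matrix (Fin 3) (Fin 3) F) 0 2] := by
    have b11 := congrFun (congrFun bk 0) 0
    have b12 := congrFun (congrFun bk 0) 1
    have b21 := congrFun (congrFun bk 1) 0
    have b22 := congrFun (congrFun bk 1) 1
    simp [blk] at b11 b12 b21 b22
    ext i j
    fin_cases i <;> fin_cases j <;>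
      simp [vecMulVec_apply, e₀, h00, fk.1, fk.2, b11, b12, b21, b22]
  obtain ⟨hx, hy⟩ := hK _ _ ⟨k, hkX, hval⟩
  have hk1 : k = 1 := Units.ext (by
    rw [hval, hx, hy, Units.val_one]
    ext i j
    fin_cases i <;> fin_cases j <;> simp [vecMulVec_apply])
  exact mul_inv_eq_one.1 hk1

end Cfsg.Agent.SLThree
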