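import Cfsg.Agent.MaxSub.SubfieldMax.Main

/-!
Subfield groups of prime index are maximal in `SL(3, F)`.
-/

set_option autoImplicit false
set_option linter.unusedSectionVars false
set_option linter.style.haveILetI false

namespace Cfsg.Agent.SLThree

open Matrix Cfsg.Geo Cfsg.Agent.MaxSub Cfsg.Agent.MaxSub.SubfieldMax
open scoped MatrixGroups Matrix

variable {ι : Type} [Fintype ι] [DecidableEq ι] {F : Type*} [Field F] [Fintype F]
  {M : Subgroup (GL ι F)} {F₀ : Subfield F}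

/-- Case of odd degree. -/
theorem exists_param_odd {r : ℕ} (h3 : 3 ≤ Fintype.card ι) (hr : 3 ≤ r) (hcard : Fintype.card F = Nat.card F₀ ^ r)
    (hmid : ∀ L : Subfield F, F₀ ≤ L → L = F₀ ∨ L = ⊤) (hEl : ∀ c ∈ F₀, Asc M c) {x φ : ι → F}
    (ht : ∀ a ∈ F₀, InM M (a • x) φ) (hφx : φ ⬝ᵥ x = 0) {i j k : ι} (hij : i ≠ j) (hik : i ≠ k)
    (hi : φ i ≠ 0) (hj : x j ≠ 0) (hc : x k / x j ∉ F₀) : ∃ c, Asc M c ∧ c ∉ F₀ := by
  classical
  haveI := Fintype.ofFinite F₀
  have hjk : j ≠ k := fun e => hc (by rw [← e, div_self hj]; exact one_mem _)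
  set c := x k / x j with hcdef
  set η : Fin 2 → ι → F := ![(φ i)⁻¹ • φ, (x j)⁻¹ • ev F j] with hη
  set κ : ι → F := ev F k - c • ev F j with hκ
  have h0i : η 0 ⬝ᵥ ev F i = 1 := by simp [hη, dot_ev, hi]
  have h0x : η 0 ⬝ᵥ x = 0 := by simp [hη, hφx]
  have h1i : η 1 ⬝ᵥ ev F i = 0 := by simp [hη, ev, hij]
  have h1x : η 1 ⬝ᵥ x = 1 := by simp [hη, ev_dot, hj]
  have hκi : κ ⬝ᵥ ev F i = 0 := by simp [hκ, ev, hij, hik]
  have hκx : κ ⬝ᵥ x = 0 := by simp [hκ, ev_dot, hcdef, hj]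
  have hmul := Φ_mul x i η κ h0i h0x h1i h1x hκi hκx
  let Lift : SL(2, F) → (Fin 2 → F) → Prop := fun S v =>
    ∃ g ∈ M, (g : Matrix ι ι F) = Φ x i η κ (S : Matrix (Fin 2) (Fin 2) F) v
  have hlift_mul : ∀ S T v w, Lift S v → Lift T w → Lift (S * T) ((S : Matrix (Fin 2) (Fin 2) F) *ᵥ w + v) := by
    rintro S T v w ⟨g, hg, eg⟩ ⟨g', hg', eg'⟩
    exact ⟨g * g', mul_mem hg hg', by rw [Units.val_mul, eg, eg', hmul, Matrix.SpecialLinearGroup.coe_mul]⟩
  let Hm : Submonoid SL(2, F) :=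
    { carrier := {S | ∃ v, Lift S v}
      mul_mem' := fun ⟨v, hv⟩ ⟨w, hw⟩ => ⟨_, hlift_mul _ _ _ _ hv hw⟩
      one_mem' := ⟨0, 1, one_mem _, by rw [Matrix.SpecialLinearGroup.coe_one, Φ_one, Units.val_one]⟩ }
  let H : Subgroup SL(2, F) := { Hm with
    inv_mem' := fun {S} hS => by
      have e : S⁻¹ = S ^ (orderOf S - 1) := inv_eq_of_mul_eq_one_right (by
        rw [← pow_succ', Nat.sub_add_cancel (orderOf_pos S), pow_orderOf_eq_one])
      show S⁻¹ ∈ Hm
      rw [e]; exact Hm.pow_mem hS _ }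
  have hs : ∀ a ∈ F₀, Lift (up (a * x j)) 0 := by
    intro a ha
    obtain ⟨g, hg, e⟩ := InM.ev_ev (hEl a ha) hij
    refine ⟨g, hg, ?_⟩
    rw [show (0 : Fin 2 → F) = ![0, 0] by ext q; fin_cases q <;> rfl, Φ_upper, e]
    congr 2
    simp [hη, smul_smul, hj]
  have hu : ∀ a ∈ F₀, Lift (up (a * x k)) ![a, 0] := by
    intro a ha
    obtain ⟨g, hg, e⟩ := InM.ev_ev (hEl a ha) hik
    refine ⟨g, hg, ?_⟩
    rw [Φ_upper, e]
    congr 2
    simp only [hη, hκ, Matrix.cons_val_one, Matrix.cons_val_zero, smul_sub, smul_smul, hcdef, div_eq_mul_inv]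
    rw [mul_assoc a]
    abel
  have hl : ∀ a ∈ F₀, Lift (lo (a * φ i)) 0 := by
    intro a ha
    obtain ⟨g, hg, e⟩ := inM_smul_left.mp (ht a ha)
    refine ⟨g, hg, ?_⟩
    rw [Φ_lower, e]
    simp [hη, smul_smul, hi]
  have hfull : ∀ S, ∃ v, Lift S v := by
    intro S
    have := eq_top_of_unipotents F₀ hmid H (l := φ i) (m₁ := x j) (m₂ := x k) hi hj hc
      (fun a ha => ⟨0, hl a ha⟩) (fun a ha => ⟨0, hs a ha⟩) (fun a ha => ⟨_, hu a ha⟩)
    exact (show S ∈ H from this ▸ Subgroup.mem_top S)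
  -- a parameter outside `F₀ + F₀ c`
  obtain ⟨z, hz⟩ : ∃ z : F, ∀ α ∈ F₀, ∀ β ∈ F₀, z ≠ x j * (α + β * c) := by
    by_contra hcon
    push Not at hcon
    have hsur : Function.Surjective (fun ab : F₀ × F₀ => x j * ((ab.1 : F) + ab.2 * c)) := fun z => by
      obtain ⟨α, hα, β, hβ, e⟩ := hcon z
      exact ⟨(⟨α, hα⟩, ⟨β, hβ⟩), e.symm⟩
    have h1 := Fintype.card_le_of_surjective _ hsur
    rw [hcard, Fintype.card_prod, Nat.card_eq_fintype_card, ← pow_two] at h1
    exact absurd ((Nat.pow_le_pow_iff_right Fintype.one_lt_card).mp h1) (by omega)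
  obtain ⟨v, hv⟩ := hfull (up z)
  -- elementary transvections
  have hfin : ∀ α β, InM M (ev F i) (α • ev F j + β • ev F k) → Asc M α ∧ Asc M β := by
    intro α β hαβ
    have h0 : (α • ev F j + β • ev F k) ⬝ᵥ ev F i = 0 := by
      simp [ev, hij, hik]
    constructor
    · have := hαβ.comm (hEl 1 (one_mem _) j k hjk) h0
        (by rw [dotProduct_smul, ev_dot_ev hjk.symm, smul_zero]) (ev_dot_ev hik.symm)
      simp [ev, hjk] at this
      exact asc_of_one h3 (hEl 1 (one_mem _)) hik this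
    · have := hαβ.comm (hEl 1 (one_mem _) k j hjk.symm) h0
        (by rw [dotProduct_smul, ev_dot_ev hjk, smul_zero]) (ev_dot_ev hij.symm)
      simp [ev, Ne.symm hjk] at this
      exact asc_of_one h3 (hEl 1 (one_mem _)) hij this
  have hget : ∀ z w, Lift (up z) ![w, 0] → InM M (ev F i) ((z * (x j)⁻¹ - w * c) • ev F j + w • ev F k) := by
    rintro z w ⟨g, hg, e⟩
    refine ⟨g, hg, ?_⟩
    rw [e, Φ_upper]
    congr 2
    simp only [hη, hκ, Matrix.cons_val_one, Matrix.cons_val_zero, smul_sub, smul_smul, sub_smul]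
    abel
  by_contra hcon
  push Not at hcon
  by_cases hv1 : v 1 = 0
  · rw [show v = ![v 0, 0] by ext q; fin_cases q <;> simp [hv1]] at hv
    obtain ⟨a1, a2⟩ := hfin _ _ (hget _ _ hv)
    refine hz _ (hcon _ a1) _ (hcon _ a2) ?_
    field_simp
    ring
  · obtain ⟨gs, hgs, es⟩ := hs 1 (one_mem _)
    obtain ⟨gl, hgl, el⟩ := hv
    rw [one_mul] at es
    set U : Matrix (Fin 2) (Fin 2) F := ((up (x j) : SL(2, F)) : Matrix (Fin 2) (Fin 2) F) with hU
    set Z : Matrix (Fin 2) (Fin 2) F := ((up z : SL(2, F)) : Matrix (Fin 2) (Fin 2) F) with hZ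
    have hcomm : U * Z = Z * U := by
      rw [hU, hZ, ← Matrix.SpecialLinearGroup.coe_mul, ← Matrix.SpecialLinearGroup.coe_mul, up_mul, up_mul, add_comm]
    have e1 : ((gs * gl : GL ι F) : Matrix ι ι F) = Φ x i η κ (U * Z) (U *ᵥ v) := by
      rw [Units.val_mul, es, el, hmul, add_zero]
    have e2 : ((gl * gs : GL ι F) : Matrix ι ι F) = Φ x i η κ (U * Z) v := by
      rw [Units.val_mul, es, el, hmul, Matrix.mulVec_zero, zero_add, hcomm]
    have h3 : Lift (up 0) ![x j * v 1, 0] := by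
      refine ⟨gs * gl * (gl * gs)⁻¹, mul_mem (mul_mem hgs hgl) (inv_mem (mul_mem hgl hgs)), ?_⟩
      rw [Units.val_mul, Units.mul_inv_eq_iff_eq_mul, e1, e2, hmul]
      have h1 : ((up 0 : SL(2, F)) : Matrix (Fin 2) (Fin 2) F) = 1 := by simp [up, Matrix.one_fin_two]
      rw [h1, Matrix.one_mul, Matrix.one_mulVec]
      congr 1
      ext q
      fin_cases q <;> simp [hU, up, Matrix.mulVec, dotProduct, Fin.sum_univ_two] <;> ring
    obtain ⟨a1, a2⟩ := hfin _ _ (hget _ _ h3)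
    have m1 := hcon _ a1
    have m2 := hcon _ a2
    rw [zero_mul, zero_sub, neg_mem_iff] at m1
    have := div_mem m1 m2
    rw [mul_div_cancel_left₀ _ (mul_ne_zero hj hv1)] at this
    exact hc this

/-- A conjugate transvection with convenient indices. -/
theorem exists_indices (h3 : 3 ≤ Fintype.card ι) (h1 : Asc M 1) {x φ : ι → F}
    (ht : ∀ a ∈ F₀, InM M (a • x) φ) (hφx : φ ⬝ᵥ x = 0) {i₀ : ι} (hi₀ : φ i₀ ≠ 0) (hx : Irr F₀ x) :
    ∃ (x' φ' : ι → F) (i j k : ι), (∀ a ∈ F₀, InM M (a • x') φ') ∧ φ' ⬝ᵥ x' = 0 ∧ i ≠ j ∧ i ≠ k ∧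
      φ' i ≠ 0 ∧ x' j ≠ 0 ∧ x' k / x' j ∉ F₀ := by
  classical
  obtain ⟨j, k, hj, hc⟩ := hx
  by_cases hA : ∃ i, i ≠ j ∧ i ≠ k ∧ φ i ≠ 0
  · obtain ⟨i, h1', h2', h3'⟩ := hA
    exact ⟨x, φ, i, j, k, ht, hφx, h1', h2', h3', hj, hc⟩
  push Not at hA
  have hjk : j ≠ k := fun e => hc (by rw [← e, div_self hj]; exact one_mem _)
  have hk : x k ≠ 0 := fun e => hc (by rw [e, zero_div]; exact zero_mem _)
  have hsum : φ j * x j + φ k * x k = 0 := by
    rw [← hφx, dotProduct, ← Finset.sum_pair hjk (f := fun y => φ y * x y)]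
    refine Finset.sum_subset (Finset.subset_univ _) fun y _ hy => ?_
    simp only [Finset.mem_insert, Finset.mem_singleton, not_or] at hy
    rw [hA y hy.1 hy.2, zero_mul]
  have hboth : φ j ≠ 0 ∧ φ k ≠ 0 := by
    by_cases e : i₀ = j
    · subst e
      exact ⟨hi₀, fun e => by rw [e, zero_mul, add_zero] at hsum; exact mul_ne_zero hi₀ hj hsum⟩
    · by_cases e' : i₀ = k
      · subst e'
        exact ⟨fun e => by rw [e, zero_mul, zero_add] at hsum; exact mul_ne_zero hi₀ hk hsum, hi₀⟩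
      · exact absurd (hA i₀ e e') hi₀
  by_cases hB : ∃ l, l ≠ j ∧ l ≠ k ∧ x l ≠ 0
  · obtain ⟨l, h1', h2', h3'⟩ := hB
    by_cases hlj : x l / x j ∈ F₀
    · refine ⟨x, φ, j, k, l, ht, hφx, hjk, Ne.symm h1', hboth.1, hk, fun e => hc ?_⟩
      have := div_mem hlj e
      convert this using 1
      field_simp
    · exact ⟨x, φ, k, j, l, ht, hφx, hjk.symm, Ne.symm h2', hboth.2, hj, hlj⟩
  push Not at hB
  obtain ⟨l, hl⟩ := exists_avoid {j, k} (Finset.card_le_two.trans_lt (by omega))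
  simp only [Finset.mem_insert, Finset.mem_singleton, not_or] at hl
  obtain ⟨σ, hσ, eσ⟩ := h1 j l (Ne.symm hl.1)
  rw [one_smul] at eσ
  have hx' : (σ : Matrix ι ι F) *ᵥ x = x := by
    rw [eσ, Matrix.add_mulVec, Matrix.one_mulVec, Matrix.vecMulVec_mulVec, ev_dot, hB l hl.1 hl.2]
    simp
  have hinv := inv_val_of_sq eσ (vmv_mul_vmv_zero (ev_dot_ev hl.1) _ _)
  refine ⟨x, φ ᵥ* ((σ⁻¹ : GL ι F) : Matrix ι ι F), l, j, k, fun a ha => ?_, ?_, hl.1, hl.2, ?_, hj, hc⟩
  · have := (ht a ha).conj hσ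
    rwa [Matrix.mulVec_smul, hx'] at this
  · rw [← Matrix.dotProduct_mulVec]
    conv_lhs => rw [← hx', Matrix.mulVec_mulVec, ← Units.val_mul, inv_mul_cancel, Units.val_one, Matrix.one_mulVec]
    exact hφx
  · rw [hinv, Matrix.vecMul_sub, Matrix.vecMul_one, Pi.sub_apply, hA l hl.1 hl.2, Matrix.vecMul_vecMulVec, dot_ev]
    simp [ev, hboth.1]

/-- The vector has all coordinates in the subfield. -/
def Rat (F₀ : Subfield F) (u : ι → F) : Prop := ∀ i, u i ∈ F₀

/-- With a rational functional having a zero coordinate, the centre is rational. -/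
theorem rat_of_inM (h3 : Fintype.card ι = 3) (hEl : ∀ c ∈ F₀, Asc M c) (hno : ∀ c, Asc M c → c ∈ F₀)
    {u h : ι → F} (hu : InM M u h) (hh : Rat F₀ h) (hhu : h ⬝ᵥ u = 0) {j k d : ι} (hjk : j ≠ k) (hjd : j ≠ d)
    (hkd : k ≠ d) (hk : h k = 0) (hj : h j ≠ 0) : Rat F₀ u := by
  classical
  have hne : ∀ {v : ι → F} {g : ι → F}, InM M v g → g ⬝ᵥ v = 0 → g = h → ∀ b, b ≠ k → v b ∈ F₀ := by
    intro v g hv hgv hgh b hb
    subst hgh
    have h1 := (hEl 1 (one_mem _) k b hb.symm).comm hv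
      (by rw [one_smul, ev_dot_ev hb]) hgv (by rw [one_smul, dot_ev, hk])
    rw [ev_dot, one_smul] at h1
    have h2 := h1.comm (hEl 1 (one_mem _) j d hjd) (by rw [dotProduct_smul, dot_ev, hk, smul_zero])
      (by rw [one_smul, ev_dot_ev hjd.symm]) (by rw [dotProduct_smul, ev_dot_ev hkd.symm, smul_zero])
    rw [one_smul, dot_ev, smul_smul] at h2
    have h4 := hno _ (asc_of_one h3.ge (hEl 1 (one_mem _)) hkd h2)
    have := div_mem h4 (hh j)
    rwa [mul_div_cancel_left₀ _ hj] at this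
  have hb := hne hu hhu rfl
  intro b
  by_cases hbk : b = k
  swap; · exact hb b hbk
  subst hbk
  set z : ι → F := h d • ev F j + (-h j) • ev F d with hz
  have hzk : z b = 0 := by simp [hz, ev, hjk.symm, hkd]
  have huniv : (Finset.univ : Finset ι) = {j, b, d} := by
    refine (Finset.eq_univ_of_card _ ?_).symm
    rw [h3]; simp [hjk, hjd, hkd]
  have hhz : h ⬝ᵥ z = 0 := by
    simp [hz]; ring
  obtain ⟨τ, hτ, eτ⟩ : InM M z (ev F b) := by
    refine (hEl _ (hh d) j b hjk).mul (hEl _ (neg_mem (hh j)) d b hkd.symm) ?_ ?_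
    · rw [dotProduct_smul, ev_dot_ev hkd, smul_zero]
    · rw [hz, add_vecMulVec]
  have hconj := hu.conj hτ
  have e1 : (τ : Matrix ι ι F) *ᵥ u = u + u b • z := by
    rw [eτ, Matrix.add_mulVec, Matrix.one_mulVec, Matrix.vecMulVec_mulVec, ev_dot]
    ext q; simp [mul_comm]
  have e2 : h ᵥ* ((τ⁻¹ : GL ι F) : Matrix ι ι F) = h := by
    rw [inv_val_of_sq eτ (vmv_mul_vmv_zero (by rw [ev_dot, hzk]) _ _), Matrix.vecMul_sub, Matrix.vecMul_one,
      Matrix.vecMul_vecMulVec, hhz, zero_smul, sub_zero]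
  rw [e1, e2] at hconj
  have h5 := hne hconj (by rw [dotProduct_add, dotProduct_smul, hhu, hhz, smul_zero, add_zero]) rfl d hkd.symm
  have h6 : (u + u b • z) d = u d - h j * u b := by
    simp [hz, ev, hjd.symm]; ring
  rw [h6] at h5
  have h7 := div_mem (sub_mem (hb d hkd.symm) h5) (hh j)
  rwa [sub_sub_cancel, mul_div_cancel_left₀ _ hj] at h7

/-- Quadratic case. -/
theorem exists_param_quadratic (h3 : Fintype.card ι = 3) (hq : Fintype.card F = Nat.card F₀ ^ 2)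
    (hEl : ∀ c ∈ F₀, Asc M c) {x φ : ι → F} (ht : InM M x φ) (hφx : φ ⬝ᵥ x = 0) (hφ : φ ≠ 0)
    (hx : Irr F₀ x) : ∃ c, Asc M c ∧ c ∉ F₀ := by
  classical
  haveI := Fintype.ofFinite F₀
  by_contra hno
  push Not at hno
  -- a rational functional killing `x`
  obtain ⟨u, v, hne, he⟩ := Fintype.exists_ne_map_eq_of_card_lt
    (fun z : ι → F₀ => ∑ a, (z a : F) * x a) (by
      rw [hq, Fintype.card_fun, h3, Nat.card_eq_fintype_card]
      exact Nat.pow_lt_pow_right Fintype.one_lt_card (by norm_num))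
  have hnrat : ∀ ν : F, ν ≠ 0 → ¬ Rat F₀ (ν • x) := by
    intro ν hν hr
    obtain ⟨a, b, ha, hab⟩ := hx
    apply hab
    have := div_mem (hr b) (hr a)
    rwa [Pi.smul_apply, Pi.smul_apply, smul_eq_mul, smul_eq_mul, mul_div_mul_left _ _ hν] at this
  set h₀ : ι → F := fun a => (u a : F) - v a with hh₀
  have hh0 : Rat F₀ h₀ := fun a => sub_mem (u a).2 (v a).2
  have hh0x : h₀ ⬝ᵥ x = 0 := by
    simp only [hh₀, dotProduct, sub_mul, Finset.sum_sub_distrib]
    exact sub_eq_zero.mpr he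
  obtain ⟨j, hj⟩ : ∃ j, h₀ j ≠ 0 := by
    by_contra hc
    push Not at hc
    exact hne (funext fun a => Subtype.ext (sub_eq_zero.mp (hc a)))
  -- the same situation with a zero coordinate
  suffices key : ∀ (y ψ h : ι → F), InM M y ψ → ψ ⬝ᵥ y = 0 → ψ ≠ 0 → (∀ ν : F, ν ≠ 0 → ¬ Rat F₀ (ν • y)) →
      Rat F₀ h → h ⬝ᵥ y = 0 → h j ≠ 0 → (∃ k, k ≠ j ∧ h k = 0) → False by
    by_cases hz : ∃ k, k ≠ j ∧ h₀ k = 0
    · exact key x φ h₀ ht hφx hφ hnrat hh0 hh0x hj hz
    obtain ⟨k, hk⟩ := exists_avoid {j} (by simp [h3])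
    rw [Finset.mem_singleton] at hk
    set t := h₀ k / h₀ j with htdef
    have htF : t ∈ F₀ := div_mem (hh0 k) (hh0 j)
    obtain ⟨σ, hσ, eσ⟩ := hEl t htF j k (Ne.symm hk)
    have einv := inv_val_of_sq eσ (vmv_mul_vmv_zero (by rw [dotProduct_smul, ev_dot_ev hk, smul_zero]) _ _)
    have hid : ∀ w : ι → F, ((σ⁻¹ : GL ι F) : Matrix ι ι F) *ᵥ ((σ : Matrix ι ι F) *ᵥ w) = w := fun w => by
      rw [Matrix.mulVec_mulVec, ← Units.val_mul, inv_mul_cancel, Units.val_one, Matrix.one_mulVec]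
    have hval : h₀ ᵥ* ((σ⁻¹ : GL ι F) : Matrix ι ι F) = h₀ - h₀ k • ev F k := by
      rw [einv, Matrix.vecMul_sub, Matrix.vecMul_one, Matrix.vecMul_vecMulVec, dotProduct_smul, dot_ev,
        smul_eq_mul, htdef, div_mul_cancel₀ _ hj]
    refine key _ _ (h₀ ᵥ* ((σ⁻¹ : GL ι F) : Matrix ι ι F)) (ht.conj hσ) ?_ ?_ ?_ ?_ ?_ ?_ ⟨k, hk, ?_⟩
    · rw [← Matrix.dotProduct_mulVec, hid, hφx]
    · intro e
      apply hφ
      have := congrArg (· ᵥ* (σ : Matrix ι ι F)) e
      simpa [Matrix.vecMul_vecMul, ← Units.val_mul] using this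
    · intro ν hν hr
      refine hnrat ν hν fun a => ?_
      have hv := congrFun (hid (ν • x)) a
      rw [← hv, Matrix.mulVec_smul (σ : Matrix ι ι F), Matrix.mulVec, dotProduct]
      refine sum_mem fun q _ => mul_mem ?_ (hr q)
      rw [einv]
      simp only [Matrix.sub_apply, Matrix.one_apply, vecMulVec_apply, ev, Pi.smul_apply, Pi.single_apply, smul_eq_mul]
      refine sub_mem ?_ (mul_mem (mul_mem htF ?_) ?_) <;> split_ifs <;> simp
    · rw [hval]
      intro a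
      refine sub_mem (hh0 a) ?_
      rw [Pi.smul_apply, smul_eq_mul]
      refine mul_mem (hh0 k) ?_
      simp only [ev, Pi.single_apply]
      split_ifs <;> simp
    · rw [← Matrix.dotProduct_mulVec, hid, hh0x]
    · rw [hval]; simpa [ev, Ne.symm hk] using hj
    · rw [hval]; simp [ev]
  intro y ψ h hy hψy hψ hnr hh hhy hj ⟨k, hkj, hk⟩
  obtain ⟨d, hd⟩ := exists_avoid {j, k} (Finset.card_le_two.trans_lt (by omega))
  simp only [Finset.mem_insert, Finset.mem_singleton, not_or] at hd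
  have huniv : (Finset.univ : Finset ι) = {j, k, d} := by
    refine (Finset.eq_univ_of_card _ ?_).symm
    rw [h3]; simp [Ne.symm hkj, Ne.symm hd.1, Ne.symm hd.2]
  have hfin : ∀ {w : ι → F}, InM M w h → h ⬝ᵥ w = 0 → Rat F₀ w := fun hw h0 =>
    rat_of_inM h3 hEl (fun c hc => hno c hc) hw hh h0 (Ne.symm hkj) (Ne.symm hd.1) (Ne.symm hd.2) hk hj
  set z : ι → F := h d • ev F j + (-h j) • ev F d with hz
  have hzk : z k = 0 := by simp [hz, ev, hkj, Ne.symm hd.2]
  have hhz : h ⬝ᵥ z = 0 := by simp [hz]; ring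
  have hek : InM M (ev F k) h := by
    refine ((InM.ev_ev (hEl _ (hh j)) hkj).add_right (InM.ev_ev (hEl _ (hh d)) (Ne.symm hd.2)) ?_).congr ?_
    · rw [smul_dotProduct, ev_dot_ev (Ne.symm hkj), smul_zero]
    · congr 1
      ext a
      have ha : a = j ∨ a = k ∨ a = d := by
        simpa [huniv] using Finset.mem_univ a
      rcases ha with rfl | rfl | rfl <;> simp [ev, hk, hkj, Ne.symm hkj, hd.1, hd.2, Ne.symm hd.1, Ne.symm hd.2]
  have hzh : InM M z h := by
    have hze : InM M z (ev F k) := by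
      refine (hEl _ (hh d) j k (Ne.symm hkj)).mul (hEl _ (neg_mem (hh j)) d k hd.2) ?_ ?_
      · rw [dotProduct_smul, ev_dot_ev (Ne.symm hd.2), smul_zero]
      · rw [hz, add_vecMulVec]
    have := hze.comm hek (by rw [ev_dot, hzk]) (by rw [dot_ev, hk]) hhz
    simpa [ev] using this
  have hscale : ∀ w : ι → F, InM M w h → h ⬝ᵥ w = 0 → ψ ⬝ᵥ w = 0 := by
    intro w hw hhw
    by_contra h0
    have h1 := hy.comm hw hψy hhw hhy
    exact hnr _ h0 (hfin h1 (by rw [dotProduct_smul, hhy, smul_zero]))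
  have hψk : ψ k = 0 := by simpa [dot_ev] using hscale _ hek (by rw [dot_ev, hk])
  have hψz : ψ j * h d = ψ d * h j := by
    have := hscale _ hzh hhz
    simp [hz] at this
    linear_combination this
  have hψe : ψ = (ψ j / h j) • h := by
    ext a
    have ha : a = j ∨ a = k ∨ a = d := by simpa [huniv] using Finset.mem_univ a
    rcases ha with rfl | rfl | rfl
    · simp [hj]
    · simp [hψk, hk]
    · simp [div_mul_eq_mul_div, hψz, hj]
  have hν : ψ j / h j ≠ 0 := fun e => hψ (by rw [hψe, e, zero_smul])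
  have hμ : InM M ((ψ j / h j) • y) h := inM_smul_left.mpr (hψe ▸ hy)
  exact hnr _ hν (hfin hμ (by rw [dotProduct_smul, hhy, smul_zero]))

/-- The dichotomy in dimension three. -/
theorem subfield_dichotomy {r : ℕ} (hr : r.Prime) (h3 : Fintype.card ι = 3)
    (hcard : Fintype.card F = Nat.card F₀ ^ r) (hEl : ∀ c ∈ F₀, Asc M c) :
    specialLinear ι F ≤ M ∨ M ≤ subfieldSubgroup F₀ 1 := by
  haveI : Nonempty ι := Fintype.card_pos_iff.mp (by omega)
  haveI : Nontrivial ι := Fintype.one_lt_card_iff_nontrivial.mp (by omega)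
  have hmid := mid_of_prime hr hcard
  by_cases h : ∀ g ∈ M, ∀ i, ¬ Irr F₀ fun k => (g : Matrix ι ι F) k i
  · exact Or.inr (le_subfieldSubgroup_of_columns hEl h)
  push Not at h
  obtain ⟨g, hg, i, hx⟩ := h
  left
  obtain ⟨j, hji⟩ := exists_ne i
  set x : ι → F := fun k => (g : Matrix ι ι F) k i with hxdef
  set φ : ι → F := fun k => ((g⁻¹ : GL ι F) : Matrix ι ι F) j k with hφdef
  have ht : ∀ a ∈ F₀, InM M (a • x) φ := fun a ha => by
    have := (hEl a ha i j hji.symm).conj hg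
    rwa [Matrix.mulVec_smul, Matrix.mulVec_single_one, Matrix.single_one_vecMul] at this
  have hφx : φ ⬝ᵥ x = 0 := by
    show (((g⁻¹ : GL ι F) : Matrix ι ι F) * (g : Matrix ι ι F)) j i = 0
    rw [← Units.val_mul, inv_mul_cancel, Units.val_one, Matrix.one_apply_ne hji]
  obtain ⟨i₀, hi₀⟩ : ∃ i₀, φ i₀ ≠ 0 := by
    by_contra hc
    push Not at hc
    exact Matrix.GeneralLinearGroup.det_ne_zero g⁻¹ (Matrix.det_eq_zero_of_row_eq_zero j hc)
  rcases hr.eq_two_or_odd with rfl | hodd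
  · obtain ⟨c, hc, hcF⟩ := exists_param_quadratic h3 hcard hEl
      (by simpa using ht 1 (one_mem _)) hφx (fun e => hi₀ (congrFun e i₀)) hx
    exact specialLinear_le_of_asc h3.ge hmid hEl hc hcF
  · obtain ⟨x', φ', i', j', k', ht', hφx', h1, h2, h3', h4, h5⟩ :=
      exists_indices h3.ge (hEl 1 (one_mem _)) ht hφx hi₀ hx
    have := hr.two_le
    obtain ⟨c, hc, hcF⟩ := exists_param_odd h3.ge (by omega) hcard hmid hEl ht' hφx' h1 h2 h3' h4 h5
    exact specialLinear_le_of_asc h3.ge hmid hEl hc hcF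

/-- Subfield groups of prime index are maximal in dimension three. -/
theorem subfieldSubgroup_maximal_three {r : ℕ} (hr : r.Prime) (h3 : Fintype.card ι = 3)
    (hcard : Fintype.card F = Nat.card F₀ ^ r) (P : GL ι F) :
    IsMaximalIn (specialLinear ι F) (subfieldSubgroup F₀ P ⊓ specialLinear ι F) := by
  classical
  haveI : Nontrivial ι := Fintype.one_lt_card_iff_nontrivial.mp (by omega)
  have hF0 : F₀ ≠ ⊤ := by
    rintro rfl
    rw [Nat.card_congr (Subfield.topEquiv : (⊤ : Subfield F) ≃+* F).toEquiv, Nat.card_eq_fintype_card] at hcard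
    have := (Nat.pow_right_injective Fintype.one_lt_card ((pow_one (Fintype.card F)).trans hcard)).symm
    exact hr.ne_one this
  have hnot := not_le_subfieldSubgroup hF0 P
  refine ⟨lt_of_le_not_ge inf_le_right fun h => hnot (h.trans inf_le_left), fun K hK hKS => ?_⟩
  set M : Subgroup (GL ι F) := K.comap (MulAut.conj P).toMonoidHom with hM
  have hdetc : ∀ y : GL ι F, (MulAut.conj P y : GL ι F) ∈ specialLinear ι F ↔ y ∈ specialLinear ι F := by
    intro y
    simp only [MulAut.conj_apply, Cfsg.Agent.GeoClasses.mem_specialLinear_iff, Units.val_mul]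
    rw [Matrix.det_mul, Matrix.det_mul, mul_right_comm, ← Matrix.det_mul, ← Units.val_mul, mul_inv_cancel,
      Units.val_one, Matrix.det_one, one_mul]
  have hmemP : ∀ y ∈ subfieldSubgroup F₀ (1 : GL ι F), MulAut.conj P y ∈ subfieldSubgroup F₀ P := by
    intro y hy
    rw [subfieldSubgroup, Subgroup.mem_map] at hy ⊢
    obtain ⟨w, hw, rfl⟩ := hy
    exact ⟨w, hw, by simp⟩
  have hEl : ∀ c ∈ F₀, Asc M c := by
    intro c hc i j hij
    let T : GL ι F₀ := Matrix.SpecialLinearGroup.toGL (Matrix.SpecialLinearGroup.transvection hij (⟨c, hc⟩ : F₀))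
    refine ⟨Matrix.GeneralLinearGroup.map (F₀.subtype : F₀ →+* F) T, hK ⟨hmemP _ ?_, (hdetc _).2 ?_⟩, ?_⟩
    · exact ⟨_, Subgroup.mem_sup_left ⟨T, rfl⟩, by simp⟩
    · rw [Cfsg.Agent.GeoClasses.mem_specialLinear_iff]
      show (F₀.subtype.mapMatrix ((Matrix.SpecialLinearGroup.transvection hij (⟨c, hc⟩ : F₀) :
        Matrix.SpecialLinearGroup ι F₀) : Matrix ι ι F₀)).det = 1
      rw [← RingHom.map_det, Matrix.SpecialLinearGroup.det_coe, map_one]
    · ext a b
      simp [T, Matrix.SpecialLinearGroup.transvection_coe, vecMulVec_apply, Matrix.single, ev, Pi.single_apply,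
        Matrix.one_apply, eq_comm, ite_and]
      split_ifs <;> simp_all
  rcases subfield_dichotomy hr h3 hcard hEl with h | h
  · right
    refine le_antisymm hKS fun y hy => ?_
    have hz := (MulAut.conj P).apply_symm_apply y
    have h1 := h ((hdetc _).1 (hz ▸ hy))
    rw [hM, Subgroup.mem_comap, MulEquiv.coe_toMonoidHom, hz] at h1
    exact h1
  · left
    refine le_antisymm (fun y hy => ⟨?_, hKS hy⟩) hK
    have hz := (MulAut.conj P).apply_symm_apply y
    have h1 := hmemP _ (h (show (MulAut.conj P).symm y ∈ M by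
      rw [hM, Subgroup.mem_comap, MulEquiv.coe_toMonoidHom, hz]; exact hy))
    rwa [hz] at h1

/-- Subfield subgroups of prime index are maximal in `SL(3, F)`. -/
theorem subfield_maximal {F : Type*} [Field F] [Fintype F] (F₀ : Subfield F) (r : ℕ)
    (P : Matrix.GeneralLinearGroup (Fin 3) F) (hr : r.Prime) (hcard : Fintype.card F = Nat.card F₀ ^ r) :
    Cfsg.Geo.IsMaximalIn (Cfsg.Geo.specialLinear (Fin 3) F)
      (Cfsg.Geo.subfieldSubgroup F₀ P ⊓ Cfsg.Geo.specialLinear (Fin 3) F) :=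
  subfieldSubgroup_maximal_three hr (by simp) hcard P

/-- Clause (4) of the list for `SL(3, F)`. -/
theorem subfield_clause {F : Type*} [Field F] [Fintype F] :
    ∀ (F₀ : Subfield F) (r : ℕ) (P : Matrix.GeneralLinearGroup (Fin 3) F), r.Prime →
      Fintype.card F = Nat.card F₀ ^ r → Cfsg.Geo.IsMaximalIn (Cfsg.Geo.specialLinear (Fin 3) F)
        (Cfsg.Geo.subfieldSubgroup F₀ P ⊓ Cfsg.Geo.specialLinear (Fin 3) F) :=
  fun _ _ P hr hc => subfieldSubgroup_maximal_three hr (by simp) hc P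

end Cfsg.Agent.SLThree
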