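import Cfsg.Agent.SLThree.SympCent

/-!
The involution `H` is isolated: otherwise there is a contradiction.
-/

set_option autoImplicit false
set_option linter.unusedSectionVars false
set_option linter.style.haveILetI false

namespace Cfsg.Agent.SLThree.Symp

open Matrix
open scoped MatrixGroups

variable {F : Type*} [Field F] [Fintype F] {R : Root3 F} {X : Subgroup (GL (Fin 3) F)}

/-- An involution of `C_X(H)` other than `H` conjugate to `H`. -/
structure Fused (R : Root3 F) (X : Subgroup (GL (Fin 3) F)) where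
  s : cenH R X
  g : GL (Fin 3) F
  mem : g ∈ X
  eq : g * Root3.gH * g⁻¹ = (s : GL (Fin 3) F)
  ne : (s : GL (Fin 3) F) ≠ Root3.gH

namespace Fused

variable (hc : Cfg R X) (fs : Fused R X)
include hc fs

theorem sq : (fs.s : GL (Fin 3) F) * (fs.s : GL (Fin 3) F) = 1 := by
  rw [← fs.eq, show fs.g * Root3.gH * fs.g⁻¹ * (fs.g * Root3.gH * fs.g⁻¹) =
    fs.g * (Root3.gH * Root3.gH) * fs.g⁻¹ by group, Root3.gH_sq, mul_one, mul_inv_cancel]

theorem ne_one : (fs.s : GL (Fin 3) F) ≠ 1 := by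
  rw [← fs.eq]
  intro h
  have h1 : Root3.gH = (1 : GL (Fin 3) F) :=
    calc Root3.gH = fs.g⁻¹ * (fs.g * Root3.gH * fs.g⁻¹) * fs.g := by group
      _ = 1 := by rw [h]; group
  exact hc.Z_pow_ne_H 0 (by rw [h1, pow_zero])

theorem facts : MarkedFacts (IsMarked (R := R) (X := X)) (bar hc.w1) (bar hc.w2) (bar fs.s) :=
  hc.facts (fs.sq hc) (fs.ne_one hc) fs.ne

/-- No element `λ T` in `X`. -/
theorem no_T {t : GL (Fin 3) F} (htX : t ∈ X) {u : F}
    (ht : (t : Matrix (Fin 3) (Fin 3) F) = u • R.tM) : False := by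
  have hu0 : u ≠ 0 := by
    intro h
    have hd : Matrix.det (t : Matrix (Fin 3) (Fin 3) F) = 1 := hc.det t htX
    rw [ht, h, zero_smul, Matrix.det_zero] at hd
    exact zero_ne_one hd
  have hcm : cMat R.B₀ t = u • !![R.ω, 0, 0; 0, 1, 0; 0, 0, R.ω] := by
    rw [← R.cMat_B₀_T, cMat, cMat, Units.val_mul, Units.val_mul, Units.val_mul, Units.val_mul, ht,
      ← R.val_gT, Matrix.mul_smul, Matrix.smul_mul]
  have htb : t ∈ blk R.B₀ := by rw [mem_blk, hcm]; simp [IsBlock]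
  let d : cenH R X := ⟨t, htX, htb⟩
  have hd3 : bar d ^ 3 = 1 := by
    rw [show bar d ^ 3 = bar (d ^ 3) by rw [pow_succ, pow_two, pow_succ, pow_two, bar_mul, bar_mul]]
    refine hc.bar_of_ker ?_
    obtain ⟨n, -, hn⟩ := R.pow_cube (u ^ 3) (by
      have hdet := hc.det t htX
      rw [ht, Matrix.det_smul, show Matrix.det R.tM = R.ω ^ 2 by
        simp [Root3.tM, Matrix.det_fin_three]; ring, Fintype.card_fin] at hdet
      linear_combination (u ^ 6 * R.ω ^ 4 + u ^ 3 * R.ω ^ 2 + 1) * hdet - u ^ 9 * (R.ω ^ 3 + 1) * R.cube)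
    refine ⟨n, Or.inl (Units.ext ?_)⟩
    rw [R.gZ_pow_val, ← hn]
    show ((t ^ 3 : GL (Fin 3) F) : Matrix (Fin 3) (Fin 3) F) = _
    rw [Units.val_pow_eq_pow_val, ht, smul_pow]
    congr 1
    rw [pow_succ, pow_two]
    ext i j; fin_cases i <;> fin_cases j <;> simp [Root3.tM, Matrix.mul_apply, Fin.sum_univ_three] <;>
      linear_combination R.cube
  obtain ⟨σ, h2, h1, hP, hinv⟩ := (fs.facts hc).invert (bar d) hd3
  obtain ⟨e, rfl, he2, heH⟩ := hc.exists_invol_lift h2 h1 hP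
  have hrel : bar (d * (e * d * e)) = 1 := by
    rw [bar_mul, bar_mul, bar_mul, hinv, mul_inv_cancel]
  obtain ⟨k, hk⟩ := hc.ker_of_bar hrel
  have he : IsBlock (cMat R.B₀ (e : GL (Fin 3) F)) := e.2.2
  set E := cMat R.B₀ (e : GL (Fin 3) F) with hE
  have hE2 : E * E = 1 := by rw [hE, ← cMat_mul, he2, cMat_one]
  obtain ⟨δ, hδ, hrelM⟩ : ∃ δ : F, (δ = 1 ∨ δ = -1) ∧
      cMat R.B₀ t * (E * cMat R.B₀ t * E) =
        R.ω ^ k • !![1, 0, 0; 0, δ, 0; 0, 0, δ] := by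
    have hZ : cMat R.B₀ (R.gZ ^ k) = R.ω ^ k • 1 := by
      rw [Root3.cMat_eq_iff, R.gZ_pow_val, Matrix.smul_mul, Matrix.mul_smul, one_mul, mul_one]
    rcases hk with hk | hk <;>
      have hk' := congrArg (cMat R.B₀) hk <;>
      simp only [Subgroup.coe_mul, cMat_mul, hZ] at hk'
    · exact ⟨1, Or.inl rfl, hk'.trans (by ext i j; fin_cases i <;> fin_cases j <;> simp)⟩
    · exact ⟨-1, Or.inr rfl, hk'.trans (by
        rw [R.cMat_B₀_H, Matrix.smul_mul, one_mul])⟩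
  have hC : cMat R.B₀ t * (E * cMat R.B₀ t) = R.ω ^ k • !![1, 0, 0; 0, δ, 0; 0, 0, δ] * E := by
    rw [← hrelM]; simp only [mul_assoc, hE2, mul_one]
  obtain ⟨a, b, c, d'⟩ := he
  have e00 := congrFun (congrFun hC 0) 0
  have e11 := congrFun (congrFun hC 1) 1
  have e12 := congrFun (congrFun hC 1) 2
  rw [hcm] at e00 e11 e12
  simp [Matrix.mul_apply, Fin.sum_univ_three, a, b, c, d'] at e00 e11 e12
  have hE00 : E 0 0 ≠ 0 := fun h => by
    have := congrFun (congrFun hE2 0) 0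
    simp [Matrix.mul_apply, Fin.sum_univ_three, h, a, b] at this
  have hk1 : u ^ 2 * R.ω ^ 2 = R.ω ^ k := mul_right_cancel₀ hE00 (by linear_combination e00)
  have hu2 : u ^ 2 ≠ 0 := pow_ne_zero 2 hu0
  have h11 : E 1 1 = 0 := by
    by_contra h0
    have : u ^ 2 = u ^ 2 * R.ω ^ 2 * δ := mul_right_cancel₀ h0 (by
      linear_combination e11 - δ * E 1 1 * hk1)
    have h3 : R.ω ^ 2 * δ = 1 := mul_left_cancel₀ hu2 (by linear_combination -this)
    rcases hδ with rfl | rfl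
    · exact R.ne_one (by linear_combination R.cube - R.ω * h3)
    · exact R.ne_zero (by linear_combination h3 + R.eq)
  have h12 : E 1 2 = 0 := by
    by_contra h0
    have : u ^ 2 * R.ω = u ^ 2 * R.ω ^ 2 * δ := mul_right_cancel₀ h0 (by
      linear_combination e12 - δ * E 1 2 * hk1)
    have h3 : R.ω * δ = 1 := mul_left_cancel₀ (mul_ne_zero hu2 R.ne_zero) (by linear_combination -this)
    rcases hδ with rfl | rfl
    · exact R.ne_one (by linear_combination h3)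
    · exact one_ne_zero (α := F) (by linear_combination R.eq + R.ω * h3)
  have hdet : E.det = 0 := by
    simp [Matrix.det_fin_three, h11, h12, a, b, c, d']
  have h1 := congrArg Matrix.det hE2
  rw [Matrix.det_mul, hdet, mul_zero, Matrix.det_one] at h1
  exact zero_ne_one h1

/-- No involution of `X` centralises `X₀ = diag(1, ω, ω²)`. -/
theorem no_invol_comm {t : GL (Fin 3) F} (htX : t ∈ X) (t2 : t * t = 1) (t1 : t ≠ 1)
    (htc : t * R.gX = R.gX * t) : False := by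
  set M := (t : Matrix (Fin 3) (Fin 3) F) with hM
  have hd := fun {i j : Fin 3} (h : i ≠ j) => R.diag_of_commute htc h
  have hMd : M = !![M 0 0, 0, 0; 0, M 1 1, 0; 0, 0, M 2 2] := by
    ext i j; fin_cases i <;> fin_cases j <;> simp <;> exact hd (by decide)
  have hsq : ∀ i, M i i = 1 ∨ M i i = -1 := by
    intro i
    have h := congrArg (fun g : GL (Fin 3) F => (g : Matrix (Fin 3) (Fin 3) F) i i) t2
    rw [Units.val_mul, ← hM, Units.val_one, hMd] at h
    fin_cases i <;> simp [Matrix.mul_apply, Fin.sum_univ_three] at h <;>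
      exact mul_self_eq_one_iff.1 h
  have hdet : M 0 0 * M 1 1 * M 2 2 = 1 := by
    have h := hc.det t htX
    rw [← hM, hMd] at h
    simp [Matrix.det_fin_three] at h
    linear_combination h
  -- conjugate to `diag(1, -1, -1)`
  have hY : ∀ {g : GL (Fin 3) F} {a b c : F}, (g : Matrix (Fin 3) (Fin 3) F) = !![a, 0, 0; 0, b, 0; 0, 0, c] →
      ((Root3.gY * g * Root3.gY⁻¹ : GL (Fin 3) F) : Matrix (Fin 3) (Fin 3) F) = !![c, 0, 0; 0, a, 0; 0, 0, b] := by
    intro g a b c hg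
    rw [Units.val_mul, Units.val_mul, hg,
      show ((Root3.gY⁻¹ : GL (Fin 3) F) : Matrix (Fin 3) (Fin 3) F) = Root3.yM * Root3.yM from rfl,
      Root3.val_gY]
    ext i j; fin_cases i <;> fin_cases j <;> simp [Root3.yM, Matrix.mul_apply, Fin.sum_univ_three]
  obtain ⟨t₀, ht₀X, ht₀⟩ : ∃ t₀ ∈ X, (t₀ : Matrix (Fin 3) (Fin 3) F) = !![1, 0, 0; 0, -1, 0; 0, 0, -1] := by
    have hconj : ∀ g ∈ X, Root3.gY * g * Root3.gY⁻¹ ∈ X := fun g hg =>
      mul_mem (mul_mem hc.hY hg) (inv_mem hc.hY)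
    rcases hsq 0 with h0 | h0 <;> rcases hsq 1 with h1 | h1 <;>
      have h2 := hdet <;> rw [h0, h1] at h2
    · refine absurd (Units.ext ?_) t1
      rw [← hM, hMd, h0, h1, show M 2 2 = 1 by linear_combination h2]
      ext i j; fin_cases i <;> fin_cases j <;> simp
    · refine ⟨t, htX, ?_⟩
      rw [← hM, hMd, h0, h1, show M 2 2 = -1 by linear_combination -h2]
    · refine ⟨_, hconj _ (hconj t htX), hY (hY (g := t) (a := -1) (b := 1) (c := -1) ?_)⟩
      rw [← hM, hMd, h0, h1, show M 2 2 = -1 by linear_combination -h2]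
    · refine ⟨_, hconj t htX, hY (g := t) (a := -1) (b := -1) (c := 1) ?_⟩
      rw [← hM, hMd, h0, h1, show M 2 2 = 1 by linear_combination h2]
  obtain ⟨t₁, ht₁d⟩ : ∃ t : GL (Fin 3) F, t = Root3.gY * t₀ * Root3.gY⁻¹ := ⟨_, rfl⟩
  have ht₁ := hY ht₀
  rw [← ht₁d] at ht₁
  have t₀2 : t₀ * t₀ = 1 := Units.ext (by
    rw [Units.val_mul, ht₀, Units.val_one]
    ext i j; fin_cases i <;> fin_cases j <;> simp [Matrix.mul_apply, Fin.sum_univ_three])
  have ht₀H : t₀ * Root3.gH = Root3.gH * t₀ := Units.ext (by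
    rw [Units.val_mul, Units.val_mul, ht₀, Root3.val_gH]
    ext i j; fin_cases i <;> fin_cases j <;> simp [Root3.hM, Matrix.mul_apply, Fin.sum_univ_three])
  let t₀' : cenH R X := ⟨t₀, mem_cenH.2 ⟨ht₀X, ht₀H⟩⟩
  have hne : t₀ ≠ Root3.gH := fun h => by
    have := congrArg (fun g : GL (Fin 3) F => (g : Matrix (Fin 3) (Fin 3) F) 1 1) h
    simp [ht₀, Root3.val_gH, Root3.hM] at this
  have hne1 : t₀ ≠ 1 := fun h => by
    have := congrArg (fun g : GL (Fin 3) F => (g : Matrix (Fin 3) (Fin 3) F) 1 1) h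
    simp [ht₀] at this
    exact R.two (by linear_combination -this)
  obtain ⟨x, hxX, hx⟩ := hc.conj_H (fs.sq hc) (fs.ne_one hc) fs.ne fs.mem fs.eq
    (t := t₀') t₀2 hne1 hne
  have hcomm0 : ∀ {a : GL (Fin 3) F}, a * t₀ = t₀ * a →
      x⁻¹ * a * x * Root3.gH = Root3.gH * (x⁻¹ * a * x) := by
    intro a ha
    rw [show x⁻¹ * a * x * Root3.gH = x⁻¹ * (a * (x * Root3.gH * x⁻¹)) * x by group, hx]
    show x⁻¹ * (a * t₀) * x = _
    rw [ha, show Root3.gH = x⁻¹ * (x * Root3.gH * x⁻¹) * x by group, hx]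
    show _ = x⁻¹ * t₀ * x * (x⁻¹ * a * x)
    group
  have hX0 : R.gX * t₀ = t₀ * R.gX := Units.ext (by
    rw [Units.val_mul, Units.val_mul, ht₀, Root3.val_gX]
    ext i j; fin_cases i <;> fin_cases j <;> simp [Root3.xM, Matrix.mul_apply, Fin.sum_univ_three])
  have h10 : t₁ * t₀ = t₀ * t₁ := Units.ext (by
    rw [Units.val_mul, Units.val_mul, ht₀, ht₁]
    ext i j; fin_cases i <;> fin_cases j <;> simp [Matrix.mul_apply, Fin.sum_univ_three])
  have hX1 : R.gX * t₁ = t₁ * R.gX := Units.ext (by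
    rw [Units.val_mul, Units.val_mul, ht₁, Root3.val_gX]
    ext i j; fin_cases i <;> fin_cases j <;> simp [Root3.xM, Matrix.mul_apply, Fin.sum_univ_three])
  have ht₁X : t₁ ∈ X := ht₁d ▸ mul_mem (mul_mem hc.hY ht₀X) (inv_mem hc.hY)
  let X' : cenH R X := ⟨x⁻¹ * R.gX * x,
    mem_cenH.2 ⟨mul_mem (mul_mem (inv_mem hxX) hc.hX) hxX, hcomm0 hX0⟩⟩
  let T' : cenH R X := ⟨x⁻¹ * t₁ * x,
    mem_cenH.2 ⟨mul_mem (mul_mem (inv_mem hxX) ht₁X) hxX, hcomm0 h10⟩⟩
  have T2 : (T' : GL (Fin 3) F) * (T' : GL (Fin 3) F) = 1 := by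
    show x⁻¹ * t₁ * x * (x⁻¹ * t₁ * x) = 1
    rw [show x⁻¹ * t₁ * x * (x⁻¹ * t₁ * x) = x⁻¹ * (t₁ * t₁) * x by group, ht₁d,
      show Root3.gY * t₀ * Root3.gY⁻¹ * (Root3.gY * t₀ * Root3.gY⁻¹) =
        Root3.gY * (t₀ * t₀) * Root3.gY⁻¹ by group, t₀2]
    group
  have T1 : (T' : GL (Fin 3) F) ≠ 1 := fun h => by
    have h' : t₁ = 1 := calc t₁ = x * (x⁻¹ * t₁ * x) * x⁻¹ := by group
      _ = 1 := by rw [show x⁻¹ * t₁ * x = 1 from h]; group
    have := congrArg (fun g : GL (Fin 3) F => (g : Matrix (Fin 3) (Fin 3) F) 0 0) h'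
    simp [ht₁] at this
    exact R.two (by linear_combination -this)
  have TH : (T' : GL (Fin 3) F) ≠ Root3.gH := fun h => by
    have h' : t₁ = t₀ := calc t₁ = x * (x⁻¹ * t₁ * x) * x⁻¹ := by group
      _ = t₀ := by rw [show x⁻¹ * t₁ * x = Root3.gH from h]; exact hx
    have := congrArg (fun g : GL (Fin 3) F => (g : Matrix (Fin 3) (Fin 3) F) 0 0) h'
    simp [ht₁, ht₀] at this
    exact R.two (by linear_combination -this)
  have hXT : X' * T' = T' * X' := Subtype.ext (by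
    show x⁻¹ * R.gX * x * (x⁻¹ * t₁ * x) = x⁻¹ * t₁ * x * (x⁻¹ * R.gX * x)
    rw [show x⁻¹ * R.gX * x * (x⁻¹ * t₁ * x) = x⁻¹ * (R.gX * t₁) * x by group, hX1]
    group)
  have hsqX := (hc.facts T2 T1 TH).cent (bar X') (by rw [← bar_mul, ← bar_mul, hXT])
  rw [pow_two, ← bar_mul] at hsqX
  obtain ⟨k, hk⟩ := hc.ker_of_bar hsqX
  have hX2 : R.gX * R.gX = x * (x⁻¹ * R.gX * x * (x⁻¹ * R.gX * x)) * x⁻¹ := by group
  rw [Subgroup.coe_mul] at hk
  rcases hk with hk | hk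
  · rw [show x⁻¹ * R.gX * x * (x⁻¹ * R.gX * x) = R.gZ ^ k from hk, ← R.zpow_comm,
      mul_inv_cancel_right] at hX2
    have h1 := congrArg (fun g : GL (Fin 3) F => (g : Matrix (Fin 3) (Fin 3) F) 0 0) hX2
    have h2 := congrArg (fun g : GL (Fin 3) F => (g : Matrix (Fin 3) (Fin 3) F) 1 1) hX2
    simp [R.gZ_pow_val, Root3.val_gX, Root3.xM, Matrix.mul_apply, Fin.sum_univ_three] at h1 h2
    rw [← h1] at h2
    exact R.ne_one (by linear_combination R.cube - R.ω * h2)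
  · rw [show x⁻¹ * R.gX * x * (x⁻¹ * R.gX * x) = R.gZ ^ k * Root3.gH from hk,
      show x * (R.gZ ^ k * Root3.gH) * x⁻¹ = x * R.gZ ^ k * (Root3.gH * x⁻¹) by group, ← R.zpow_comm,
      show R.gZ ^ k * x * (Root3.gH * x⁻¹) = R.gZ ^ k * (x * Root3.gH * x⁻¹) by group, hx] at hX2
    have h2 := congrArg (fun g : GL (Fin 3) F => (g : Matrix (Fin 3) (Fin 3) F) 1 1) hX2
    have h3 := congrArg (fun g : GL (Fin 3) F => (g : Matrix (Fin 3) (Fin 3) F) 2 2) hX2
    simp [R.gZ_pow_val, t₀', ht₀, Root3.val_gX, Root3.xM, Matrix.mul_apply, Fin.sum_univ_three] at h2 h3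
    rw [← h2] at h3
    exact R.ne_one (by linear_combination -R.ω ^ 2 * h3 + (R.ω ^ 3 - R.ω + 1) * R.cube)

/-- An involution inverting `X₀` modulo `Z` is a conjugate of `H` by an element fixing `X₀ Z`. -/
theorem inverter {t : GL (Fin 3) F} (htX : t ∈ X) (t2 : t * t = 1) {k : ℕ}
    (ht : t * R.gX * t = R.gZ ^ k * R.gX ^ 2) :
    ∃ g ∈ X, g * Root3.gH * g⁻¹ = t ∧ ∃ i, g * R.gX * g⁻¹ = R.gZ ^ i * R.gX := by
  classical
  set y := t * Root3.gH with hy
  have hyX : y ∈ X := mul_mem htX hc.gH_mem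
  have hfix : ∀ n : ℕ, ∃ i, y ^ n * R.gX * (y ^ n)⁻¹ = R.gZ ^ i * R.gX := by
    intro n
    induction n with
    | zero => exact ⟨0, by simp⟩
    | succ n ih =>
      obtain ⟨i, hi⟩ := ih
      have hti : t⁻¹ = t := inv_eq_of_mul_eq_one_right t2
      have hy1 : y * R.gX * y⁻¹ = R.gZ ^ (2 * k) * R.gX := by
        rw [hy, show t * Root3.gH * R.gX * (t * Root3.gH)⁻¹ =
          t * (Root3.gH * R.gX * Root3.gH⁻¹) * t⁻¹ by group, R.conj_gH_X, ← conj_pow, hti, ht,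
          (show Commute (R.gZ ^ k) (R.gX ^ 2) from R.zpow_comm k _).mul_pow, ← pow_mul, ← pow_mul,
          mul_comm k 2, show 2 * 2 = 3 + 1 from rfl, pow_add R.gX, R.gX_cube, one_mul, pow_one]
      refine ⟨i + 2 * k, ?_⟩
      rw [pow_succ', show y * y ^ n * R.gX * (y * y ^ n)⁻¹ = y * (y ^ n * R.gX * (y ^ n)⁻¹) * y⁻¹ by group,
        hi, ← mul_assoc y, ← R.zpow_comm, mul_assoc, mul_assoc, ← mul_assoc y, hy1, ← mul_assoc, ← pow_add]
  have hH2 : (Root3.gH : GL (Fin 3) F)⁻¹ = Root3.gH := inv_eq_of_mul_eq_one_right Root3.gH_sq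
  have hinvy : Root3.gH * y * Root3.gH = y⁻¹ := by
    rw [hy, _root_.mul_inv_rev, inv_eq_of_mul_eq_one_right t2, hH2, mul_assoc, mul_assoc t, Root3.gH_sq,
      mul_one]
  have hodd : Odd (orderOf y) := by
    by_contra he
    rw [Nat.not_odd_iff_even] at he
    obtain ⟨m, hm⟩ := he
    have hpos := orderOf_pos y
    set v := y ^ m with hv
    have v2 : v * v = 1 := by rw [hv, ← pow_add, ← hm, pow_orderOf_eq_one]
    have v1 : v ≠ 1 := pow_ne_one_of_lt_orderOf (by omega) (by omega)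
    obtain ⟨i, hi⟩ := hfix m
    have hvi : v⁻¹ = v := inv_eq_of_mul_eq_one_right v2
    rw [← hv, hvi] at hi
    have h2 : R.gX = R.gZ ^ (i + i) * R.gX := by
      calc R.gX = (v * v) * R.gX * (v * v) := by rw [v2, one_mul, mul_one]
        _ = v * (v * R.gX * v) * v := by group
        _ = v * (R.gZ ^ i * R.gX) * v := by rw [hi]
        _ = R.gZ ^ i * (v * R.gX * v) := by rw [← mul_assoc v, ← R.zpow_comm]; group
        _ = _ := by rw [hi, ← mul_assoc, ← pow_add]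
    have hi3 := hc.Z_pow_eq_one (right_eq_mul.1 h2)
    have hi0 : R.gZ ^ i = 1 := by
      rw [← Nat.div_add_mod i 3, show i % 3 = 0 by omega, add_zero, pow_mul, R.gZ_cube, one_pow]
    rw [hi0, one_mul] at hi
    refine fs.no_invol_comm hc (pow_mem hyX m) v2 v1 ?_
    calc v * R.gX = v * R.gX * (v * v) := by rw [v2, mul_one]
      _ = R.gX * v := by rw [← mul_assoc, hi]
  obtain ⟨m, hm⟩ := hodd
  refine ⟨y ^ (m + 1), pow_mem hyX _, ?_, hfix _⟩
  have hHy : Root3.gH * (y ^ (m + 1))⁻¹ = y ^ (m + 1) * Root3.gH := by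
    have h := congrArg (fun z : GL (Fin 3) F => z ^ (m + 1)) hinvy
    simp only [inv_pow] at h
    rw [← h]
    have hc' : ∀ n : ℕ, (Root3.gH * y * Root3.gH) ^ n = Root3.gH * y ^ n * Root3.gH := fun n => by
      induction n with
      | zero => simp [Root3.gH_sq]
      | succ n ih =>
        rw [pow_succ, ih, pow_succ, show Root3.gH * y ^ n * Root3.gH * (Root3.gH * y * Root3.gH) =
          Root3.gH * y ^ n * (Root3.gH * Root3.gH) * (y * Root3.gH) by group, Root3.gH_sq]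
        group
    rw [hc', ← mul_assoc, ← mul_assoc, Root3.gH_sq, one_mul]
  rw [mul_assoc, hHy, ← mul_assoc, ← pow_add, show m + 1 + (m + 1) = (2 * m + 1) + 1 by omega, pow_succ,
    ← hm, pow_orderOf_eq_one, one_mul, hy, mul_assoc, Root3.gH_sq, mul_one]

/-- `Rs` is a maximal 3-subgroup of `X`. -/
theorem sylow_le (P : Subgroup (GL (Fin 3) F)) (hP : IsPGroup 3 P) (hPX : P ≤ X) (hRP : R.Rs ≤ P) :
    P ≤ R.Rs := by
  classical
  by_contra hne
  haveI : Fact (Nat.Prime 3) := ⟨Nat.prime_three⟩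
  haveI : Group.IsNilpotent P := hP.isNilpotent
  have hlt : R.Rs.subgroupOf P < ⊤ := by
    rw [lt_top_iff_ne_top]
    intro h
    exact hne fun g hg => Subgroup.mem_subgroupOf.1 (h ▸ Subgroup.mem_top (⟨g, hg⟩ : P))
  obtain ⟨g, hgN, hgR⟩ := SetLike.exists_of_lt
    (Group.normalizerCondition_of_isNilpotent (G := P) _ hlt)
  have hgR' : (g : GL (Fin 3) F) ∉ R.Rs := fun h => hgR (Subgroup.mem_subgroupOf.2 h)
  have hconj : ∀ r ∈ R.Rs, (g : GL (Fin 3) F) * r * (g : GL (Fin 3) F)⁻¹ ∈ R.Rs := fun r hr => by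
    simpa [Subgroup.mem_subgroupOf] using
      (Subgroup.mem_normalizer_iff.1 hgN ⟨r, hRP hr⟩).1 (Subgroup.mem_subgroupOf.2 hr)
  obtain ⟨q, hq, hq4, r, hr, h⟩ := R.decomp (hc.det _ (hPX g.2)) hconj
  rcases h with h | ⟨t, u, m, hm, htv, h⟩
  · have hqP : q ∈ P := by
      have : q = (g : GL (Fin 3) F) * r⁻¹ := by rw [h, mul_inv_cancel_right]
      rw [this]; exact mul_mem g.2 (inv_mem (hRP hr))
    obtain ⟨k, hk⟩ := hP ⟨q, hqP⟩
    have hk' : q ^ 3 ^ k = 1 := congrArg Subtype.val hk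
    have hq1 : q = 1 := orderOf_eq_one_iff.1 (Nat.eq_one_of_dvd_coprimes
      ((Nat.Coprime.pow_left k (show Nat.Coprime 3 4 by norm_num)))
      (orderOf_dvd_of_pow_eq_one hk') (orderOf_dvd_of_pow_eq_one hq4))
    rw [hq1, one_mul] at h
    exact hgR' (h ▸ hr)
  · have htX : t ∈ X := by
      have : t = r⁻¹ * (q⁻¹ * g) := by rw [h]; group
      rw [this]
      exact mul_mem (inv_mem (hc.Rs_le hr)) (mul_mem (inv_mem (hc.Qs_le hq)) (hPX g.2))
    rcases hm with rfl | rfl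
    · exact fs.no_T hc htX (by rw [htv, pow_one])
    · refine fs.no_T hc (pow_mem htX 2) (u := u ^ 2) ?_
      rw [Units.val_pow_eq_pow_val, htv, smul_pow, ← pow_mul]
      congr 1
      rw [show 2 * 2 = 3 + 1 from rfl, pow_succ, pow_succ, pow_two]
      ext i j; fin_cases i <;> fin_cases j <;> simp [Root3.tM, Matrix.mul_apply, Fin.sum_univ_three] <;>
        linear_combination R.ω * R.cube

end Fused

end Cfsg.Agent.SLThree.Symp
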