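import Cfsg.Agent.SLThree.SympSetup

/-!
`C_X(H)` modulo `Z⟨H⟩`: marked elements, the unmarked involutions and what follows from them.
-/

set_option autoImplicit false
set_option linter.unusedSectionVars false
set_option linter.style.haveILetI false

namespace Cfsg.Agent.SLThree.Symp

open Matrix
open scoped MatrixGroups

variable {F : Type*} [Field F] [Fintype F] {R : Root3 F} {X : Subgroup (GL (Fin 3) F)}

/-- `C_X(H)`. -/
def cenH (R : Root3 F) (X : Subgroup (GL (Fin 3) F)) : Subgroup (GL (Fin 3) F) := X ⊓ blk R.B₀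

/-- The action of `C_X(H)` on the plane. -/
def pi0 (R : Root3 F) (X : Subgroup (GL (Fin 3) F)) : cenH R X →* PGL(2, F) :=
  (proj R.B₀).comp
    { toFun := fun d => ⟨(d : GL (Fin 3) F), d.2.2⟩
      map_one' := rfl
      map_mul' := fun _ _ => rfl }

/-- The image of `C_X(H)`. -/
abbrev img (R : Root3 F) (X : Subgroup (GL (Fin 3) F)) : Subgroup PGL(2, F) := (pi0 R X).range

/-- The image of an element. -/
def bar (d : cenH R X) : img R X := (pi0 R X).rangeRestrict d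

/-- Marked elements: images of `d` with `d² ∈ H Z`. -/
def IsMarked (x : img R X) : Prop :=
  ∃ d : cenH R X, bar d = x ∧ ∃ k, (d : GL (Fin 3) F) * (d : GL (Fin 3) F) = R.gZ ^ k * Root3.gH

theorem mem_cenH {g : GL (Fin 3) F} : g ∈ cenH R X ↔ g ∈ X ∧ g * Root3.gH = Root3.gH * g := by
  rw [cenH, Subgroup.mem_inf, R.commute_gH_iff]

theorem bar_mul (d d' : cenH R X) : bar (d * d') = bar d * bar d' :=
  map_mul (pi0 R X).rangeRestrict d d'
theorem bar_inv (d : cenH R X) : bar d⁻¹ = (bar d)⁻¹ := map_inv (pi0 R X).rangeRestrict d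
theorem bar_one : bar (1 : cenH R X) = 1 := map_one (pi0 R X).rangeRestrict

instance : Finite (img R X) := Finite.of_surjective _ (pi0 R X).rangeRestrict_surjective

theorem bar_surj (x : img R X) : ∃ d, bar d = x := MonoidHom.rangeRestrict_surjective _ x

namespace Cfg

variable (hc : Cfg R X)
include hc

theorem comm_gH (d : cenH R X) : (d : GL (Fin 3) F) * Root3.gH = Root3.gH * (d : GL (Fin 3) F) := (mem_cenH.1 d.2).2

theorem ker_of_bar {d : cenH R X} (h : bar d = 1) : Ker R (d : GL (Fin 3) F) :=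
  hc.ker_of_proj d.2.1 d.2.2 (congrArg Subtype.val h)

theorem bar_of_ker {d : cenH R X} (h : Ker R (d : GL (Fin 3) F)) : bar d = 1 := by
  refine Subtype.ext ?_
  show proj R.B₀ _ = 1
  rw [proj_eq_one]
  have hZ : ∀ k, cMat R.B₀ (R.gZ ^ k) = R.ω ^ k • 1 := fun k => by
    rw [Root3.cMat_eq_iff, R.gZ_pow_val, Matrix.smul_mul, Matrix.mul_smul, one_mul, mul_one]
  obtain ⟨k, hk | hk⟩ := h
  · simp only [MonoidHom.coe_mk, OneHom.coe_mk]
    rw [hk, hZ]; simp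
  · simp only [MonoidHom.coe_mk, OneHom.coe_mk]
    rw [hk, cMat_mul, hZ, R.cMat_B₀_H]
    simp [Matrix.mul_apply, Fin.sum_univ_three]

theorem Z_pow_mul_H_sq (k : ℕ) :
    R.gZ ^ k * Root3.gH * (R.gZ ^ k * Root3.gH) = R.gZ ^ (k + k) := by
  rw [mul_assoc, ← mul_assoc Root3.gH, ← R.zpow_comm, mul_assoc, Root3.gH_sq, mul_one, pow_add]

theorem Z_pow_eq_one {k : ℕ} (h : R.gZ ^ k = 1) : k % 3 = 0 := by
  have h' : R.ω ^ (k % 3) = 1 := by
    have := congrArg (fun g : GL (Fin 3) F => (g : Matrix (Fin 3) (Fin 3) F) 0 0) h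
    simp [R.gZ_pow_val] at this
    rwa [← Nat.div_add_mod k 3, pow_add, pow_mul, R.cube, one_pow, one_mul] at this
  have h3 : k % 3 < 3 := Nat.mod_lt _ (by norm_num)
  generalize k % 3 = m at h' h3 ⊢
  interval_cases m
  · rfl
  · exact absurd (by simpa using h') R.ne_one
  · exact absurd (by linear_combination R.cube - R.ω * h') R.ne_one

theorem Z_pow_ne_H (k : ℕ) : R.gZ ^ k ≠ Root3.gH := by
  intro h
  have := congrArg (fun g : GL (Fin 3) F => (g : Matrix (Fin 3) (Fin 3) F) 1 2) h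
  simp [R.gZ_pow_val, Root3.val_gH, Root3.hM] at this

theorem Z_pow_mul_H_ne (k : ℕ) : R.gZ ^ k * Root3.gH ≠ 1 := fun h => by
  have h2 : Root3.gH = (R.gZ ^ k)⁻¹ := (eq_inv_of_mul_eq_one_right h)
  have h3 : R.gZ ^ (2 * k) = (R.gZ ^ k)⁻¹ := eq_inv_of_mul_eq_one_left (by
    rw [← pow_add, show 2 * k + k = 3 * k by ring, pow_mul, R.gZ_cube, one_pow])
  exact hc.Z_pow_ne_H (2 * k) (h3.trans h2.symm)

/-- An element of `Z⟨H⟩` whose square is one. -/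
theorem ker_sq {g : GL (Fin 3) F} (h : Ker R g) (h2 : g * g = 1) : g = 1 ∨ g = Root3.gH := by
  obtain ⟨k, hk | hk⟩ := h
  all_goals
    have h3 : k % 3 = 0 := by
      have : R.gZ ^ (k + k) = 1 := by
        rw [← h2, hk]
        first | exact pow_add _ _ _ | exact (hc.Z_pow_mul_H_sq k).symm
      have := hc.Z_pow_eq_one this
      omega
    have hk0 : R.gZ ^ k = 1 := by
      rw [← Nat.div_add_mod k 3, h3, add_zero, pow_mul, R.gZ_cube, one_pow]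
    rw [hk0] at hk
  · exact Or.inl hk
  · exact Or.inr (by rw [hk, one_mul])

/-- A unmarked involution lifts to an involution. -/
theorem exists_invol_lift {x : img R X} (h2 : x ^ 2 = 1) (h1 : x ≠ 1) (hP : ¬ IsMarked x) :
    ∃ d : cenH R X, bar d = x ∧ (d : GL (Fin 3) F) * (d : GL (Fin 3) F) = 1 ∧ (d : GL (Fin 3) F) ≠ Root3.gH := by
  obtain ⟨d, rfl⟩ := bar_surj x
  obtain ⟨k, hk | hk⟩ := hc.ker_of_bar (d := d * d) (by rw [bar_mul, ← pow_two, h2])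
  · have hz : R.gZ ∈ cenH R X := mem_cenH.2 ⟨hc.gZ_mem, R.gZ_comm _⟩
    have hb : bar ((⟨R.gZ, hz⟩ : cenH R X) ^ k * d) = bar d := by
      rw [bar_mul, hc.bar_of_ker (d := (⟨R.gZ, hz⟩ : cenH R X) ^ k)
        ⟨k, Or.inl (by rw [Subgroup.coe_pow])⟩, one_mul]
    refine ⟨(⟨R.gZ, hz⟩ : cenH R X) ^ k * d, hb, ?_, fun h => ?_⟩
    · rw [Subgroup.coe_mul, Subgroup.coe_pow]
      rw [Subgroup.coe_mul] at hk
      rw [mul_assoc, ← mul_assoc (d : GL (Fin 3) F), ← R.zpow_comm, mul_assoc, hk, ← pow_add,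
        ← pow_add, show k + (k + k) = 3 * k by ring, pow_mul, R.gZ_cube, one_pow]
    · exact h1 (hb.symm.trans (hc.bar_of_ker ⟨0, Or.inr (by rw [h, pow_zero, one_mul])⟩))
  · exact absurd ⟨d, rfl, k, hk⟩ hP

/-- An involution other than `H` is unmarked. -/
theorem invol_facts {s : cenH R X} (h2 : (s : GL (Fin 3) F) * (s : GL (Fin 3) F) = 1) (h1 : (s : GL (Fin 3) F) ≠ 1)
    (hH : (s : GL (Fin 3) F) ≠ Root3.gH) : bar s ^ 2 = 1 ∧ bar s ≠ 1 ∧ ¬ IsMarked (bar s) := by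
  refine ⟨?_, fun h => (hc.ker_sq (hc.ker_of_bar h) h2).elim h1 hH, ?_⟩
  · rw [pow_two, ← bar_mul, show s * s = 1 from Subtype.ext h2, bar_one]
  · rintro ⟨d, hd, k, hk⟩
    obtain ⟨j, hj⟩ := hc.ker_of_bar (d := s⁻¹ * d) (by rw [bar_mul, hd, bar_inv, inv_mul_cancel])
    rw [Subgroup.coe_mul, Subgroup.coe_inv, inv_mul_eq_iff_eq_mul, inv_mul_eq_iff_eq_mul] at hj
    have key : ∀ (i : ℕ) (e : GL (Fin 3) F), e * e = R.gZ ^ (i + i) →
        (s : GL (Fin 3) F) * e = e * (s : GL (Fin 3) F) → (d : GL (Fin 3) F) = (s : GL (Fin 3) F) * e → False := by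
      intro i e he hse hde
      rw [hde, show (s : GL (Fin 3) F) * e * (s * e) = s * (e * s) * e by group, ← hse, ← mul_assoc,
        h2, one_mul, he] at hk
      refine hc.Z_pow_mul_H_ne (k + 2 * (i + i)) ?_
      rw [pow_add, mul_assoc, R.zpow_comm (2 * (i + i)), ← mul_assoc, ← hk, ← pow_add,
        show i + i + 2 * (i + i) = 3 * (i + i) by ring, pow_mul, R.gZ_cube, one_pow]
    rcases hj with hj | hj
    · exact key j _ (pow_add _ _ _).symm (R.zpow_comm j _).symm hj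
    · exact key j _ (hc.Z_pow_mul_H_sq j) (by
        rw [← mul_assoc, ← R.zpow_comm, mul_assoc, hc.comm_gH s, mul_assoc]) hj

theorem gW_mem : R.gW₁ ∈ cenH R X ∧ R.gW₂ ∈ cenH R X :=
  ⟨mem_cenH.2 ⟨hc.hW₁, R.gH_gW₁.symm⟩, mem_cenH.2 ⟨hc.hW₂, R.gH_gW₂.symm⟩⟩

/-- `W₁` in `C_X(H)`. -/
def w1 : cenH R X := ⟨R.gW₁, hc.gW_mem.1⟩

/-- `W₂` in `C_X(H)`. -/
def w2 : cenH R X := ⟨R.gW₂, hc.gW_mem.2⟩

theorem marked : Marked (IsMarked (R := R) (X := X)) (bar hc.w1) (bar hc.w2) := by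
  have e12 : R.gW₁ * R.gW₂ * (R.gW₁ * R.gW₂) = Root3.gH := by
    rw [show R.gW₁ * R.gW₂ * (R.gW₁ * R.gW₂) = R.gW₁ * R.gW₂ * R.gW₁ * R.gW₂ by group]
    nth_rw 1 [R.gW₁_gW₂]
    rw [show Root3.gH * (R.gW₂ * R.gW₁) * R.gW₁ * R.gW₂ =
      Root3.gH * (R.gW₂ * (R.gW₁ * R.gW₁) * R.gW₂) by group,
      R.gW₁_sq, ← R.gH_gW₂, mul_assoc Root3.gH R.gW₂ R.gW₂, R.gW₂_sq, Root3.gH_sq, mul_one]
  refine ⟨?_, ?_, ⟨hc.w1, rfl, 0, by simpa [w1] using R.gW₁_sq⟩,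
    ⟨hc.w2, rfl, 0, by simpa [w2] using R.gW₂_sq⟩,
    ⟨hc.w1 * hc.w2, bar_mul _ _, 0, by simpa [w1, w2] using e12⟩, ?_, ?_⟩
  · intro g x ⟨d, hd, k, hk⟩
    obtain ⟨e, rfl⟩ := bar_surj g
    refine ⟨e * d * e⁻¹, by rw [bar_mul, bar_mul, hd, bar_inv], k, ?_⟩
    simp only [Subgroup.coe_mul, Subgroup.coe_inv]
    rw [show (e : GL (Fin 3) F) * d * (e : GL (Fin 3) F)⁻¹ * (e * d * (e : GL (Fin 3) F)⁻¹) =
      e * ((d : GL (Fin 3) F) * (d : GL (Fin 3) F)) * (e : GL (Fin 3) F)⁻¹ by group, hk, ← mul_assoc,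
      ← R.zpow_comm, mul_assoc (R.gZ ^ k), mul_assoc, hc.comm_gH e, mul_inv_cancel_right]
  · rintro x ⟨d, rfl, k, hk⟩
    refine ⟨?_, fun h => ?_⟩
    · rw [pow_two, ← bar_mul]; exact hc.bar_of_ker ⟨k, Or.inr hk⟩
    · obtain ⟨j, hj | hj⟩ := hc.ker_of_bar h
      all_goals rw [hj] at hk
      · refine hc.Z_pow_mul_H_ne (k + 2 * (j + j)) ?_
        rw [pow_add, mul_assoc, R.zpow_comm (2 * (j + j)), ← mul_assoc, ← hk, ← pow_add, ← pow_add,
          show j + j + 2 * (j + j) = 3 * (j + j) by ring, pow_mul, R.gZ_cube, one_pow]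
      · rw [hc.Z_pow_mul_H_sq] at hk
        refine hc.Z_pow_mul_H_ne (k + 2 * (j + j)) ?_
        rw [pow_add, mul_assoc, R.zpow_comm (2 * (j + j)), ← mul_assoc, ← hk, ← pow_add,
          show j + j + 2 * (j + j) = 3 * (j + j) by ring, pow_mul, R.gZ_cube, one_pow]
  · rw [← bar_mul, ← bar_mul]
    have hH : Root3.gH ∈ cenH R X := mem_cenH.2 ⟨hc.gH_mem, rfl⟩
    rw [show hc.w1 * hc.w2 = (⟨Root3.gH, hH⟩ : cenH R X) * (hc.w2 * hc.w1) from Subtype.ext R.gW₁_gW₂,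
      bar_mul, hc.bar_of_ker (d := (⟨Root3.gH, hH⟩ : cenH R X)) ⟨0, Or.inr (by simp)⟩, one_mul]
  · intro h
    have h' : proj R.B₀ _ = proj R.B₀ _ := congrArg Subtype.val h
    rw [proj_eq_proj] at h'
    obtain ⟨k, -, hk⟩ := h'
    simp only [w1, w2, R.cMat_B₀_W₁, R.cMat_B₀_W₂] at hk
    have e00 := congrFun (congrFun hk 0) 0
    have e10 := congrFun (congrFun hk 1) 0
    simp [lowM, R.cMat_B₀_W₁, R.cMat_B₀_W₂] at e00 e10
    have hr : R.r ≠ 0 := fun h0 => by have := R.r_sq; rw [h0] at this; simp at this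
    have hk1 : k = 1 := mul_right_cancel₀ hr (by linear_combination e00)
    rw [hk1, one_mul] at e10
    exact R.ne_one (mul_left_cancel₀ hr (by linear_combination -e10))

theorem rot : Rot (img R X) := by
  have h := rot_stab R.two hc.nt R.B₀
  have heq : img R X = (X.subgroupOf (blk R.B₀)).map (proj R.B₀) := by
    ext x
    constructor
    · rintro ⟨d, rfl⟩
      exact ⟨⟨d.1, d.2.2⟩, Subgroup.mem_subgroupOf.2 d.2.1, rfl⟩
    · rintro ⟨d, hd, rfl⟩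
      exact ⟨⟨d, Subgroup.mem_subgroupOf.1 hd, d.2⟩, rfl⟩
  rw [heq]; exact h

theorem facts {s : cenH R X} (h2 : (s : GL (Fin 3) F) * (s : GL (Fin 3) F) = 1) (h1 : (s : GL (Fin 3) F) ≠ 1)
    (hH : (s : GL (Fin 3) F) ≠ Root3.gH) :
    MarkedFacts (IsMarked (R := R) (X := X)) (bar hc.w1) (bar hc.w2) (bar s) := by
  obtain ⟨a, b, c⟩ := hc.invol_facts h2 h1 hH
  exact hc.rot.markedFacts hc.marked a b c

/-- Some element of `Q` moves `s` to `sH`. -/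
theorem exists_switch {s : cenH R X} (h2 : (s : GL (Fin 3) F) * (s : GL (Fin 3) F) = 1)
    (h1 : (s : GL (Fin 3) F) ≠ 1) (hH : (s : GL (Fin 3) F) ≠ Root3.gH) :
    ∃ w : cenH R X, (w : GL (Fin 3) F) ∈ R.Qs ∧ (w : GL (Fin 3) F) * (w : GL (Fin 3) F) = Root3.gH ∧
      (w : GL (Fin 3) F) * (s : GL (Fin 3) F) * (w : GL (Fin 3) F)⁻¹ = (s : GL (Fin 3) F) * Root3.gH ∧
      (bar w) * bar s = bar s * bar w := by
  have hF := hc.facts h2 h1 hH
  obtain ⟨c, hcc, hcs⟩ := hF.exists_comm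
  obtain ⟨w, hwQ, hw2, rfl⟩ : ∃ w : cenH R X, (w : GL (Fin 3) F) ∈ R.Qs ∧
      (w : GL (Fin 3) F) * (w : GL (Fin 3) F) = Root3.gH ∧ bar w = c := by
    rcases hcc with rfl | rfl | rfl
    · exact ⟨hc.w1, R.gW₁_mem_Qs, R.gW₁_sq, rfl⟩
    · exact ⟨hc.w2, R.gW₂_mem_Qs, R.gW₂_sq, rfl⟩
    · refine ⟨hc.w1 * hc.w2, mul_mem R.gW₁_mem_Qs R.gW₂_mem_Qs, ?_, bar_mul _ _⟩
      obtain ⟨-, hinv, -, -, -, -, -⟩ := hc.marked
      show R.gW₁ * R.gW₂ * (R.gW₁ * R.gW₂) = Root3.gH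
      rw [show R.gW₁ * R.gW₂ * (R.gW₁ * R.gW₂) = R.gW₁ * R.gW₂ * R.gW₁ * R.gW₂ by group]
      nth_rw 1 [R.gW₁_gW₂]
      rw [show Root3.gH * (R.gW₂ * R.gW₁) * R.gW₁ * R.gW₂ =
        Root3.gH * (R.gW₂ * (R.gW₁ * R.gW₁) * R.gW₂) by group,
        R.gW₁_sq, ← R.gH_gW₂, mul_assoc Root3.gH R.gW₂ R.gW₂, R.gW₂_sq, Root3.gH_sq, mul_one]
  refine ⟨w, hwQ, hw2, ?_, hcs⟩
  obtain ⟨j, hj⟩ := hc.ker_of_bar (d := s⁻¹ * (w * s * w⁻¹)) (by
    rw [bar_mul, bar_mul, bar_mul, bar_inv, bar_inv, hcs, mul_inv_cancel_right, inv_mul_cancel])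
  simp only [Subgroup.coe_mul, Subgroup.coe_inv, inv_mul_eq_iff_eq_mul] at hj
  have hsq : ((w : GL (Fin 3) F) * (s : GL (Fin 3) F) * (w : GL (Fin 3) F)⁻¹) *
      (w * s * (w : GL (Fin 3) F)⁻¹) = 1 := by
    rw [show (w : GL (Fin 3) F) * (s : GL (Fin 3) F) * (w : GL (Fin 3) F)⁻¹ * (w * s * (w : GL (Fin 3) F)⁻¹) =
      w * ((s : GL (Fin 3) F) * (s : GL (Fin 3) F)) * (w : GL (Fin 3) F)⁻¹ by group, h2, mul_one, mul_inv_cancel]
  have hzero : ∀ (e : GL (Fin 3) F), (s : GL (Fin 3) F) * e = e * (s : GL (Fin 3) F) →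
      (w : GL (Fin 3) F) * (s : GL (Fin 3) F) * (w : GL (Fin 3) F)⁻¹ = s * e → e * e = 1 := by
    intro e hse hwe
    rw [hwe, show (s : GL (Fin 3) F) * e * (s * e) = s * (e * s) * e by group, ← hse, ← mul_assoc, h2,
      one_mul] at hsq
    exact hsq
  rcases hj with hj | hj
  · exfalso
    have h0 := hzero _ (R.zpow_comm j _).symm hj
    rcases hc.ker_sq ⟨j, Or.inl rfl⟩ h0 with h | h
    · rw [h, mul_one, mul_inv_eq_iff_eq_mul] at hj
      have hws : IsMarked (bar (w * s)) := by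
        refine ⟨w * s, rfl, 0, ?_⟩
        rw [Subgroup.coe_mul, show (w : GL (Fin 3) F) * (s : GL (Fin 3) F) * ((w : GL (Fin 3) F) *
          (s : GL (Fin 3) F)) = (w : GL (Fin 3) F) * ((s : GL (Fin 3) F) * (w : GL (Fin 3) F)) *
            (s : GL (Fin 3) F) by group, ← hj,
          ← mul_assoc, hw2, mul_assoc, h2, pow_zero, one_mul, mul_one]
      have e := hF.unique (bar w) (bar (w * s)) ⟨w, rfl, 0, by rw [pow_zero, one_mul, hw2]⟩ hcs hws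
        (by rw [bar_mul, hcs, mul_assoc, hcs])
      rw [bar_mul, left_eq_mul] at e
      exact (hc.invol_facts h2 h1 hH).2.1 e
    · exact hc.Z_pow_ne_H j h
  · have h0 := hzero _ (by rw [← mul_assoc, ← R.zpow_comm, mul_assoc, hc.comm_gH s, mul_assoc]) hj
    rcases hc.ker_sq ⟨j, Or.inr rfl⟩ h0 with h | h
    · exact absurd h (hc.Z_pow_mul_H_ne j)
    · rw [hj, h]

/-- All such involutions are conjugate to `H` if one is. -/
theorem conj_H {s : cenH R X} (h2 : (s : GL (Fin 3) F) * (s : GL (Fin 3) F) = 1) (h1 : (s : GL (Fin 3) F) ≠ 1)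
    (hH : (s : GL (Fin 3) F) ≠ Root3.gH) {g : GL (Fin 3) F} (hg : g ∈ X)
    (hgs : g * Root3.gH * g⁻¹ = (s : GL (Fin 3) F)) {t : cenH R X} (t2 : (t : GL (Fin 3) F) * (t : GL (Fin 3) F) = 1)
    (t1 : (t : GL (Fin 3) F) ≠ 1) (tH : (t : GL (Fin 3) F) ≠ Root3.gH) :
    ∃ x ∈ X, x * Root3.gH * x⁻¹ = (t : GL (Fin 3) F) := by
  obtain ⟨a, b, c⟩ := hc.invol_facts t2 t1 tH
  obtain ⟨ρ, hρ⟩ := (hc.facts h2 h1 hH).conj (bar t) a b c
  obtain ⟨e, rfl⟩ := bar_surj ρ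
  obtain ⟨j, hj⟩ := hc.ker_of_bar (d := t⁻¹ * (e * s * e⁻¹)) (by
    rw [bar_mul, bar_mul, bar_mul, bar_inv, bar_inv, hρ, inv_mul_cancel])
  simp only [Subgroup.coe_mul, Subgroup.coe_inv, inv_mul_eq_iff_eq_mul] at hj
  have hsq : ((e : GL (Fin 3) F) * (s : GL (Fin 3) F) * (e : GL (Fin 3) F)⁻¹) *
      (e * s * (e : GL (Fin 3) F)⁻¹) = 1 := by
    rw [show (e : GL (Fin 3) F) * (s : GL (Fin 3) F) * (e : GL (Fin 3) F)⁻¹ * (e * s * (e : GL (Fin 3) F)⁻¹) =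
      e * ((s : GL (Fin 3) F) * (s : GL (Fin 3) F)) * (e : GL (Fin 3) F)⁻¹ by group, h2, mul_one, mul_inv_cancel]
  have hzero : ∀ (k : GL (Fin 3) F), (t : GL (Fin 3) F) * k = k * (t : GL (Fin 3) F) →
      (e : GL (Fin 3) F) * (s : GL (Fin 3) F) * (e : GL (Fin 3) F)⁻¹ = t * k → k * k = 1 := by
    intro k htk hek
    rw [hek, show (t : GL (Fin 3) F) * k * (t * k) = t * (k * t) * k by group, ← htk, ← mul_assoc, t2,
      one_mul] at hsq
    exact hsq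
  have heX : (e : GL (Fin 3) F) ∈ X := e.2.1
  rcases hj with hj | hj
  · rcases hc.ker_sq ⟨j, Or.inl rfl⟩ (hzero _ (R.zpow_comm j _).symm hj) with h | h
    · exact ⟨(e : GL (Fin 3) F) * g, mul_mem heX hg, by
        rw [show (e : GL (Fin 3) F) * g * Root3.gH * ((e : GL (Fin 3) F) * g)⁻¹ =
          (e : GL (Fin 3) F) * (g * Root3.gH * g⁻¹) * (e : GL (Fin 3) F)⁻¹ by group, hgs, hj, h, mul_one]⟩
    · exact absurd h (hc.Z_pow_ne_H j)
  · rcases hc.ker_sq ⟨j, Or.inr rfl⟩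
      (hzero _ (by rw [← mul_assoc, ← R.zpow_comm, mul_assoc, hc.comm_gH t, mul_assoc]) hj) with h | h
    · exact absurd h (hc.Z_pow_mul_H_ne j)
    · obtain ⟨w, -, -, hw, -⟩ := hc.exists_switch h2 h1 hH
      refine ⟨(e : GL (Fin 3) F) * (w : GL (Fin 3) F) * g, mul_mem (mul_mem heX w.2.1) hg, ?_⟩
      rw [show (e : GL (Fin 3) F) * (w : GL (Fin 3) F) * g * Root3.gH * ((e : GL (Fin 3) F) * (w : GL (Fin 3) F) * g)⁻¹ =
        (e : GL (Fin 3) F) * ((w : GL (Fin 3) F) * (g * Root3.gH * g⁻¹) * (w : GL (Fin 3) F)⁻¹) * (e : GL (Fin 3) F)⁻¹ by group, hgs, hw,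
        ← mul_assoc, mul_assoc ((e : GL (Fin 3) F) * s), show Root3.gH * (e : GL (Fin 3) F)⁻¹ =
          (e : GL (Fin 3) F)⁻¹ * Root3.gH from (Commute.inv_left (hc.comm_gH e)).eq.symm,
        ← mul_assoc, hj, h, mul_assoc, Root3.gH_sq, mul_one]

end Cfg

end Cfsg.Agent.SLThree.Symp
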