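import Cfsg.Agent.SLThree.SympGroup
import Cfsg.Prelude.Def_GeometricClasses

/-!
An absolutely irreducible `3^{1+2}` of `GL₃(F)` of exponent three is conjugate to the standard one.
-/

set_option autoImplicit false
set_option linter.unusedSectionVars false
set_option linter.style.haveILetI false

namespace Cfsg.Agent.SLThree.Symp

open Matrix Cfsg.Geo
open scoped MatrixGroups Matrix

variable {F : Type*} [Field F]

theorem Root3.Rs_eq_closure [Finite F] (S : Root3 F) :
    S.Rs = Subgroup.closure {S.gX, gY} := by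
  refine le_antisymm ?_ ((Subgroup.closure_le _).2 ?_)
  · rintro g ⟨a, b, c, rfl⟩
    have hX : S.gX ∈ Subgroup.closure {S.gX, gY} := Subgroup.subset_closure (by simp)
    have hY : gY ∈ Subgroup.closure {S.gX, gY} := Subgroup.subset_closure (by simp)
    have hZ : S.gZ ∈ Subgroup.closure {S.gX, gY} := by
      have e : S.gZ ^ 2 = gY * S.gX * (S.gX * gY)⁻¹ := by
        rw [Root3.gY_gX, mul_assoc, mul_inv_cancel, mul_one]
      have h2 : S.gZ ^ 2 ∈ Subgroup.closure {S.gX, gY} := by
        rw [e]; exact mul_mem (mul_mem hY hX) (inv_mem (mul_mem hX hY))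
      have e' : S.gZ = (S.gZ ^ 2) ^ 2 := by
        rw [← pow_mul, show 2 * 2 = 3 + 1 from rfl, pow_succ, S.gZ_cube, one_mul]
      rw [e']; exact pow_mem h2 2
    exact mul_mem (pow_mem hZ a) (mul_mem (pow_mem hX b) (pow_mem hY c))
  · rintro g (rfl | rfl)
    · exact S.gX_mem
    · exact S.gY_mem

/-- Standard form of `R`. -/
theorem exists_std [Finite F] {R : Subgroup (GL (Fin 3) F)}
    (habs : ActsAbsolutelyIrreducibly (matrixSet R)) (h27 : Nat.card R = 27)
    (hZ : Nat.card (Subgroup.center R) = 3) (hexp : ∀ g ∈ R, g ^ 3 = 1)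
    (h2 : (2 : F) ≠ 0) (h3 : (3 : F) ≠ 0) :
    ∃ (S : Root3 F) (B : GL (Fin 3) F), R = S.Rs.map (MulAut.conj B).toMonoidHom := by
  classical
  haveI : Fact (Nat.Prime 3) := ⟨Nat.prime_three⟩
  -- two elements which do not commute
  obtain ⟨x, y, hxy⟩ : ∃ x y : R, x * y ≠ y * x := by
    by_contra hh
    push Not at hh
    have : Subgroup.center R = ⊤ := by
      ext g; simpa [Subgroup.mem_center_iff] using fun h => hh h g
    rw [this, Subgroup.card_top, h27] at hZ
    omega
  -- they generate `R`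
  have hgen : Subgroup.closure {(x : GL (Fin 3) F), (y : GL (Fin 3) F)} = R := by
    set C := Subgroup.closure {(x : GL (Fin 3) F), (y : GL (Fin 3) F)} with hC
    have hle : C ≤ R := (Subgroup.closure_le _).2 (by rintro g (rfl | rfl); exacts [x.2, y.2])
    refine Subgroup.eq_of_le_of_card_ge hle ?_
    by_contra hlt
    push Not at hlt
    have hdvd := Subgroup.card_dvd_of_le hle
    rw [h27] at hdvd hlt
    obtain ⟨k, hk, hk'⟩ := (Nat.dvd_prime_pow Nat.prime_three).1
      (show Nat.card C ∣ 3 ^ 3 by simpa using hdvd)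
    have hxC : (x : GL (Fin 3) F) ∈ C := Subgroup.subset_closure (by simp)
    have hyC : (y : GL (Fin 3) F) ∈ C := Subgroup.subset_closure (by simp)
    have hcomm : ∀ a b : C, a * b = b * a := by
      rcases (show k = 0 ∨ k = 1 ∨ k = 2 by
        rcases Nat.lt_or_ge k 3 with h | h
        · omega
        · rw [hk'] at hlt
          have : 3 ^ 3 ≤ 3 ^ k := Nat.pow_le_pow_right (by norm_num) h
          omega) with rfl | rfl | rfl
      · intro a b
        have h1 : Subsingleton C := (Nat.card_eq_one_iff_unique.1 (hk'.trans (pow_zero 3))).1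
        exact Subsingleton.elim _ _
      · haveI : IsCyclic C := isCyclic_of_prime_card (p := 3) (by simpa using hk')
        haveI := IsCyclic.commGroup (α := C)
        intro a b; exact IsMulCommutative.is_comm.comm a b
      · intro a b
        exact (IsPGroup.isMulCommutative_of_card_eq_prime_sq (p := 3) hk').is_comm.comm a b
    exact hxy (Subtype.ext (congrArg Subtype.val (hcomm ⟨x, hxC⟩ ⟨y, hyC⟩) :))
  -- the commutator is a scalar
  have hcen : ∀ c : R, c ∈ Subgroup.center R → ∃ l : F,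
      ((c : GL (Fin 3) F) : Matrix (Fin 3) (Fin 3) F) = l • 1 := fun c hc => by
    refine habs.2 _ ?_
    rintro _ ⟨g, hg, rfl⟩
    have := congrArg (fun t : R => ((t : GL (Fin 3) F) : Matrix (Fin 3) (Fin 3) F))
      (Subgroup.mem_center_iff.1 hc ⟨g, hg⟩)
    simpa using this.symm
  have hquot : ∀ a b : R, a * b * a⁻¹ * b⁻¹ ∈ Subgroup.center R := by
    intro a b
    have hcard : Nat.card (R ⧸ Subgroup.center R) = 3 ^ 2 := by
      have := Subgroup.card_eq_card_quotient_mul_card_subgroup (Subgroup.center R)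
      rw [h27, hZ] at this; omega
    have hc := (IsPGroup.isMulCommutative_of_card_eq_prime_sq (p := 3) hcard).is_comm.comm
      (QuotientGroup.mk' (Subgroup.center R) a) (QuotientGroup.mk' (Subgroup.center R) b)
    rw [← QuotientGroup.eq_one_iff]
    show QuotientGroup.mk' (Subgroup.center R) (a * b * a⁻¹ * b⁻¹) = 1
    simp only [map_mul, map_inv, hc]
    group
  obtain ⟨l, hl⟩ := hcen _ (hquot x y)
  set X := ((x : GL (Fin 3) F) : Matrix (Fin 3) (Fin 3) F) with hX
  set Y := ((y : GL (Fin 3) F) : Matrix (Fin 3) (Fin 3) F) with hY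
  have hrel : X * Y = l • (Y * X) := by
    have e : x * y = (x * y * x⁻¹ * y⁻¹) * (y * x) := by group
    have := congrArg (fun t : R => ((t : GL (Fin 3) F) : Matrix (Fin 3) (Fin 3) F)) e
    simp only [Subgroup.coe_mul, Units.val_mul] at this
    rw [this]
    simp only [Subgroup.coe_mul, Units.val_mul] at hl
    rw [hl, Matrix.smul_mul, Matrix.one_mul]
  have hl3 : l ^ 3 = 1 := by
    have := congrArg (fun g : GL (Fin 3) F => (g : Matrix (Fin 3) (Fin 3) F))
      (hexp _ (x * y * x⁻¹ * y⁻¹).2)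
    simp only [Units.val_pow_eq_pow_val, hl, Units.val_one, smul_pow, one_pow] at this
    simpa using congrFun (congrFun this 0) 0
  have hl1 : l ≠ 1 := by
    intro h
    rw [h, one_smul] at hl
    apply hxy
    have e : x * y * x⁻¹ * y⁻¹ = 1 := Subtype.ext (Units.ext (by simpa using hl))
    calc x * y = (x * y * x⁻¹ * y⁻¹) * (y * x) := by group
      _ = y * x := by rw [e, one_mul]
  let S : Root3 F :=
    { ω := l
      eq := (mul_eq_zero.1 (show (l - 1) * (l ^ 2 + l + 1) = 0 by linear_combination hl3)).resolve_left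
        (sub_ne_zero.2 hl1)
      two := h2
      three := h3 }
  have hX3 : X * X * X = 1 := by
    have := congrArg (fun g : GL (Fin 3) F => (g : Matrix (Fin 3) (Fin 3) F)) (hexp _ x.2)
    simpa [pow_succ] using this
  have hY3 : Y * Y * Y = 1 := by
    have := congrArg (fun g : GL (Fin 3) F => (g : Matrix (Fin 3) (Fin 3) F)) (hexp _ y.2)
    simpa [pow_succ] using this
  have hshift : ∀ (v : Fin 3 → F) (c : F), X *ᵥ v = c • v → X *ᵥ (Y *ᵥ v) = (l * c) • (Y *ᵥ v) := by
    intro v c hv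
    rw [Matrix.mulVec_mulVec, hrel, Matrix.smul_mulVec, ← Matrix.mulVec_mulVec, hv,
      Matrix.mulVec_smul, smul_smul]
  -- an eigenvector
  obtain ⟨v₁, c, hc3, hv₁, hXv₁⟩ : ∃ (v : Fin 3 → F) (c : F), c ^ 3 = 1 ∧ v ≠ 0 ∧ X *ᵥ v = c • v := by
    have hp : ∀ c : F, c ^ 3 = 1 → ∀ v : Fin 3 → F,
        X *ᵥ ((1 + c ^ 2 • X + c • (X * X)) *ᵥ v) = c • ((1 + c ^ 2 • X + c • (X * X)) *ᵥ v) := by
      intro c hc v
      rw [Matrix.mulVec_mulVec, ← Matrix.smul_mulVec]
      congr 1
      rw [mul_add, mul_add, mul_one, mul_smul_comm, mul_smul_comm, ← mul_assoc X X X, hX3, smul_add,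
        smul_add, smul_smul, smul_smul, show c * c ^ 2 = 1 by linear_combination hc, one_smul,
        show c * c = c ^ 2 by ring]
      abel
    by_contra hno
    push Not at hno
    have hz : ∀ c : F, c ^ 3 = 1 → (1 + c ^ 2 • X + c • (X * X)) = 0 := fun c hc => by
      refine Matrix.ext_of_mulVec_single fun i => ?_
      rw [Matrix.zero_mulVec]
      by_contra hne
      exact hno _ c hc hne (hp c hc _)
    have e0 := hz 1 (one_pow 3)
    have e1 := hz l hl3
    have e2 := hz (l ^ 2) (by rw [← pow_mul, mul_comm, pow_mul, hl3, one_pow])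
    have key : (3 : F) • (1 : Matrix (Fin 3) (Fin 3) F) = 0 := by
      have hs : l ^ 2 + l + 1 = 0 := S.eq
      calc (3 : F) • (1 : Matrix (Fin 3) (Fin 3) F)
          = (1 + (1 : F) ^ 2 • X + (1 : F) • (X * X)) + (1 + l ^ 2 • X + l • (X * X))
            + (1 + (l ^ 2) ^ 2 • X + l ^ 2 • (X * X)) := by
            rw [show (l ^ 2) ^ 2 = l by linear_combination l * hl3]
            match_scalars
            · ring
            · linear_combination (-1 : F) * hs
            · linear_combination (-1 : F) * hs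
        _ = 0 := by rw [e0, e1, e2]; simp
    exact h3 (by simpa using congrFun (congrFun key 0) 0)
  obtain ⟨v, hv, hXv⟩ : ∃ v : Fin 3 → F, v ≠ 0 ∧ X *ᵥ v = v := by
    have hYne : ∀ w : Fin 3 → F, w ≠ 0 → Y *ᵥ w ≠ 0 := fun w hw h => hw (by
      have : (Y * Y * Y) *ᵥ w = 0 := by rw [← Matrix.mulVec_mulVec, h, Matrix.mulVec_zero]
      rwa [hY3, Matrix.one_mulVec] at this)
    rcases S.cases_of_cube hc3 with rfl | h | h
    · exact ⟨v₁, hv₁, by rw [hXv₁, one_smul]⟩
    · refine ⟨Y *ᵥ (Y *ᵥ v₁), hYne _ (hYne _ hv₁), ?_⟩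
      rw [hshift _ _ (hshift _ _ hXv₁), h, show l * (l * S.ω) = 1 by
        show l * (l * l) = 1; linear_combination hl3, one_smul]
    · refine ⟨Y *ᵥ v₁, hYne _ hv₁, ?_⟩
      rw [hshift _ _ hXv₁, h, show l * S.ω ^ 2 = 1 by
        show l * l ^ 2 = 1; linear_combination hl3, one_smul]
  set b : Fin 3 → (Fin 3 → F) := ![v, Y *ᵥ v, Y *ᵥ (Y *ᵥ v)] with hb
  have hXb : ∀ j, X *ᵥ b j = (![1, l, l ^ 2] j) • b j := by
    intro j
    fin_cases j
    · show X *ᵥ v = (1 : F) • v
      rw [hXv, one_smul]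
    · show X *ᵥ (Y *ᵥ v) = l • (Y *ᵥ v)
      rw [hshift v 1 (by rw [hXv, one_smul]), mul_one]
    · show X *ᵥ (Y *ᵥ (Y *ᵥ v)) = (l ^ 2) • (Y *ᵥ (Y *ᵥ v))
      rw [hshift _ l (by rw [hshift v 1 (by rw [hXv, one_smul]), mul_one]), ← sq]
  have hYb : ∀ j, Y *ᵥ b j = b (![1, 2, 0] j) := by
    intro j
    fin_cases j
    · rfl
    · rfl
    · show Y *ᵥ (Y *ᵥ (Y *ᵥ v)) = v
      rw [Matrix.mulVec_mulVec, Matrix.mulVec_mulVec, hY3, Matrix.one_mulVec]
  set W := Submodule.span F (Set.range b) with hW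
  have hWinv : ∀ g ∈ R, ∀ w ∈ W, (g : Matrix (Fin 3) (Fin 3) F) *ᵥ w ∈ W := by
    have hmat : ∀ M : Matrix (Fin 3) (Fin 3) F, (∀ j, M *ᵥ b j ∈ W) → ∀ w ∈ W, M *ᵥ w ∈ W := by
      intro M hM w hw
      have : W.map M.mulVecLin ≤ W := by
        rw [hW, Submodule.map_span, Submodule.span_le]
        rintro _ ⟨_, ⟨j, rfl⟩, rfl⟩
        exact hM j
      exact this ⟨w, hw, rfl⟩
    have hgens : ∀ g ∈ ({(x : GL (Fin 3) F), (y : GL (Fin 3) F)} : Set (GL (Fin 3) F)),
        ∀ w ∈ W, (g : Matrix (Fin 3) (Fin 3) F) *ᵥ w ∈ W := by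
      rintro g (rfl | rfl)
      · exact hmat X fun j => by rw [hXb]; exact W.smul_mem _ (Submodule.subset_span ⟨j, rfl⟩)
      · exact hmat Y fun j => by rw [hYb]; exact Submodule.subset_span ⟨_, rfl⟩
    intro g hg
    rw [← hgen] at hg
    induction hg using Subgroup.closure_induction with
    | mem t ht => exact hgens t ht
    | one => intro w hw; simpa using hw
    | mul a b _ _ ha hb' => intro w hw; rw [Units.val_mul, ← Matrix.mulVec_mulVec]; exact ha _ (hb' _ hw)
    | inv a _ ha =>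
      intro w hw
      have hsur : Function.Surjective (fun u : W => (⟨(a : Matrix (Fin 3) (Fin 3) F) *ᵥ u, ha _ u.2⟩ : W)) :=
        Finite.injective_iff_surjective.1 fun u u' h => Subtype.ext
          ((Matrix.mulVec_injective_iff_isUnit.2 a.isUnit) (congrArg Subtype.val h :))
      obtain ⟨u, hu⟩ := hsur ⟨w, hw⟩
      have hu' : (a : Matrix (Fin 3) (Fin 3) F) *ᵥ (u : Fin 3 → F) = w := congrArg Subtype.val hu
      rw [← hu', Matrix.mulVec_mulVec,
        ← Units.val_mul, inv_mul_cancel, Units.val_one, Matrix.one_mulVec]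
      exact u.2
  have hWtop : W = ⊤ := by
    refine (habs.1 W ?_).resolve_left fun h => hv ?_
    · rintro _ ⟨g, hg, rfl⟩ w ⟨u, hu, rfl⟩
      rw [Matrix.toLin'_apply]; exact hWinv g hg u hu
    · have : v ∈ W := Submodule.subset_span ⟨0, rfl⟩
      rwa [h, Submodule.mem_bot] at this
  set M : Matrix (Fin 3) (Fin 3) F := Matrix.of fun i j => b j i with hM
  have hMu : IsUnit M := by
    rw [← Matrix.mulVec_surjective_iff_isUnit]
    intro w
    have hw : w ∈ LinearMap.range M.mulVecLin := by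
      rw [Matrix.range_mulVecLin]
      show w ∈ Submodule.span F (Set.range Mᵀ)
      have : (Mᵀ : Fin 3 → Fin 3 → F) = b := rfl
      rw [this, ← hW, hWtop]; trivial
    exact hw
  set B := hMu.unit with hB
  have hBv : (B : Matrix (Fin 3) (Fin 3) F) = M := hMu.unit_spec
  have eX : B * S.gX * B⁻¹ = (x : GL (Fin 3) F) := by
    rw [mul_inv_eq_iff_eq_mul]
    refine Units.ext ?_
    rw [Units.val_mul, Units.val_mul, hBv, Root3.val_gX]
    ext i j
    have h := congrFun (hXb j) i
    rw [Pi.smul_apply, smul_eq_mul] at h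
    show (M * S.xM) i j = (X * M) i j
    rw [Matrix.mul_apply' (M := X), show (fun k => M k j) = b j from rfl]
    show _ = (X *ᵥ b j) i
    rw [h]
    fin_cases j <;> simp [hM, Root3.xM, Matrix.mul_apply, Fin.sum_univ_three, S, mul_comm]
  have eY : B * (Root3.gY : GL (Fin 3) F) * B⁻¹ = (y : GL (Fin 3) F) := by
    rw [mul_inv_eq_iff_eq_mul]
    refine Units.ext ?_
    rw [Units.val_mul, Units.val_mul, hBv, Root3.val_gY]
    ext i j
    have h := congrFun (hYb j) i
    show (M * (Root3.yM : Matrix (Fin 3) (Fin 3) F)) i j = (Y * M) i j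
    rw [Matrix.mul_apply' (M := Y), show (fun k => M k j) = b j from rfl]
    show _ = (Y *ᵥ b j) i
    rw [h]
    fin_cases j <;> simp [hM, Root3.yM, Matrix.mul_apply, Fin.sum_univ_three]
  refine ⟨S, B, ?_⟩
  rw [S.Rs_eq_closure, MonoidHom.map_closure, Set.image_pair]
  conv_lhs => rw [← hgen]
  congr 1
  simp only [MulEquiv.coe_toMonoidHom, MulAut.conj_apply, eX, eY]

end Cfsg.Agent.SLThree.Symp
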