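import Cfsg.Agent.SLThree.SympCaseB

/-!
No involution of `C_X(H)` other than `H` is conjugate to `H`: the two switches of such an involution
give an element of order three whose Sylow group is forced to be a group without room for it.
-/

set_option autoImplicit false
set_option linter.unusedSectionVars false
set_option linter.style.haveILetI false

namespace Cfsg.Agent.SLThree.Symp

open Matrix
open scoped MatrixGroups

variable {F : Type*} [Field F] [Fintype F] {R : Root3 F} {X : Subgroup (GL (Fin 3) F)}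

theorem cMat_mul_basis {B C g : GL (Fin 3) F} {K : Matrix (Fin 3) (Fin 3) F}
    (h : cMat B g * (C : Matrix (Fin 3) (Fin 3) F) = (C : Matrix (Fin 3) (Fin 3) F) * K) :
    cMat (B * C) g = K := by
  rw [cMat, show (B * C)⁻¹ * g * (B * C) = C⁻¹ * ((B⁻¹ * g * B) * C) by group, Units.val_mul,
    Units.val_mul, Units.inv_mul_eq_iff_eq_mul]
  exact h

theorem cMat_gZ_pow_mul (B g : GL (Fin 3) F) (k : ℕ) :
    cMat B (R.gZ ^ k * g) = R.ω ^ k • cMat B g := by
  rw [cMat, cMat, show B⁻¹ * (R.gZ ^ k * g) * B = (B⁻¹ * R.gZ ^ k) * g * B by group,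
    ← R.zpow_comm k B⁻¹, mul_assoc (R.gZ ^ k), mul_assoc (R.gZ ^ k), Units.val_mul, R.gZ_pow_val,
    Matrix.smul_mul, one_mul]

theorem trace_cMat (B g : GL (Fin 3) F) :
    Matrix.trace (cMat B g) = Matrix.trace (g : Matrix (Fin 3) (Fin 3) F) := by
  rw [cMat, Units.val_mul, Units.val_mul, Matrix.trace_units_conj']

namespace Fused

variable (hc : Cfg R X) (fs : Fused R X)
include hc fs

theorem exists_conj_into {π : GL (Fin 3) F} (hπX : π ∈ X) (h3 : π ^ 3 = 1) :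
    ∃ x ∈ X, x * π * x⁻¹ ∈ R.Rs := by
  classical
  haveI : Fact (Nat.Prime 3) := ⟨Nat.prime_three⟩
  have hR : IsPGroup 3 (R.Rs.subgroupOf X) := fun g =>
    ⟨1, Subtype.ext (Subtype.ext (by
      simpa using R.cube_eq_one (Subgroup.mem_subgroupOf.1 g.2)))⟩
  obtain ⟨P, hP⟩ := hR.exists_le_sylow
  have hπ : IsPGroup 3 (Subgroup.zpowers (⟨π, hπX⟩ : X)) := IsPGroup.of_card_dvd_pow (n := 1) (by
    rw [Nat.card_zpowers, pow_one]
    exact orderOf_dvd_of_pow_eq_one (Subtype.ext (by simpa using h3)))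
  obtain ⟨Q, hQ⟩ := hπ.exists_le_sylow
  obtain ⟨x, hx⟩ := MulAction.exists_smul_eq X Q P
  refine ⟨x, x.2, ?_⟩
  have hPR : (P : Subgroup X).map X.subtype ≤ R.Rs :=
    fs.sylow_le hc _ (P.2.map X.subtype) (Subgroup.map_subtype_le _)
      (fun g hg => ⟨⟨g, hc.Rs_le hg⟩, hP (Subgroup.mem_subgroupOf.2 hg), rfl⟩)
  refine hPR ⟨x * ⟨π, hπX⟩ * x⁻¹, ?_, by simp⟩
  rw [SetLike.mem_coe, ← hx, Sylow.coe_subgroup_smul]
  exact Subgroup.mem_map.2 ⟨⟨π, hπX⟩, hQ (Subgroup.mem_zpowers _), by simp [MulAut.conj_apply]⟩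

set_option maxHeartbeats 1600000 in
/-- The first adapted basis: `H`, `s` diagonal and `w` a quarter turn on the plane. -/
theorem exists_basis₁ : ∃ (B : GL (Fin 3) F) (w : cenH R X),
    (w : GL (Fin 3) F) ∈ R.Qs ∧ (w : GL (Fin 3) F) * (w : GL (Fin 3) F) = Root3.gH ∧
    bar w * bar fs.s = bar fs.s * bar w ∧
    cMat B Root3.gH = !![1, 0, 0; 0, -1, 0; 0, 0, -1] ∧
    cMat B (fs.s : GL (Fin 3) F) = !![-1, 0, 0; 0, 1, 0; 0, 0, -1] ∧
    cMat B (w : GL (Fin 3) F) = !![1, 0, 0; 0, 0, -1; 0, 1, 0] := by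
  obtain ⟨w, hwQ, hw2, hws, hwc⟩ := hc.exists_switch (fs.sq hc) (fs.ne_one hc) fs.ne
  obtain ⟨m01, m02, m10, m20⟩ : IsBlock (cMat R.B₀ (fs.s : GL (Fin 3) F)) := fs.s.2.2
  obtain ⟨n01, n02, n10, n20⟩ : IsBlock (cMat R.B₀ (w : GL (Fin 3) F)) := w.2.2
  set M := cMat R.B₀ (fs.s : GL (Fin 3) F) with hM
  set N := cMat R.B₀ (w : GL (Fin 3) F) with hN
  have hMM : M * M = 1 := by rw [hM, ← cMat_mul, fs.sq hc, cMat_one]
  have hNN : N * N = !![1, 0, 0; 0, -1, 0; 0, 0, -1] := by rw [hN, ← cMat_mul, hw2, R.cMat_B₀_H]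
  have hNM : N * M = M * !![1, 0, 0; 0, -1, 0; 0, 0, -1] * N := by
    rw [hN, hM, ← R.cMat_B₀_H, ← cMat_mul, ← cMat_mul, ← cMat_mul]
    congr 1
    exact mul_inv_eq_iff_eq_mul.1 hws
  have hdM : M.det = 1 := by rw [hM, det_cMat]; exact hc.det _ fs.s.2.1
  have hdN : N.det = 1 := by rw [hN, det_cMat]; exact hc.det _ w.2.1
  have a00 := congrFun (congrFun hMM 0) 0
  have a11 := congrFun (congrFun hMM 1) 1
  have a12 := congrFun (congrFun hMM 1) 2
  have a21 := congrFun (congrFun hMM 2) 1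
  have a22 := congrFun (congrFun hMM 2) 2
  simp [Matrix.mul_apply, Fin.sum_univ_three, m01, m02, m10, m20] at a00 a11 a12 a21 a22
  simp [Matrix.det_fin_three, m01, m02, m10, m20] at hdM
  have b11 := congrFun (congrFun hNN 1) 1
  have b12 := congrFun (congrFun hNN 1) 2
  have b21 := congrFun (congrFun hNN 2) 1
  have b22 := congrFun (congrFun hNN 2) 2
  simp [Matrix.mul_apply, Fin.sum_univ_three, n01, n02, n10, n20] at b11 b12 b21 b22
  simp [Matrix.det_fin_three, n01, n02, n10, n20] at hdN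
  have c11 := congrFun (congrFun hNM 1) 1
  have c12 := congrFun (congrFun hNM 1) 2
  have c21 := congrFun (congrFun hNM 2) 1
  have c22 := congrFun (congrFun hNM 2) 2
  simp [Matrix.mul_apply, Fin.sum_univ_three, m01, m02, m10, m20, n01, n02, n10, n20]
    at c11 c12 c21 c22
  have hext : ∀ {K : Matrix (Fin 3) (Fin 3) F}, M 0 0 = K 0 0 → M 1 1 = K 1 1 → M 1 2 = K 1 2 →
      M 2 1 = K 2 1 → M 2 2 = K 2 2 → K 0 1 = 0 → K 0 2 = 0 → K 1 0 = 0 → K 2 0 = 0 → M = K := by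
    intro K h1 h2 h3 h4 h5 h6 h7 h8 h9
    ext i j; fin_cases i <;> fin_cases j
    exacts [h1, m01.trans h6.symm, m02.trans h7.symm, m10.trans h8.symm, h2, h3, m20.trans h9.symm, h4, h5]
  have hMtr : M 2 2 = -M 1 1 := by
    by_contra hne
    have h0 : M 1 1 + M 2 2 ≠ 0 := fun h => hne (by linear_combination h)
    have z12 : M 1 2 = 0 := (mul_eq_zero.1 (show M 1 2 * (M 1 1 + M 2 2) = 0 by
      linear_combination a12)).resolve_right h0
    have z21 : M 2 1 = 0 := (mul_eq_zero.1 (show M 2 1 * (M 1 1 + M 2 2) = 0 by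
      linear_combination a21)).resolve_right h0
    rw [z12, z21] at a11 a22 hdM
    have heq : M 1 1 = M 2 2 := sub_eq_zero.1 ((mul_eq_zero.1 (show (M 1 1 - M 2 2) *
      (M 1 1 + M 2 2) = 0 by linear_combination a11 - a22)).resolve_right h0)
    have h00 : M 0 0 = 1 := by
      rw [← heq] at hdM
      linear_combination hdM - M 0 0 * a11
    rcases mul_self_eq_one_iff.1 (show M 1 1 * M 1 1 = 1 by linear_combination a11) with h1 | h1
    · refine fs.ne_one hc (cMat_injective R.B₀ ?_)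
      rw [cMat_one, ← hM]
      exact hext (by simpa using h00) (by simpa using h1) (by simpa using z12) (by simpa using z21)
        (by simpa using heq.symm.trans h1) (by simp) (by simp) (by simp) (by simp)
    · refine fs.ne (cMat_injective R.B₀ ?_)
      rw [R.cMat_B₀_H, ← hM]
      exact hext (by simpa using h00) (by simpa using h1) (by simpa using z12) (by simpa using z21)
        (by simpa using heq.symm.trans h1) (by simp) (by simp) (by simp) (by simp)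
  rw [hMtr] at hdM c12 c21 c22
  have hM00 : M 0 0 = -1 := by linear_combination -hdM - M 0 0 * a11
  have hNtr : N 2 2 = -N 1 1 := by
    by_contra hne
    have h0 : N 1 1 + N 2 2 ≠ 0 := fun h => hne (by linear_combination h)
    have z12 : N 1 2 = 0 := (mul_eq_zero.1 (show N 1 2 * (N 1 1 + N 2 2) = 0 by
      linear_combination b12)).resolve_right h0
    have z21 : N 2 1 = 0 := (mul_eq_zero.1 (show N 2 1 * (N 1 1 + N 2 2) = 0 by
      linear_combination b21)).resolve_right h0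
    rw [z12, z21] at b11 c11
    have hN0 : N 1 1 ≠ 0 := fun h => by rw [h] at b11; simp at b11
    have z11 : M 1 1 = 0 := (mul_eq_zero.1 (show M 1 1 * (2 * N 1 1) = 0 by
      linear_combination c11)).resolve_right (mul_ne_zero R.two hN0)
    have zm12 : M 1 2 = 0 := (mul_eq_zero.1 (show M 1 2 * (N 1 1 + N 2 2) = 0 by
      linear_combination c12)).resolve_right h0
    rw [z11, zm12] at a11
    simp at a11
  rw [hNtr] at hdN c12 c21 c22
  have hN00 : N 0 0 = 1 := by linear_combination hdN + N 0 0 * b11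
  have hanti : 2 * (N 1 1 * M 1 1) + N 1 2 * M 2 1 + N 2 1 * M 1 2 = 0 := by linear_combination c11
  -- a fixed vector of `s` in the plane
  obtain ⟨v1, v2, hv0, hA1, hA2⟩ : ∃ v1 v2 : F, (v1 ≠ 0 ∨ v2 ≠ 0) ∧
      M 1 1 * v1 + M 1 2 * v2 = v1 ∧ M 2 1 * v1 - M 1 1 * v2 = v2 := by
    by_cases h : M 1 1 + 1 = 0
    · exact ⟨M 1 2, 2, Or.inr R.two, by linear_combination M 1 2 * h,
        by linear_combination a11 + (1 - M 1 1 - 2) * h⟩
    · exact ⟨M 1 1 + 1, M 2 1, Or.inl h, by linear_combination a11, by ring⟩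
  obtain ⟨x, hx⟩ : ∃ x, x = N 1 1 * v1 + N 1 2 * v2 := ⟨_, rfl⟩
  obtain ⟨y, hy⟩ : ∃ y, y = N 2 1 * v1 - N 1 1 * v2 := ⟨_, rfl⟩
  have hB1 : M 1 1 * x + M 1 2 * y = -x := by
    rw [hx, hy]; linear_combination v1 * hanti - N 1 1 * hA1 - N 1 2 * hA2
  have hB2 : M 2 1 * x - M 1 1 * y = -y := by
    rw [hx, hy]; linear_combination v2 * hanti - N 2 1 * hA1 + N 1 1 * hA2
  have hB3 : N 1 1 * x + N 1 2 * y = -v1 := by
    rw [hx, hy]; linear_combination v1 * b11
  have hB4 : N 2 1 * x - N 1 1 * y = -v2 := by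
    rw [hx, hy]; linear_combination v2 * b11
  have hd : v1 * y - v2 * x ≠ 0 := by
    intro hd
    have hxv : x * v1 = 0 := (mul_eq_zero.1 (show (x * v1) * 2 = 0 by
      linear_combination x * hA1 * (-1) + v1 * hB1 - M 1 2 * hd)).resolve_right R.two
    have hyv : y * v2 = 0 := (mul_eq_zero.1 (show (y * v2) * 2 = 0 by
      linear_combination -y * hA2 + v2 * hB2 + M 2 1 * hd)).resolve_right R.two
    have hxy : x = 0 ∧ y = 0 := by
      rcases hv0 with h | h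
      · have hx0 := (mul_eq_zero.1 hxv).resolve_right h
        exact ⟨hx0, (mul_eq_zero.1 (show v1 * y = 0 by
          linear_combination hd + v2 * hx0)).resolve_left h⟩
      · have hy0 := (mul_eq_zero.1 hyv).resolve_right h
        exact ⟨(mul_eq_zero.1 (show v2 * x = 0 by
          linear_combination -hd + v1 * hy0)).resolve_left h, hy0⟩
    rw [hxy.1, hxy.2] at hB3 hB4
    rcases hv0 with h | h
    · exact h (by linear_combination hB3)
    · exact h (by linear_combination hB4)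
  obtain ⟨C, hC⟩ : ∃ C : GL (Fin 3) F,
      (C : Matrix (Fin 3) (Fin 3) F) = !![1, 0, 0; 0, v1, x; 0, v2, y] :=
    ⟨Matrix.GeneralLinearGroup.mkOfDetNeZero _ (by
      simp [Matrix.det_fin_three]
      exact fun h => hd (by linear_combination h)), rfl⟩
  refine ⟨R.B₀ * C, w, hwQ, hw2, hwc, cMat_mul_basis ?_, cMat_mul_basis ?_, cMat_mul_basis ?_⟩
  · rw [R.cMat_B₀_H, hC]
    ext i j; fin_cases i <;> fin_cases j <;> simp [Matrix.mul_apply, Fin.sum_univ_three]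
  · rw [← hM, hC]
    ext i j; fin_cases i <;> fin_cases j <;>
      simp [Matrix.mul_apply, Fin.sum_univ_three, m01, m02, m10, m20, hM00, hMtr] <;>
      first
        | linear_combination hA1 | linear_combination hA2
        | linear_combination hB1 | linear_combination hB2
  · rw [← hN, hC]
    ext i j; fin_cases i <;> fin_cases j <;>
      simp [Matrix.mul_apply, Fin.sum_univ_three, n01, n02, n10, n20, hN00, hNtr] <;>
      first
        | linear_combination hB3 | linear_combination hB4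
        | linear_combination -hx | linear_combination -hy

set_option maxHeartbeats 1600000 in
/-- The second switch joins in. -/
theorem exists_basis : ∃ (B : GL (Fin 3) F) (w : cenH R X) (ws : GL (Fin 3) F), ws ∈ X ∧
    (w : GL (Fin 3) F) * (w : GL (Fin 3) F) = Root3.gH ∧ bar w * bar fs.s = bar fs.s * bar w ∧
    cMat B Root3.gH = !![1, 0, 0; 0, -1, 0; 0, 0, -1] ∧
    cMat B (fs.s : GL (Fin 3) F) = !![-1, 0, 0; 0, 1, 0; 0, 0, -1] ∧
    cMat B (w : GL (Fin 3) F) = !![1, 0, 0; 0, 0, -1; 0, 1, 0] ∧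
    cMat B ws = !![0, 0, -1; 0, 1, 0; 1, 0, 0] := by
  obtain ⟨B, w, -, hw2, hwc, hBH, hBs, hBw⟩ := fs.exists_basis₁ hc
  have hgs := fs.eq
  have hsH := hc.comm_gH fs.s
  have hh' : fs.g⁻¹ * Root3.gH * fs.g ∈ cenH R X := by
    refine mem_cenH.2 ⟨mul_mem (mul_mem (inv_mem fs.mem) hc.gH_mem) fs.mem, ?_⟩
    calc fs.g⁻¹ * Root3.gH * fs.g * Root3.gH
        = fs.g⁻¹ * (Root3.gH * (fs.g * Root3.gH * fs.g⁻¹)) * fs.g := by group
      _ = fs.g⁻¹ * ((fs.g * Root3.gH * fs.g⁻¹) * Root3.gH) * fs.g := by rw [hgs, hsH]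
      _ = Root3.gH * (fs.g⁻¹ * Root3.gH * fs.g) := by group
  have hsq : fs.g⁻¹ * Root3.gH * fs.g * (fs.g⁻¹ * Root3.gH * fs.g) = 1 := by
    rw [show fs.g⁻¹ * Root3.gH * fs.g * (fs.g⁻¹ * Root3.gH * fs.g) =
      fs.g⁻¹ * (Root3.gH * Root3.gH) * fs.g by group, Root3.gH_sq, mul_one, inv_mul_cancel]
  have h1 : fs.g⁻¹ * Root3.gH * fs.g ≠ 1 := fun h => hc.Z_pow_ne_H 0 (by
    rw [pow_zero, show Root3.gH = fs.g * (fs.g⁻¹ * Root3.gH * fs.g) * fs.g⁻¹ by group, h]; group)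
  have hH : fs.g⁻¹ * Root3.gH * fs.g ≠ Root3.gH := fun h => fs.ne (by
    rw [← hgs]
    calc fs.g * Root3.gH * fs.g⁻¹ = fs.g * (fs.g⁻¹ * Root3.gH * fs.g) * fs.g⁻¹ := by rw [h]
      _ = Root3.gH := by group)
  obtain ⟨w', -, hw'2, hw's, -⟩ :=
    hc.exists_switch (s := ⟨fs.g⁻¹ * Root3.gH * fs.g, hh'⟩) hsq h1 hH
  obtain ⟨ws, hws⟩ : ∃ ws, ws = fs.g * (w' : GL (Fin 3) F) * fs.g⁻¹ := ⟨_, rfl⟩
  have hwsX : ws ∈ X := hws ▸ mul_mem (mul_mem fs.mem w'.2.1) (inv_mem fs.mem)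
  have e2 : ws * ws = (fs.s : GL (Fin 3) F) := by
    rw [hws, show fs.g * (w' : GL (Fin 3) F) * fs.g⁻¹ * (fs.g * (w' : GL (Fin 3) F) * fs.g⁻¹) =
      fs.g * ((w' : GL (Fin 3) F) * (w' : GL (Fin 3) F)) * fs.g⁻¹ by group, hw'2, hgs]
  have eH : ws * Root3.gH = Root3.gH * (fs.s : GL (Fin 3) F) * ws := by
    rw [hws, ← hgs]
    calc fs.g * (w' : GL (Fin 3) F) * fs.g⁻¹ * Root3.gH
        = fs.g * ((w' : GL (Fin 3) F) * (fs.g⁻¹ * Root3.gH * fs.g) * (w' : GL (Fin 3) F)⁻¹) *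
            (w' : GL (Fin 3) F) * fs.g⁻¹ := by group
      _ = fs.g * (fs.g⁻¹ * Root3.gH * fs.g * Root3.gH) * (w' : GL (Fin 3) F) * fs.g⁻¹ := by
          rw [hw's]
      _ = _ := by group
  set W := cMat B ws with hW
  have hWW : W * W = !![-1, 0, 0; 0, 1, 0; 0, 0, -1] := by rw [hW, ← cMat_mul, e2, hBs]
  have hWs : W * !![-1, 0, 0; 0, 1, 0; 0, 0, -1] = !![-1, 0, 0; 0, 1, 0; 0, 0, -1] * W := by
    rw [← hWW, mul_assoc]
  have hWH : W * !![1, 0, 0; 0, -1, 0; 0, 0, -1] =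
      !![1, 0, 0; 0, -1, 0; 0, 0, -1] * !![-1, 0, 0; 0, 1, 0; 0, 0, -1] * W := by
    rw [hW, ← hBH, ← hBs, ← cMat_mul, ← cMat_mul, ← cMat_mul, eH]
  have key : ∀ {a : F}, a = -a → a = 0 := fun {a} ha =>
    (mul_eq_zero.1 (show (2 : F) * a = 0 by linear_combination ha)).resolve_left R.two
  have w01 : W 0 1 = 0 := key (by simpa [Matrix.mul_apply, Fin.sum_univ_three] using congrFun (congrFun hWs 0) 1)
  have w10 : W 1 0 = 0 := key (by simpa [Matrix.mul_apply, Fin.sum_univ_three] using (congrFun (congrFun hWs 1) 0).symm)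
  have w12 : W 1 2 = 0 := key (by simpa [Matrix.mul_apply, Fin.sum_univ_three] using (congrFun (congrFun hWs 1) 2).symm)
  have w21 : W 2 1 = 0 := key (by simpa [Matrix.mul_apply, Fin.sum_univ_three] using congrFun (congrFun hWs 2) 1)
  have w00 : W 0 0 = 0 := key (by simpa [Matrix.mul_apply, Fin.sum_univ_three] using congrFun (congrFun hWH 0) 0)
  have w22 : W 2 2 = 0 := key (by simpa [Matrix.mul_apply, Fin.sum_univ_three] using (congrFun (congrFun hWH 2) 2).symm)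
  have hd : W.det = 1 := by rw [hW, det_cMat]; exact hc.det _ hwsX
  simp [Matrix.det_fin_three, w01, w10, w12, w21, w00, w22] at hd
  have p00 : W 0 2 * W 2 0 = -1 := by
    simpa [Matrix.mul_apply, Fin.sum_univ_three, w00, w01] using congrFun (congrFun hWW 0) 0
  have hW11 : W 1 1 = 1 := by linear_combination hd + W 1 1 * p00
  have h02 : W 0 2 ≠ 0 := fun h => by rw [h, zero_mul] at p00; simp at p00
  obtain ⟨D, hD⟩ : ∃ D : GL (Fin 3) F,
      (D : Matrix (Fin 3) (Fin 3) F) = !![-W 0 2, 0, 0; 0, 1, 0; 0, 0, 1] :=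
    ⟨Matrix.GeneralLinearGroup.mkOfDetNeZero _ (by simp [Matrix.det_fin_three, h02]), rfl⟩
  refine ⟨B * D, w, ws, hwsX, hw2, hwc, cMat_mul_basis ?_, cMat_mul_basis ?_, cMat_mul_basis ?_,
    cMat_mul_basis ?_⟩
  · rw [hBH, hD]
    ext i j; fin_cases i <;> fin_cases j <;> simp [Matrix.mul_apply, Fin.sum_univ_three]
  · rw [hBs, hD]
    ext i j; fin_cases i <;> fin_cases j <;> simp [Matrix.mul_apply, Fin.sum_univ_three]
  · rw [hBw, hD]
    ext i j; fin_cases i <;> fin_cases j <;> simp [Matrix.mul_apply, Fin.sum_univ_three]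
  · rw [← hW, hD]
    ext i j; fin_cases i <;> fin_cases j <;>
      simp [Matrix.mul_apply, Fin.sum_univ_three, w00, w01, w10, w12, w21, w22, hW11] <;>
      linear_combination -p00

set_option maxHeartbeats 1600000 in
/-- A root of `w` of the standard shape. -/
theorem exists_root {B : GL (Fin 3) F} {w : cenH R X}
    (hw2 : (w : GL (Fin 3) F) * (w : GL (Fin 3) F) = Root3.gH)
    (hwc : bar w * bar fs.s = bar fs.s * bar w)
    (hBH : cMat B Root3.gH = !![1, 0, 0; 0, -1, 0; 0, 0, -1])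
    (hBw : cMat B (w : GL (Fin 3) F) = !![1, 0, 0; 0, 0, -1; 0, 1, 0]) :
    ∃ (u : GL (Fin 3) F) (ε p : F), u ∈ X ∧ u * Root3.gH = Root3.gH * u ∧ ε * ε = 1 ∧
      2 * ε * p ^ 2 = 1 ∧ cMat B u = !![ε, 0, 0; 0, p, p; 0, -p, p] ∧
      cMat B u⁻¹ = !![ε, 0, 0; 0, ε * p, -(ε * p); 0, ε * p, ε * p] := by
  obtain ⟨r, hr⟩ := (fs.facts hc).root (bar w) ⟨w, rfl, 0, by rw [pow_zero, one_mul, hw2]⟩ hwc
  obtain ⟨u₀, rfl⟩ := bar_surj r
  obtain ⟨k, hk⟩ := hc.ker_of_bar (d := w⁻¹ * (u₀ * u₀)) (by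
    rw [bar_mul, bar_inv, bar_mul, ← pow_two, hr, inv_mul_cancel])
  simp only [Subgroup.coe_mul, Subgroup.coe_inv, inv_mul_eq_iff_eq_mul] at hk
  -- remove the scalar
  have hz : ∀ e : GL (Fin 3) F, (u₀ : GL (Fin 3) F) * u₀ = (w : GL (Fin 3) F) * (R.gZ ^ k * e) →
      R.gZ ^ k * (u₀ : GL (Fin 3) F) * (R.gZ ^ k * u₀) = (w : GL (Fin 3) F) * e := by
    intro e h
    rw [mul_assoc, ← mul_assoc (u₀ : GL (Fin 3) F), ← R.zpow_comm, mul_assoc, h, ← mul_assoc (w : GL (Fin 3) F),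
      ← R.zpow_comm, mul_assoc, ← mul_assoc, ← mul_assoc, ← pow_add, ← pow_add,
      show k + k + k = 3 * k by ring, pow_mul, R.gZ_cube, one_pow, one_mul]
  have hzH : R.gZ ^ k * Root3.gH = Root3.gH * R.gZ ^ k := R.zpow_comm k _
  obtain ⟨u, huX, huH, hu⟩ : ∃ u : GL (Fin 3) F, u ∈ X ∧ u * Root3.gH = Root3.gH * u ∧
      (u * u = (w : GL (Fin 3) F) ∨ u * u = (w : GL (Fin 3) F)⁻¹) := by
    refine ⟨R.gZ ^ k * u₀, mul_mem (pow_mem hc.gZ_mem k) u₀.2.1, ?_, ?_⟩
    · rw [mul_assoc, hc.comm_gH u₀, ← mul_assoc, hzH, mul_assoc]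
    · rcases hk with hk | hk
      · exact Or.inl (by rw [hz 1 (by rw [mul_one]; exact hk), mul_one])
      · refine Or.inr (eq_inv_of_mul_eq_one_left ?_)
        rw [hz _ hk, hc.comm_gH w, mul_assoc, hw2, Root3.gH_sq]
  set U := cMat B u with hU
  have hUH : U * !![1, 0, 0; 0, -1, 0; 0, 0, -1] = !![1, 0, 0; 0, -1, 0; 0, 0, -1] * U := by
    rw [hU, ← hBH, ← cMat_mul, ← cMat_mul, huH]
  have key : ∀ {a : F}, a = -a → a = 0 := fun {a} ha =>
    (mul_eq_zero.1 (show (2 : F) * a = 0 by linear_combination ha)).resolve_left R.two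
  have u01 : U 0 1 = 0 := key (by simpa [Matrix.mul_apply, Fin.sum_univ_three] using (congrFun (congrFun hUH 0) 1).symm)
  have u02 : U 0 2 = 0 := key (by simpa [Matrix.mul_apply, Fin.sum_univ_three] using (congrFun (congrFun hUH 0) 2).symm)
  have u10 : U 1 0 = 0 := key (by simpa [Matrix.mul_apply, Fin.sum_univ_three] using congrFun (congrFun hUH 1) 0)
  have u20 : U 2 0 = 0 := key (by simpa [Matrix.mul_apply, Fin.sum_univ_three] using congrFun (congrFun hUH 2) 0)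
  have huw : u * (w : GL (Fin 3) F) = (w : GL (Fin 3) F) * u := by
    have hcu : Commute u (u * u) := (Commute.refl u).mul_right (Commute.refl u)
    rcases hu with h | h
    · exact (h ▸ hcu).eq
    · exact (Commute.inv_right_iff.1 (h ▸ hcu)).eq
  have hUw := congrArg (cMat B) huw
  rw [cMat_mul, cMat_mul, hBw, ← hU] at hUw
  have r11 : U 2 1 = -U 1 2 := by
    have := congrFun (congrFun hUw 1) 1
    simp [Matrix.mul_apply, Fin.sum_univ_three, u01, u02, u10, u20] at this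
    linear_combination this
  have r12 : U 2 2 = U 1 1 := by
    have := congrFun (congrFun hUw 1) 2
    simp [Matrix.mul_apply, Fin.sum_univ_three, u01, u02, u10, u20] at this
    linear_combination -this
  have hd : U.det = 1 := by rw [hU, det_cMat]; exact hc.det _ huX
  simp [Matrix.det_fin_three, u01, u02, u10, u20, r11, r12] at hd
  obtain ⟨σ, hσ, hUU⟩ : ∃ σ : F, σ * σ = 1 ∧ U * U = !![1, 0, 0; 0, 0, -σ; 0, σ, 0] := by
    rcases hu with h | h
    · exact ⟨1, mul_one 1, by rw [hU, ← cMat_mul, h, hBw]⟩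
    · refine ⟨-1, by ring, ?_⟩
      rw [hU, ← cMat_mul, h, show (w : GL (Fin 3) F)⁻¹ = (w : GL (Fin 3) F) * Root3.gH from
        inv_eq_of_mul_eq_one_right (by rw [← mul_assoc, hw2, Root3.gH_sq]), cMat_mul, hBw, hBH]
      ext i j; fin_cases i <;> fin_cases j <;> simp [Matrix.mul_apply, Fin.sum_univ_three]
  have e00 := congrFun (congrFun hUU 0) 0
  have e11 := congrFun (congrFun hUU 1) 1
  have e12 := congrFun (congrFun hUU 1) 2
  simp [Matrix.mul_apply, Fin.sum_univ_three, u01, u02, u10, u20, r11, r12] at e00 e11 e12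
  -- normalise the sign
  rcases mul_eq_zero.1 (show (U 1 1 - U 1 2) * (U 1 1 + U 1 2) = 0 by linear_combination e11)
    with h | h
  · have hp : U 1 2 = U 1 1 := by linear_combination -h
    rw [hp] at hd e12
    have hε : 2 * U 0 0 * U 1 1 ^ 2 = 1 := by linear_combination hd
    have huv : cMat B u = !![U 0 0, 0, 0; 0, U 1 1, U 1 1; 0, -U 1 1, U 1 1] := by
      rw [← hU]; ext i j; fin_cases i <;> fin_cases j <;> simp [u01, u02, u10, u20, r11, r12, hp]
    refine ⟨u, U 0 0, U 1 1, huX, huH, e00, hε, huv, ?_⟩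
    have h1 : cMat B u * cMat B u⁻¹ = 1 := by rw [← cMat_mul, mul_inv_cancel, cMat_one]
    rw [huv] at h1
    refine left_inv_eq_right_inv (a := !![U 0 0, 0, 0; 0, U 1 1, U 1 1; 0, -U 1 1, U 1 1]) ?_ ?_ |>.symm
    · ext i j; fin_cases i <;> fin_cases j <;> simp [Matrix.mul_apply, Fin.sum_univ_three] <;>
        first | linear_combination e00 | linear_combination hε | ring1
    · exact h1
  · have hp : U 1 2 = -U 1 1 := by linear_combination h
    rw [hp] at hd e12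
    have hε : 2 * U 0 0 * U 1 1 ^ 2 = 1 := by linear_combination hd
    have huv : cMat B u = !![U 0 0, 0, 0; 0, U 1 1, -U 1 1; 0, U 1 1, U 1 1] := by
      rw [← hU]; ext i j; fin_cases i <;> fin_cases j <;> simp [u01, u02, u10, u20, r11, r12, hp]
    obtain ⟨p, hp'⟩ : ∃ p, p = U 0 0 * U 1 1 := ⟨_, rfl⟩
    have hεp : 2 * U 0 0 * p ^ 2 = 1 := by
      rw [hp']; linear_combination hε + 2 * U 0 0 * U 1 1 ^ 2 * e00
    have hinv : cMat B u⁻¹ = !![U 0 0, 0, 0; 0, p, p; 0, -p, p] := by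
      have h1 : cMat B u * cMat B u⁻¹ = 1 := by rw [← cMat_mul, mul_inv_cancel, cMat_one]
      rw [huv] at h1
      refine left_inv_eq_right_inv (a := !![U 0 0, 0, 0; 0, U 1 1, -U 1 1; 0, U 1 1, U 1 1]) ?_ h1 |>.symm
      rw [hp']
      ext i j; fin_cases i <;> fin_cases j <;> simp [Matrix.mul_apply, Fin.sum_univ_three] <;>
        first | linear_combination e00 | linear_combination hε | ring1
    refine ⟨u⁻¹, U 0 0, p, inv_mem huX, (Commute.inv_left huH).eq, e00, hεp, hinv, ?_⟩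
    rw [inv_inv, huv, hp', show U 0 0 * (U 0 0 * U 1 1) = U 1 1 by linear_combination U 1 1 * e00]

set_option maxHeartbeats 1600000 in
/-- There is no fused involution. -/
theorem absurd_fused : False := by
  obtain ⟨B, w, ws, hwsX, hw2, hwc, hBH, hBs, hBw, hBws⟩ := fs.exists_basis hc
  obtain ⟨u, ε, p, huX, huH, hε, hεp, hBu, hBu'⟩ := fs.exists_root hc hw2 hwc hBH hBw
  obtain ⟨π, hπd⟩ : ∃ π, π = (w : GL (Fin 3) F) * ws := ⟨_, rfl⟩
  obtain ⟨s', hs'd⟩ : ∃ s', s' = u * (fs.s : GL (Fin 3) F) * u⁻¹ := ⟨_, rfl⟩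
  obtain ⟨W, hWd⟩ : ∃ W, W = u * ws * u⁻¹ := ⟨_, rfl⟩
  have hBπ : cMat B π = !![0, 0, -1; -1, 0, 0; 0, 1, 0] := by
    rw [hπd, cMat_mul, hBw, hBws]
    ext i j; fin_cases i <;> fin_cases j <;> simp [Matrix.mul_apply, Fin.sum_univ_three]
  have hBs' : cMat B s' = !![-1, 0, 0; 0, 0, -1; 0, -1, 0] := by
    rw [hs'd, cMat_mul, cMat_mul, hBu, hBs, hBu']
    ext i j; fin_cases i <;> fin_cases j <;> simp [Matrix.mul_apply, Fin.sum_univ_three] <;>
      first | ring1 | linear_combination hεp | linear_combination -hεp | linear_combination -hε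
            | linear_combination hε
  have half : ε * p ^ 2 = 1 / 2 := by
    rw [eq_div_iff R.two]; linear_combination hεp
  have hBW : cMat B W = !![0, -p, -p; ε * p, 1 / 2, -1 / 2; ε * p, -1 / 2, 1 / 2] := by
    rw [hWd, cMat_mul, cMat_mul, hBu, hBws, hBu', neg_div]
    ext i j; fin_cases i <;> fin_cases j <;> simp [Matrix.mul_apply, Fin.sum_univ_three] <;>
      first | ring1 | linear_combination p * hε | linear_combination -p * hε
            | linear_combination half | linear_combination -half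
  have hπX : π ∈ X := hπd ▸ mul_mem w.2.1 hwsX
  have hs'X : s' ∈ X := hs'd ▸ mul_mem (mul_mem huX fs.s.2.1) (inv_mem huX)
  have hWX : W ∈ X := hWd ▸ mul_mem (mul_mem huX hwsX) (inv_mem huX)
  have inj := cMat_injective (F := F) B
  have hs'2 : s' * s' = 1 := inj (by
    rw [cMat_mul, hBs', cMat_one]
    ext i j; fin_cases i <;> fin_cases j <;> simp [Matrix.mul_apply, Fin.sum_univ_three])
  have hπ3 : π ^ 3 = 1 := inj (by
    rw [pow_succ, pow_two, cMat_mul, cMat_mul, hBπ, cMat_one]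
    ext i j; fin_cases i <;> fin_cases j <;> simp [Matrix.mul_apply, Fin.sum_univ_three])
  have hinv : s' * π * s' = π * π := inj (by
    rw [cMat_mul, cMat_mul, cMat_mul, hBs', hBπ]
    ext i j; fin_cases i <;> fin_cases j <;> simp [Matrix.mul_apply, Fin.sum_univ_three])
  have hW2 : W * W = s' := by
    rw [hWd, hs'd, show u * ws * u⁻¹ * (u * ws * u⁻¹) = u * (ws * ws) * u⁻¹ by group]
    congr 2
    exact inj (by
      rw [cMat_mul, hBws, hBs]
      ext i j; fin_cases i <;> fin_cases j <;> simp [Matrix.mul_apply, Fin.sum_univ_three])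
  have hWH : W * Root3.gH = Root3.gH * s' * W := by
    rw [hWd, hs'd]
    have h1 : ws * Root3.gH = Root3.gH * (fs.s : GL (Fin 3) F) * ws := inj (by
      rw [cMat_mul, cMat_mul, cMat_mul, hBws, hBH, hBs]
      ext i j; fin_cases i <;> fin_cases j <;> simp [Matrix.mul_apply, Fin.sum_univ_three])
    have huH' : u⁻¹ * Root3.gH = Root3.gH * u⁻¹ := (Commute.inv_left huH).eq
    rw [mul_assoc (u * ws), huH', show u * ws * (Root3.gH * u⁻¹) = u * (ws * Root3.gH) * u⁻¹ by group,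
      h1, show u * (Root3.gH * (fs.s : GL (Fin 3) F) * ws) * u⁻¹ =
        u * Root3.gH * ((fs.s : GL (Fin 3) F) * ws) * u⁻¹ by group, huH]
    group
  have hs'H : s' * Root3.gH = Root3.gH * s' := inj (by
    rw [cMat_mul, cMat_mul, hBs', hBH]
    ext i j; fin_cases i <;> fin_cases j <;> simp [Matrix.mul_apply, Fin.sum_univ_three])
  have hs'ne : s' ≠ Root3.gH := fun h => by
    have := congrFun (congrFun (congrArg (cMat B) h) 1) 1
    rw [hBs', hBH] at this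
    simp at this
  -- move `π` onto `Z X`
  obtain ⟨x, hxX, hx⟩ := fs.exists_conj_into hc hπX hπ3
  have hns : ∀ a, x * π * x⁻¹ ≠ R.gZ ^ a := fun a h => by
    apply R.not_trace_scalar a
    rw [← h, Units.val_mul, Units.val_mul, Matrix.trace_units_conj, ← trace_cMat B, hBπ]
    simp [Matrix.trace_fin_three]
  obtain ⟨a, b, c, hb, hc3, hbc, hel⟩ := R.exists_el_of_not_scalar hx hns
  obtain ⟨q, hq, -, k, hk⟩ := R.exists_Qs_conj hb hc3 hbc
  obtain ⟨G₁, hG₁⟩ : ∃ G₁, G₁ = q⁻¹ * x := ⟨_, rfl⟩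
  have hG₁X : G₁ ∈ X := hG₁ ▸ mul_mem (inv_mem (hc.Qs_le hq)) hxX
  obtain ⟨j, hG₁π⟩ : ∃ j, G₁ * π * G₁⁻¹ = R.gZ ^ j * R.gX := by
    refine ⟨a + 2 * k, ?_⟩
    have hab : R.el a b c = R.gZ ^ (a + 2 * k) * R.el k b c := by
      rw [Root3.el, Root3.el, ← mul_assoc (R.gZ ^ (a + 2 * k)), ← pow_add,
        show a + 2 * k + k = a + 3 * k by ring, pow_add, pow_mul, R.gZ_cube, one_pow, mul_one]
    calc G₁ * π * G₁⁻¹ = q⁻¹ * (x * π * x⁻¹) * q := by rw [hG₁]; group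
      _ = q⁻¹ * R.gZ ^ (a + 2 * k) * (q * R.gX * q⁻¹) * q := by
          rw [hel, hab, hk, mul_assoc q⁻¹ (R.gZ ^ _)]
      _ = R.gZ ^ (a + 2 * k) * R.gX := by rw [← R.zpow_comm]; group
  obtain ⟨t, ht⟩ : ∃ t, t = G₁ * s' * G₁⁻¹ := ⟨_, rfl⟩
  have htX : t ∈ X := ht ▸ mul_mem (mul_mem hG₁X hs'X) (inv_mem hG₁X)
  have ht2 : t * t = 1 := by
    rw [ht, show G₁ * s' * G₁⁻¹ * (G₁ * s' * G₁⁻¹) = G₁ * (s' * s') * G₁⁻¹ by group, hs'2]; group
  have htX' : t * R.gX * t = R.gZ ^ j * R.gX ^ 2 := by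
    have h1 : t * (R.gZ ^ j * R.gX) * t = (R.gZ ^ j * R.gX) * (R.gZ ^ j * R.gX) := by
      rw [← hG₁π, ht, show G₁ * s' * G₁⁻¹ * (G₁ * π * G₁⁻¹) * (G₁ * s' * G₁⁻¹) =
        G₁ * (s' * π * s') * G₁⁻¹ by group, hinv]
      group
    have h2 : R.gZ ^ j * (t * R.gX * t) = R.gZ ^ j * (R.gZ ^ j * R.gX ^ 2) := by
      rw [← mul_assoc t, ← R.zpow_comm j t, mul_assoc (R.gZ ^ j) R.gX, ← mul_assoc R.gX,
        ← R.zpow_comm j R.gX] at h1
      rw [pow_two]
      simpa only [mul_assoc] using h1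
    exact mul_left_cancel h2
  obtain ⟨g₀, hg₀X, hg₀H, i, hg₀i⟩ := fs.inverter hc htX ht2 htX'
  obtain ⟨G, hG⟩ : ∃ G, G = G₁⁻¹ * g₀ := ⟨_, rfl⟩
  have hGX : G ∈ X := hG ▸ mul_mem (inv_mem hG₁X) hg₀X
  have hGH : G * Root3.gH * G⁻¹ = s' := by
    rw [hG, show G₁⁻¹ * g₀ * Root3.gH * (G₁⁻¹ * g₀)⁻¹ = G₁⁻¹ * (g₀ * Root3.gH * g₀⁻¹) * G₁ by group,
      hg₀H, ht]
    group
  obtain ⟨n, hπG⟩ : ∃ n, π = R.gZ ^ n * (G * R.gX * G⁻¹) := by
    refine ⟨j + 2 * i, ?_⟩
    calc π = G₁⁻¹ * (G₁ * π * G₁⁻¹) * G₁ := by group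
      _ = G₁⁻¹ * (R.gZ ^ (j + 2 * i) * (R.gZ ^ i * R.gX)) * G₁ := by
          rw [hG₁π, ← mul_assoc (R.gZ ^ (j + 2 * i)), ← pow_add, show j + 2 * i + i = j + 3 * i by ring,
            pow_add, pow_mul, R.gZ_cube, one_pow, mul_one]
      _ = R.gZ ^ (j + 2 * i) * (G₁⁻¹ * (g₀ * R.gX * g₀⁻¹) * G₁) := by
          rw [hg₀i, ← mul_assoc G₁⁻¹, ← R.zpow_comm (j + 2 * i) G₁⁻¹]; group
      _ = _ := by rw [hG]; group
  -- `v = G⁻¹ W G` normalises `Rs`
  obtain ⟨v, hv⟩ : ∃ v, v = G⁻¹ * W * G := ⟨_, rfl⟩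
  have hv2 : v * v = Root3.gH := by
    rw [hv, show G⁻¹ * W * G * (G⁻¹ * W * G) = G⁻¹ * (W * W) * G by group, hW2, ← hGH]; group
  have hvX : v ∈ X := hv ▸ mul_mem (mul_mem (inv_mem hGX) hWX) hGX
  have hvH : v * Root3.gH = Root3.gH * v := by rw [← hv2, mul_assoc]
  obtain ⟨s'', hs''⟩ : ∃ s'', s'' = G⁻¹ * Root3.gH * G := ⟨_, rfl⟩
  have hs''X : s'' ∈ X := hs'' ▸ mul_mem (mul_mem (inv_mem hGX) hc.gH_mem) hGX
  have hs''H : s'' * Root3.gH = Root3.gH * s'' := by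
    calc s'' * Root3.gH = G⁻¹ * (Root3.gH * (G * Root3.gH * G⁻¹)) * G := by rw [hs'']; group
      _ = G⁻¹ * ((G * Root3.gH * G⁻¹) * Root3.gH) * G := by rw [hGH, hs'H]
      _ = _ := by rw [hs'']; group
  have hs''2 : s'' * s'' = 1 := by
    rw [hs'', show G⁻¹ * Root3.gH * G * (G⁻¹ * Root3.gH * G) = G⁻¹ * (Root3.gH * Root3.gH) * G by group,
      Root3.gH_sq]
    group
  have hs''1 : s'' ≠ 1 := fun h => hc.Z_pow_ne_H 0 (by
    rw [pow_zero, show Root3.gH = G * (G⁻¹ * Root3.gH * G) * G⁻¹ by group, ← hs'', h]; group)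
  have hs''ne : s'' ≠ Root3.gH := fun h => hs'ne (by
    rw [← hGH]
    calc G * Root3.gH * G⁻¹ = G * (G⁻¹ * Root3.gH * G) * G⁻¹ := by rw [← hs'', h]
      _ = Root3.gH := by group)
  let S : cenH R X := ⟨s'', mem_cenH.2 ⟨hs''X, hs''H⟩⟩
  let V : cenH R X := ⟨v, mem_cenH.2 ⟨hvX, hvH⟩⟩
  have hF := hc.facts (s := S) hs''2 hs''1 hs''ne
  obtain ⟨w'', hw''Q, hw''2, -, hw''c⟩ := hc.exists_switch (s := S) hs''2 hs''1 hs''ne
  have hVS : bar V * bar S = bar S * bar V := by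
    have hH : Root3.gH ∈ cenH R X := mem_cenH.2 ⟨hc.gH_mem, rfl⟩
    have e : V * S = ⟨Root3.gH, hH⟩ * (S * V) := Subtype.ext (by
      show v * s'' = Root3.gH * (s'' * v)
      calc v * s'' = G⁻¹ * (W * Root3.gH) * G := by rw [hv, hs'']; group
        _ = G⁻¹ * (Root3.gH * (G * Root3.gH * G⁻¹) * W) * G := by rw [hGH, hWH]
        _ = s'' * Root3.gH * v := by rw [hs'', hv]; group
        _ = _ := by rw [hs''H, mul_assoc])
    rw [← bar_mul, e, bar_mul, hc.bar_of_ker (d := (⟨Root3.gH, hH⟩ : cenH R X)) ⟨0, Or.inr (by simp)⟩,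
      one_mul, bar_mul]
  have hu := hF.unique (bar V) (bar w'') ⟨V, rfl, 0, by rw [pow_zero, one_mul]; exact hv2⟩ hVS
    ⟨w'', rfl, 0, by rw [pow_zero, one_mul, hw''2]⟩ hw''c
  obtain ⟨m, hm⟩ := hc.ker_of_bar (d := w''⁻¹ * V) (by rw [bar_mul, bar_inv, hu, inv_mul_cancel])
  have hvN : v ∈ Subgroup.normalizer (R.Rs : Set (GL (Fin 3) F)) := by
    have hZN : R.gZ ^ m ∈ Subgroup.normalizer (R.Rs : Set (GL (Fin 3) F)) :=
      Subgroup.le_normalizer (pow_mem R.gZ_mem m)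
    simp only [Subgroup.coe_mul, Subgroup.coe_inv, inv_mul_eq_iff_eq_mul] at hm
    rcases hm with hm | hm
    · exact (show v = _ from hm).symm ▸ mul_mem (R.Qs_le_normalizer hw''Q) hZN
    · exact (show v = _ from hm).symm ▸ mul_mem (R.Qs_le_normalizer hw''Q) (mul_mem hZN (R.Qs_le_normalizer R.gH_mem_Qs))
  have hrR : v * R.gX * v⁻¹ ∈ R.Rs := (Subgroup.mem_normalizer_iff.1 hvN _).1 R.gX_mem
  -- traces
  have hWπ : W * π * W⁻¹ = R.gZ ^ n * (G * (v * R.gX * v⁻¹) * G⁻¹) := by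
    rw [hπG, ← mul_assoc W, ← R.zpow_comm n W, hv]; group
  have hW' : cMat B W⁻¹ = !![0, p, p; -(ε * p), 1 / 2, -1 / 2; -(ε * p), -1 / 2, 1 / 2] := by
    have hWi : W⁻¹ = W * s' := inv_eq_of_mul_eq_one_right (by rw [← mul_assoc, hW2, hs'2])
    rw [hWi, cMat_mul, hBW, hBs']
    ext i j; fin_cases i <;> fin_cases j <;> simp [Matrix.mul_apply, Fin.sum_univ_three] <;>
      ring1
  have hπ' : cMat B (W * π * W⁻¹) = cMat B W * cMat B π * cMat B W⁻¹ := by
    rw [cMat_mul, cMat_mul]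
  rcases R.scalar_or_trace (mul_mem R.gX_mem hrR) with ⟨e, he⟩ | htr
  · have hr : v * R.gX * v⁻¹ = R.gZ ^ e * R.gX ^ 2 := by
      have hX3 : R.gX ^ 2 * R.gX = 1 := by rw [← pow_succ, R.gX_cube]
      calc v * R.gX * v⁻¹ = R.gX ^ 2 * R.gX * (v * R.gX * v⁻¹) := by rw [hX3, one_mul]
        _ = R.gX ^ 2 * R.gZ ^ e := by rw [mul_assoc, he]
        _ = _ := (R.zpow_comm e _).symm
    have heq : W * π * W⁻¹ = R.gZ ^ (n + e + n) * (π * π) := by
      have hππ : π * π = R.gZ ^ (n + n) * (G * R.gX ^ 2 * G⁻¹) := by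
        rw [hπG, mul_assoc (R.gZ ^ n), ← mul_assoc (G * R.gX * G⁻¹), ← R.zpow_comm n (G * R.gX * G⁻¹),
          mul_assoc (R.gZ ^ n) (G * R.gX * G⁻¹), ← mul_assoc, ← pow_add, pow_two]
        group
      rw [hWπ, hr, hππ, ← mul_assoc G, ← R.zpow_comm e G, ← mul_assoc (R.gZ ^ (n + e + n)), ← pow_add,
        show n + e + n + (n + n) = n + e + 3 * n by ring, pow_add, pow_add, pow_mul, R.gZ_cube, one_pow,
        mul_one]
      group
    have h00 := congrFun (congrFun (congrArg (cMat B) heq) 0) 0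
    rw [hπ', cMat_gZ_pow_mul, cMat_mul, hBW, hBπ, hW'] at h00
    simp [Matrix.mul_apply, Fin.sum_univ_three] at h00
    rcases h00 with rfl | rfl | rfl <;> simp at hεp
  · have h := congrArg (fun g : GL (Fin 3) F => Matrix.trace (cMat B g))
      (show π * (W * π * W⁻¹) = R.gZ ^ (n + n) * (G * (R.gX * (v * R.gX * v⁻¹)) * G⁻¹) by
        rw [hWπ, hπG, mul_assoc (R.gZ ^ n), ← mul_assoc (G * R.gX * G⁻¹), ← R.zpow_comm n (G * R.gX * G⁻¹),
          mul_assoc (R.gZ ^ n) (G * R.gX * G⁻¹), ← mul_assoc, ← pow_add]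
        group)
    rw [cMat_mul, hπ', cMat_gZ_pow_mul, Matrix.trace_smul, trace_cMat, hBπ, hBW, hW', Units.val_mul,
      Units.val_mul, Matrix.trace_units_conj, htr, smul_zero] at h
    simp [Matrix.trace_fin_three, Matrix.mul_apply, Fin.sum_univ_three] at h
    have h4 : (1 : F) - 4 * ε = 0 := by
      linear_combination 4 * h + 4 * ε * hεp - 4 * p ^ 2 * hε -
        ((2 : F) * 2⁻¹ + 1) * mul_inv_cancel₀ R.two
    rcases mul_self_eq_one_iff.1 hε with rfl | rfl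
    · exact R.three (by linear_combination -h4)
    · exact hc.five (by linear_combination h4)

end Fused

end Cfsg.Agent.SLThree.Symp
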