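import Mathlib

/-!
Facts about the finite subgroups of `PGL(2, F)` of order prime to the characteristic (cyclic,
dihedral, `A₄`, `S₄`, `A₅`) used for the normaliser of `3^{1+2}` in dimension three.
-/

set_option autoImplicit false
set_option linter.style.haveILetI false

namespace Cfsg.Agent.SLThree.Symp

open Equiv

/-- One of the five isomorphism types. -/
inductive Rot (G : Type*) [Group G] : Prop
  | cyclic (h : IsCyclic G)
  | dihedral (n : ℕ) (hn : 2 ≤ n) (e : Nonempty (G ≃* DihedralGroup n))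
  | a4 (e : Nonempty (G ≃* alternatingGroup (Fin 4)))
  | s4 (e : Nonempty (G ≃* Perm (Fin 4)))
  | a5 (e : Nonempty (G ≃* alternatingGroup (Fin 5)))

/-! ### finite checks -/

theorem a4_pow : ∀ g : alternatingGroup (Fin 4), g ^ 2 = 1 ∨ g ^ 3 = 1 := by decide +kernel

theorem a5_pow : ∀ g : alternatingGroup (Fin 5), g ^ 2 = 1 ∨ g ^ 3 = 1 ∨ g ^ 5 = 1 := by
  decide +kernel

theorem s4_pow : ∀ g : Perm (Fin 4), g ^ 2 = 1 ∨ g ^ 3 = 1 ∨ g ^ 4 = 1 := by decide +kernel

/-- The double transpositions. -/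
def IsDouble (g : Perm (Fin 4)) : Prop := g ^ 2 = 1 ∧ g ≠ 1 ∧ Perm.sign g = 1

instance : DecidablePred IsDouble := fun g => by unfold IsDouble; infer_instance

theorem s4_centraliser : ∀ g h : Perm (Fin 4), g ^ 2 ≠ 1 → h ^ 2 = 1 → h ≠ 1 → g * h = h * g →
    IsDouble h := by decide +kernel

theorem s4_double_comm : ∀ g h : Perm (Fin 4), IsDouble g → IsDouble h → g * h = h * g := by
  decide +kernel

theorem s4_some_double : ∀ a b : Perm (Fin 4), a ^ 2 = 1 → a ≠ 1 → b ^ 2 = 1 → b ≠ 1 → a ≠ b →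
    a * b = b * a → IsDouble a ∨ IsDouble b ∨ IsDouble (a * b) := by decide +kernel

theorem s4_double_conj : ∀ u v : Perm (Fin 4), IsDouble u → IsDouble v →
    ∃ g, g * u * g⁻¹ = v := by decide +kernel

theorem s4_swap_conj : ∀ u v : Perm (Fin 4), u ^ 2 = 1 → u ≠ 1 → ¬ IsDouble u → v ^ 2 = 1 →
    v ≠ 1 → ¬ IsDouble v → ∃ g, g * u * g⁻¹ = v := by decide +kernel

set_option synthInstance.maxSize 2000 in
theorem s4_swap_cent : ∀ s g : Perm (Fin 4), s ^ 2 = 1 → s ≠ 1 → ¬ IsDouble s → g * s = s * g →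
    g ^ 2 = 1 := by decide +kernel

set_option synthInstance.maxSize 2000 in
theorem s4_double_unique : ∀ s : Perm (Fin 4), s ^ 2 = 1 → s ≠ 1 → ¬ IsDouble s →
    ∀ c t : Perm (Fin 4), IsDouble c → c * s = s * c → IsDouble t → t * s = s * t → c = t := by
  decide +kernel

theorem s4_double_exists : ∀ s : Perm (Fin 4), s ^ 2 = 1 → s ≠ 1 → ¬ IsDouble s →
    ∃ c : Perm (Fin 4), IsDouble c ∧ c * s = s * c := by decide +kernel

theorem s4_double_sq : ∀ c : Perm (Fin 4), IsDouble c → ∃ r : Perm (Fin 4), r ^ 2 = c := by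
  decide +kernel

theorem s4_invert : ∀ g : Perm (Fin 4), g ^ 3 = 1 → ∃ s : Perm (Fin 4), s ^ 2 = 1 ∧ s ≠ 1 ∧
    ¬ IsDouble s ∧ s * g * s = g⁻¹ := by decide +kernel

theorem s4_double_three : ∀ u v w : Perm (Fin 4), IsDouble u → IsDouble v → IsDouble w → u ≠ v →
    w ≠ u → w ≠ v → w = u * v := by decide +kernel

theorem a4_conj : ∀ u v : alternatingGroup (Fin 4), u ^ 2 = 1 → u ≠ 1 → v ^ 2 = 1 → v ≠ 1 →
    ∃ g, g * u * g⁻¹ = v := by decide +kernel

theorem a5_conj : ∀ u v : alternatingGroup (Fin 5), u ^ 2 = 1 → u ≠ 1 → v ^ 2 = 1 → v ≠ 1 →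
    ∃ g, g * u * g⁻¹ = v := by decide +kernel

/-! ### generic consequences -/

variable {G : Type*} [Group G]

theorem commute_of_mem_rotation {n : ℕ} {x y : DihedralGroup n} (hx : x ^ 2 ≠ 1) (hy : y ^ 2 ≠ 1) :
    Commute x y := by
  rcases x with i | i <;> rcases y with j | j
  · exact (DihedralGroup.r_mul_r i j).trans (by rw [add_comm, DihedralGroup.r_mul_r])
  all_goals first
    | exact absurd (by rw [pow_two]; exact DihedralGroup.sr_mul_self _) hy
    | exact absurd (by rw [pow_two]; exact DihedralGroup.sr_mul_self _) hx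

theorem sq_eq_one_of_cube {g h : G} (hg : g ^ 3 = 1) (hh : h ^ 2 = 1) (hc : Commute g h)
    (h6 : (g * h) ^ 2 = 1 ∨ (g * h) ^ 3 = 1) : g = 1 ∨ h = 1 := by
  rcases h6 with h6 | h6 <;> rw [hc.mul_pow] at h6
  · rw [hh, mul_one] at h6
    exact Or.inl (by simpa [pow_succ, h6] using hg)
  · rw [hg, one_mul] at h6
    exact Or.inr (by simpa [pow_succ, hh] using h6)

/-- Two commuting pairs (element of order at least three, involution) in such a group: either the
two big elements commute or the two involutions commute. -/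
theorem Rot.commute_or (hG : Rot G) {g g' h h' : G} (hg : g ^ 2 ≠ 1) (hg' : g' ^ 2 ≠ 1)
    (hh : h ^ 2 = 1) (hh1 : h ≠ 1) (hh' : h' ^ 2 = 1) (hh1' : h' ≠ 1) (hc : Commute g h)
    (hc' : Commute g' h') : Commute g g' ∨ Commute h h' := by
  rcases hG with hcy | ⟨n, -, ⟨e⟩⟩ | ⟨⟨e⟩⟩ | ⟨⟨e⟩⟩ | ⟨⟨e⟩⟩
  · haveI := hcy
    exact Or.inl (IsMulCommutative.is_comm.comm g g')
  · refine Or.inl ?_
    have := (commute_of_mem_rotation (x := e g) (y := e g')
      (fun h0 => hg (e.injective (by rw [map_pow, h0, map_one])))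
      (fun h0 => hg' (e.injective (by rw [map_pow, h0, map_one]))))
    exact e.injective (by rw [map_mul, map_mul]; exact this)
  · exfalso
    have h3 : g ^ 3 = 1 := by
      rcases a4_pow (e g) with h0 | h0
      · exact absurd (e.injective (by rw [map_pow, h0, map_one])) hg
      · exact e.injective (by rw [map_pow, h0, map_one])
    rcases sq_eq_one_of_cube h3 hh hc ((a4_pow (e (g * h))).imp
      (fun h0 => e.injective (by rw [map_pow, h0, map_one]))
      (fun h0 => e.injective (by rw [map_pow, h0, map_one]))) with h0 | h0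
    · exact hg (by rw [h0, one_pow])
    · exact hh1 h0
  · refine Or.inr ?_
    have key : ∀ {a b : G}, a ^ 2 ≠ 1 → b ^ 2 = 1 → b ≠ 1 → Commute a b → IsDouble (e b) :=
      fun {a b} ha hb hb1 hab => s4_centraliser (e a) (e b)
        (fun h0 => ha (e.injective (by rw [map_pow, h0, map_one])))
        (by rw [← map_pow, hb, map_one]) (fun h0 => hb1 (e.injective (by rw [h0, map_one])))
        (by rw [← map_mul, ← map_mul, hab.eq])
    exact e.injective (by
      rw [map_mul, map_mul]
      exact s4_double_comm _ _ (key hg hh hh1 hc) (key hg' hh' hh1' hc'))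
  · exfalso
    set a := e g
    set b := e h
    have hb : b ^ 2 = 1 := by rw [← map_pow, hh, map_one]
    have hb1 : b ≠ 1 := fun h0 => hh1 (e.injective (by rw [map_one]; exact h0))
    have hab : Commute a b := hc.map e.toMonoidHom
    have ha : a ^ 2 ≠ 1 := fun h0 => hg (e.injective (by rw [map_pow, map_one]; exact h0))
    rcases a5_pow (a * b) with h0 | h0 | h0 <;> rw [hab.mul_pow] at h0
    · exact ha (by rwa [hb, mul_one] at h0)
    all_goals rcases a5_pow a with h1 | h1 | h1
    all_goals first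
      | exact ha h1
      | skip
    · rw [h1, one_mul] at h0
      exact hb1 (by simpa [pow_succ, hb] using h0)
    · have : a ^ 15 = 1 := by rw [show 15 = 5 * 3 from rfl, pow_mul, h1, one_pow]
      have h15 : (a * b) ^ 15 = 1 := by
        rw [show 15 = 3 * 5 from rfl, pow_mul, hab.mul_pow, h0, one_pow]
      rw [hab.mul_pow, this, one_mul, show 15 = 2 * 7 + 1 from rfl, pow_succ, pow_mul, hb, one_pow,
        one_mul] at h15
      exact hb1 h15
    · have : a ^ 15 = 1 := by rw [show 15 = 3 * 5 from rfl, pow_mul, h1, one_pow]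
      have h15 : (a * b) ^ 15 = 1 := by
        rw [show 15 = 5 * 3 from rfl, pow_mul, hab.mul_pow, h0, one_pow]
      rw [hab.mul_pow, this, one_mul, show 15 = 2 * 7 + 1 from rfl, pow_succ, pow_mul, hb, one_pow,
        one_mul] at h15
      exact hb1 h15
    · rw [h1, one_mul] at h0
      have hb5 : b ^ 5 = b := by
        calc b ^ 5 = (b ^ 2) ^ 2 * b := by group
          _ = b := by rw [hb, one_pow, one_mul]
      exact hb1 (hb5 ▸ h0)

/-- Two elements of order prime to six commute, or the group is perfect. -/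
theorem Rot.commute_or_perfect (hG : Rot G) {g g' : G} {m m' : ℕ} (hm : Nat.Coprime m 6)
    (hgm : g ^ m = 1) (hm' : Nat.Coprime m' 6) (hgm' : g' ^ m' = 1) :
    Commute g g' ∨ commutator G = ⊤ := by
  have small : ∀ {x : G} {k l : ℕ}, Nat.Coprime k l → x ^ k = 1 → x ^ l = 1 → x = 1 :=
    fun {x k l} hkl h1 h2 => orderOf_eq_one_iff.1 (Nat.eq_one_of_dvd_coprimes hkl
      (orderOf_dvd_of_pow_eq_one h1) (orderOf_dvd_of_pow_eq_one h2))
  have c2 : ∀ {k : ℕ}, Nat.Coprime k 6 → Nat.Coprime k 2 := fun hk =>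
    hk.coprime_dvd_right (by norm_num)
  have c3 : ∀ {k : ℕ}, Nat.Coprime k 6 → Nat.Coprime k 3 := fun hk =>
    hk.coprime_dvd_right (by norm_num)
  have c4 : ∀ {k : ℕ}, Nat.Coprime k 6 → Nat.Coprime k 4 := fun hk => (c2 hk).pow_right 2
  rcases hG with hcy | ⟨n, -, ⟨e⟩⟩ | ⟨⟨e⟩⟩ | ⟨⟨e⟩⟩ | ⟨⟨e⟩⟩
  · haveI := hcy
    exact Or.inl (IsMulCommutative.is_comm.comm g g')
  · refine Or.inl ?_
    by_cases h1 : g = 1
    · rw [h1]; exact Commute.one_left g'
    by_cases h2 : g' = 1
    · rw [h2]; exact Commute.one_right g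
    exact e.injective (by
      rw [map_mul, map_mul]
      exact commute_of_mem_rotation
        (fun h0 => h1 (small (c2 hm) hgm (e.injective (by rw [map_pow, h0, map_one]))))
        (fun h0 => h2 (small (c2 hm') hgm' (e.injective (by rw [map_pow, h0, map_one])))))
  · refine Or.inl ?_
    have : g = 1 := by
      rcases a4_pow (e g) with h0 | h0
      · exact small (c2 hm) hgm (e.injective (by rw [map_pow, h0, map_one]))
      · exact small (c3 hm) hgm (e.injective (by rw [map_pow, h0, map_one]))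
    rw [this]; exact Commute.one_left g'
  · refine Or.inl ?_
    have : g = 1 := by
      rcases s4_pow (e g) with h0 | h0 | h0
      · exact small (c2 hm) hgm (e.injective (by rw [map_pow, h0, map_one]))
      · exact small (c3 hm) hgm (e.injective (by rw [map_pow, h0, map_one]))
      · exact small (c4 hm) hgm (e.injective (by rw [map_pow, h0, map_one]))
    rw [this]; exact Commute.one_left g'
  · refine Or.inr ?_
    have hA : commutator (alternatingGroup (Fin 5)) = ⊤ := by
      haveI := alternatingGroup.isSimpleGroup_five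
      refine (IsSimpleGroup.eq_bot_or_eq_top_of_normal (commutator (alternatingGroup (Fin 5)))
        inferInstance).resolve_left fun h0 => ?_
      have := Subgroup.center_eq_top_iff.1 ((commutator_eq_bot_iff_center_eq_top _).1 h0)
      have h3 := (alternatingGroup.isMulCommutative_iff_card_le_three (α := Fin 5)).1 this
      simp at h3
    apply Subgroup.map_injective (f := e.toMonoidHom) e.injective
    rw [commutator_def, Subgroup.map_commutator, Subgroup.map_top_of_surjective _ e.surjective,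
      ← commutator_def, hA]

/-! ### a four-group of marked involutions -/

/-- A conjugation invariant set of involutions containing a four-group. -/
structure Marked (P : G → Prop) (a b : G) : Prop where
  conj : ∀ g x, P x → P (g * x * g⁻¹)
  invol : ∀ x, P x → x ^ 2 = 1 ∧ x ≠ 1
  pa : P a
  pb : P b
  pab : P (a * b)
  comm : a * b = b * a
  ne : a ≠ b

/-- What is needed in the presence of an unmarked involution `s`. -/
structure MarkedFacts (P : G → Prop) (a b s : G) : Prop where
  conj : ∀ t, t ^ 2 = 1 → t ≠ 1 → ¬ P t → ∃ g, g * s * g⁻¹ = t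
  cent : ∀ g, g * s = s * g → g ^ 2 = 1
  exists_comm : ∃ c, (c = a ∨ c = b ∨ c = a * b) ∧ c * s = s * c
  unique : ∀ c t, P c → c * s = s * c → P t → t * s = s * t → c = t
  root : ∀ c, P c → c * s = s * c → ∃ r, r ^ 2 = c
  invert : ∀ g, g ^ 3 = 1 → ∃ t, t ^ 2 = 1 ∧ t ≠ 1 ∧ ¬ P t ∧ t * g * t = g⁻¹

theorem Marked.map {H : Type*} [Group H] (e : G ≃* H) {P : G → Prop} {a b : G} (hP : Marked P a b) :
    Marked (fun y => P (e.symm y)) (e a) (e b) where
  conj g x hx := by
    show P (e.symm (g * x * g⁻¹))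
    rw [map_mul, map_mul, map_inv]
    exact hP.conj _ _ hx
  invol x hx := by
    obtain ⟨h1, h2⟩ := hP.invol _ hx
    exact ⟨e.symm.injective (by rw [map_pow, h1, map_one]), fun h0 => h2 (by rw [h0, map_one])⟩
  pa := by simpa using hP.pa
  pb := by simpa using hP.pb
  pab := by
    show P (e.symm (e a * e b))
    rw [← map_mul, MulEquiv.symm_apply_apply]
    exact hP.pab
  comm := by rw [← map_mul, ← map_mul, hP.comm]
  ne h0 := hP.ne (e.injective h0)

theorem MarkedFacts.of_equiv {H : Type*} [Group H] (e : G ≃* H) {P : G → Prop} {a b s : G}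
    (h : MarkedFacts (fun y => P (e.symm y)) (e a) (e b) (e s)) : MarkedFacts P a b s where
  conj t h1 h2 h3 := by
    obtain ⟨g, hg⟩ := h.conj (e t) (by rw [← map_pow, h1, map_one])
      (fun h0 => h2 (e.injective (by rw [h0, map_one]))) (by simpa using h3)
    exact ⟨e.symm g, e.injective (by simp [hg])⟩
  cent g hg := e.injective (by
    rw [map_pow, map_one]
    exact h.cent (e g) (by rw [← map_mul, ← map_mul, hg]))
  exists_comm := by
    obtain ⟨c, hc, hcs⟩ := h.exists_comm
    refine ⟨e.symm c, ?_, e.injective (by simp [hcs])⟩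
    rcases hc with rfl | rfl | rfl <;> simp
  unique c t h1 h2 h3 h4 := e.injective (h.unique (e c) (e t) (by simpa using h1)
    (by rw [← map_mul, ← map_mul, h2]) (by simpa using h3) (by rw [← map_mul, ← map_mul, h4]))
  root c h1 h2 := by
    obtain ⟨r, hr⟩ := h.root (e c) (by simpa using h1) (by rw [← map_mul, ← map_mul, h2])
    exact ⟨e.symm r, e.injective (by simp [hr])⟩
  invert g hg := by
    obtain ⟨t, h1, h2, h3, h4⟩ := h.invert (e g) (by rw [← map_pow, hg, map_one])
    exact ⟨e.symm t, e.symm.toMonoidHom.map_one ▸ (by rw [← map_pow, h1]; rfl),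
      fun h0 => h2 (by simpa using congrArg e h0), by simpa using h3,
      e.injective (by simp [h4])⟩

theorem Marked.facts_s4 {P : Perm (Fin 4) → Prop} {a b s : Perm (Fin 4)} (hP : Marked P a b)
    (hs : s ^ 2 = 1) (hs1 : s ≠ 1) (hsP : ¬ P s) : MarkedFacts P a b s := by
  obtain ⟨ha2, ha1⟩ := hP.invol a hP.pa
  obtain ⟨hb2, hb1⟩ := hP.invol b hP.pb
  obtain ⟨u, hu, hPu⟩ : ∃ u, IsDouble u ∧ P u := by
    rcases s4_some_double a b ha2 ha1 hb2 hb1 hP.ne hP.comm with h | h | h
    exacts [⟨a, h, hP.pa⟩, ⟨b, h, hP.pb⟩, ⟨_, h, hP.pab⟩]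
  have hd : ∀ v, IsDouble v → P v := fun v hv => by
    obtain ⟨g, rfl⟩ := s4_double_conj u v hu hv
    exact hP.conj g u hPu
  have hsd : ¬ IsDouble s := fun h => hsP (hd s h)
  have hiff : ∀ v, P v → IsDouble v := fun v hv => by
    by_contra hvd
    obtain ⟨h1, h2⟩ := hP.invol v hv
    obtain ⟨g, hg⟩ := s4_swap_conj v s h1 h2 hvd hs hs1 hsd
    exact hsP (hg ▸ hP.conj g v hv)
  refine ⟨fun t h1 h2 h3 => s4_swap_conj s t hs hs1 hsd h1 h2 fun h => h3 (hd t h),
    fun g hg => s4_swap_cent s g hs hs1 hsd hg, ?_,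
    fun c t h1 h2 h3 h4 => s4_double_unique s hs hs1 hsd c t (hiff c h1) h2 (hiff t h3) h4,
    fun c h1 _ => s4_double_sq c (hiff c h1), fun g hg => ?_⟩
  · obtain ⟨c, hc, hcs⟩ := s4_double_exists s hs hs1 hsd
    refine ⟨c, ?_, hcs⟩
    by_cases h1 : c = a
    · exact Or.inl h1
    by_cases h2 : c = b
    · exact Or.inr (Or.inl h2)
    exact Or.inr (Or.inr (s4_double_three a b c (hiff a hP.pa) (hiff b hP.pb) hc hP.ne h1 h2))
  · obtain ⟨t, h1, h2, h3, h4⟩ := s4_invert g hg
    exact ⟨t, h1, h2, fun h => h3 (hiff t h), h4⟩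

open DihedralGroup in
theorem Marked.facts_dihedral {n : ℕ} [NeZero n] {P : DihedralGroup n → Prop}
    {a b s : DihedralGroup n} (hP : Marked P a b) (hs : s ^ 2 = 1) (hs1 : s ≠ 1) (hsP : ¬ P s) :
    MarkedFacts P a b s := by
  classical
  -- the nontrivial doubled-zero residue
  have half : ∀ i : ZMod n, i + i = 0 → i ≠ 0 → ∃ m : ℕ, n = 2 * m ∧ i = (m : ZMod n) := by
    intro i hi hi0
    refine ⟨i.val, ?_, (ZMod.natCast_zmod_val i).symm⟩
    have h1 : n ∣ i.val + i.val := by
      rw [← ZMod.natCast_eq_zero_iff, Nat.cast_add, ZMod.natCast_zmod_val, hi]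
    have h2 := ZMod.val_lt i
    have h3 : 0 < i.val := Nat.pos_of_ne_zero fun h => hi0 ((ZMod.val_eq_zero i).1 h)
    obtain ⟨k, hk⟩ := h1
    rcases k with _ | _ | k <;> nlinarith
  -- some marked element is the central rotation
  obtain ⟨z, hPz, hz⟩ : ∃ z, P (r z) ∧ z + z = 0 ∧ z ≠ 0 := by
    have key : ∀ z, P (r z) → z + z = 0 ∧ z ≠ 0 := fun z hz => by
      obtain ⟨h1, h2⟩ := hP.invol _ hz
      rw [pow_two, r_mul_r, ← r_zero] at h1
      exact ⟨r.inj h1, fun h => h2 (by rw [h, r_zero])⟩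
    rcases hA : a with z | i
    · exact ⟨z, hA ▸ hP.pa, key z (hA ▸ hP.pa)⟩
    rcases hB : b with z | j
    · exact ⟨z, hB ▸ hP.pb, key z (hB ▸ hP.pb)⟩
    · have h := hP.pab
      rw [hA, hB, sr_mul_sr] at h
      exact ⟨j - i, h, key _ h⟩
  obtain ⟨m, hm, hzm⟩ := half z hz.1 hz.2
  have huniq : ∀ w : ZMod n, w + w = 0 → w = 0 ∨ w = z := fun w hw => by
    by_cases h0 : w = 0
    · exact Or.inl h0
    obtain ⟨m', hm', hwm⟩ := half w hw h0
    exact Or.inr (by rw [hwm, hzm, show m' = m by omega])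
  have hrot : ∀ w, r w ^ 2 = 1 → r w = 1 ∨ w = z := fun w hw => by
    rw [pow_two, r_mul_r, ← r_zero] at hw
    exact (huniq w (r.inj hw)).imp (fun h => by rw [h, r_zero]) id
  obtain ⟨j, rfl⟩ : ∃ j, s = sr j := by
    rcases s with w | j
    · rcases hrot w hs with h | rfl
      · exact absurd h hs1
      · exact absurd hPz hsP
    · exact ⟨j, rfl⟩
  have conj_r : ∀ k i : ZMod n, r k * sr i * (r k)⁻¹ = sr (i - (k + k)) := fun k i => by
    rw [inv_r, r_mul_sr, sr_mul_r]; congr 1; ring
  -- a marked reflection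
  obtain ⟨i, hPi, hPi'⟩ : ∃ i, P (sr i) ∧ P (sr (i + z)) := by
    have hne : a ≠ b ∧ a * b ≠ a ∧ a * b ≠ b := ⟨hP.ne,
      fun h => (hP.invol b hP.pb).2 (mul_eq_left.1 h), fun h => (hP.invol a hP.pa).2 (mul_eq_right.1 h)⟩
    have rz : ∀ w, P (r w) → w = z := fun w hw =>
      (hrot w (hP.invol _ hw).1).resolve_left (hP.invol _ hw).2
    rcases hA : a with u | i
    · rcases hB : b with v | i
      · exact absurd (by rw [hA, hB, rz u (hA ▸ hP.pa), rz v (hB ▸ hP.pb)]) hne.1
      · have h := hP.pab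
        rw [hA, hB, rz u (hA ▸ hP.pa), r_mul_sr] at h
        refine ⟨i - z, h, ?_⟩
        rw [sub_add_cancel]
        exact hB ▸ hP.pb
    · rcases hB : b with v | k
      · have h := hP.pab
        rw [hA, hB, rz v (hB ▸ hP.pb), sr_mul_r] at h
        exact ⟨i, hA ▸ hP.pa, h⟩
      · have h := hP.pab
        rw [hA, hB, sr_mul_sr] at h
        refine ⟨i, hA ▸ hP.pa, ?_⟩
        rw [← rz _ h, add_sub_cancel]
        exact hB ▸ hP.pb
  have hPeven : ∀ k, P (sr (i + (k + k))) := fun k => by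
    have := hP.conj (r (-k)) _ hPi
    rwa [conj_r, show i - (-k + -k) = i + (k + k) by ring] at this
  have hcast : ∀ w : ZMod n, (∃ k, w = k + k) ∨ ∃ k, w = k + k + 1 := fun w => by
    rcases Nat.even_or_odd w.val with ⟨k, hk⟩ | ⟨k, hk⟩
    · exact Or.inl ⟨k, by rw [← ZMod.natCast_zmod_val w, hk]; push_cast; ring⟩
    · exact Or.inr ⟨k, by rw [← ZMod.natCast_zmod_val w, hk]; push_cast; ring⟩
  obtain ⟨kj, hj⟩ : ∃ k, j - i = k + k + 1 := by
    refine (hcast (j - i)).resolve_left ?_
    rintro ⟨k, hk⟩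
    exact hsP (by rw [show j = i + (k + k) by rw [← hk]; ring]; exact hPeven k)
  obtain ⟨kz, hkz⟩ : ∃ k, z = k + k := by
    refine (hcast z).resolve_right ?_
    rintro ⟨k, hk⟩
    refine hsP ?_
    have := hP.conj (r (k - kj)) _ hPi'
    rwa [conj_r, show i + z - (k - kj + (k - kj)) = j by rw [hk, eq_add_of_sub_eq hj]; ring] at this
  have hnonP : ∀ k, ¬ P (sr (j + (k + k))) := fun k h => hsP (by
    have := hP.conj (r k) _ h
    rwa [conj_r, show j + (k + k) - (k + k) = j by ring] at this)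
  have hsplit : ∀ w, (∃ k, w = i + (k + k)) ∨ ∃ k, w = j + (k + k) := fun w => by
    rcases hcast (w - i) with ⟨k, hk⟩ | ⟨k, hk⟩
    · exact Or.inl ⟨k, by rw [← hk]; ring⟩
    · exact Or.inr ⟨k - kj, by rw [eq_add_of_sub_eq hk, eq_add_of_sub_eq hj]; ring⟩
  have hPr : ∀ c, P c → c * sr j = sr j * c → c = r z := by
    intro c hc hcs
    rcases c with w | w
    · rw [(hrot w (hP.invol _ hc).1).resolve_left (hP.invol _ hc).2]
    · exfalso
      rw [sr_mul_sr, sr_mul_sr] at hcs
      have h2 : (w - j) + (w - j) = 0 := by linear_combination -(r.inj hcs)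
      rcases huniq _ h2 with h | h
      · exact hnonP 0 (by rwa [add_zero, add_zero, ← sub_eq_zero.1 h])
      · exact hnonP kz (by rwa [show j + (kz + kz) = w by rw [← hkz, ← h]; ring])
  have hzs : r z * sr j = sr j * r z := by
    rw [r_mul_sr, sr_mul_r]
    congr 1
    linear_combination -hz.1
  refine ⟨fun t h1 h2 h3 => ?_, fun g hg => ?_, ?_,
    fun c t h1 h2 h3 h4 => by rw [hPr c h1 h2, hPr t h3 h4], fun c h1 h2 => ?_, fun g hg => ?_⟩
  · rcases t with w | w
    · rcases hrot w h1 with h | rfl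
      · exact absurd h h2
      · exact absurd hPz h3
    · rcases hsplit w with ⟨k, rfl⟩ | ⟨k, rfl⟩
      · exact absurd (hPeven k) h3
      · exact ⟨r (-k), by rw [conj_r]; congr 1; ring⟩
  · rcases g with w | w
    · rw [r_mul_sr, sr_mul_r] at hg
      rw [pow_two, r_mul_r, ← r_zero]
      congr 1
      linear_combination -(sr.inj hg)
    · rw [pow_two, sr_mul_self]
  · refine ⟨r z, ?_, hzs⟩
    rcases hA : a with u | u
    · exact Or.inl (by rw [(hrot u (hA ▸ (hP.invol a hP.pa).1)).resolve_left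
        (hA ▸ (hP.invol a hP.pa).2)])
    rcases hB : b with v | v
    · exact Or.inr (Or.inl (by rw [(hrot v (hB ▸ (hP.invol b hP.pb).1)).resolve_left
        (hB ▸ (hP.invol b hP.pb).2)]))
    · refine Or.inr (Or.inr ?_)
      obtain ⟨h1, h2⟩ := hP.invol _ hP.pab
      rw [hA, hB, sr_mul_sr] at h1 h2
      rw [sr_mul_sr, (hrot _ h1).resolve_left h2]
  · exact ⟨r kz, by rw [pow_two, r_mul_r, ← hkz, hPr c h1 h2]⟩
  · refine ⟨sr j, by rw [pow_two, sr_mul_self], hs1, hsP, ?_⟩
    rcases g with w | w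
    · rw [sr_mul_r, sr_mul_sr, inv_r]
      congr 1; ring
    · exfalso
      rw [pow_succ, pow_two, sr_mul_self, one_mul] at hg
      exact nomatch (hg.trans (one_def))

/-- An unmarked involution forces the group to be `S₄` or dihedral, with these properties. -/
theorem Rot.markedFacts [Finite G] (hG : Rot G) {P : G → Prop} {a b s : G} (hP : Marked P a b)
    (hs : s ^ 2 = 1) (hs1 : s ≠ 1) (hsP : ¬ P s) : MarkedFacts P a b s := by
  rcases hG with hcy | ⟨n, hn, ⟨e⟩⟩ | ⟨⟨e⟩⟩ | ⟨⟨e⟩⟩ | ⟨⟨e⟩⟩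
  · exfalso
    haveI := hcy
    classical
    haveI : Fintype G := Fintype.ofFinite G
    obtain ⟨ha2, ha1⟩ := hP.invol a hP.pa
    obtain ⟨hb2, hb1⟩ := hP.invol b hP.pb
    have hcard := IsCyclic.card_pow_eq_one_le (α := G) (show 0 < 2 by norm_num)
    have hsub : ({1, a, b} : Finset G) ⊆ Finset.univ.filter (fun x => x ^ 2 = 1) := by
      intro x hx
      simp only [Finset.mem_insert, Finset.mem_singleton] at hx
      rcases hx with rfl | rfl | rfl <;> simp [ha2, hb2]
    have h3 : ({1, a, b} : Finset G).card = 3 := by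
      rw [Finset.card_insert_of_notMem (by simp [Ne.symm ha1, Ne.symm hb1]),
        Finset.card_pair hP.ne]
    have := Finset.card_le_card hsub
    omega
  · haveI : NeZero n := ⟨by omega⟩
    exact MarkedFacts.of_equiv e ((hP.map e).facts_dihedral (by rw [← map_pow, hs, map_one])
      (fun h => hs1 (e.injective (by rw [h, map_one]))) (by simpa using hsP))
  · obtain ⟨ha2, ha1⟩ := hP.invol a hP.pa
    obtain ⟨g, hg⟩ := a4_conj (e a) (e s) (by rw [← map_pow, ha2, map_one])
      (fun h => ha1 (e.injective (by rw [h, map_one]))) (by rw [← map_pow, hs, map_one])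
      (fun h => hs1 (e.injective (by rw [h, map_one])))
    have := hP.conj (e.symm g) a hP.pa
    rw [show e.symm g * a * (e.symm g)⁻¹ = s from e.injective (by simp [hg])] at this
    exact absurd this hsP
  · exact MarkedFacts.of_equiv e ((hP.map e).facts_s4 (by rw [← map_pow, hs, map_one])
      (fun h => hs1 (e.injective (by rw [h, map_one]))) (by simpa using hsP))
  · obtain ⟨ha2, ha1⟩ := hP.invol a hP.pa
    obtain ⟨g, hg⟩ := a5_conj (e a) (e s) (by rw [← map_pow, ha2, map_one])
      (fun h => ha1 (e.injective (by rw [h, map_one]))) (by rw [← map_pow, hs, map_one])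
      (fun h => hs1 (e.injective (by rw [h, map_one])))
    have := hP.conj (e.symm g) a hP.pa
    rw [show e.symm g * a * (e.symm g)⁻¹ = s from e.injective (by simp [hg])] at this
    exact absurd this hsP

end Cfsg.Agent.SLThree.Symp
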