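import Cfsg.Agent.SLThree.SympPlane

/-!
The centraliser of the involution `H` in an overgroup of `N(3^{1+2})` without transvections.
-/

set_option autoImplicit false
set_option linter.unusedSectionVars false
set_option linter.style.haveILetI false

namespace Cfsg.Agent.SLThree.Symp

open Matrix
open scoped MatrixGroups

variable {F : Type*} [Field F] [Fintype F]

/-- The hypotheses on the overgroup. -/
structure Cfg (R : Root3 F) (X : Subgroup (GL (Fin 3) F)) : Prop where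
  five : (5 : F) ≠ 0
  det : ∀ g ∈ X, Matrix.det (g : Matrix (Fin 3) (Fin 3) F) = 1
  hX : R.gX ∈ X
  hY : Root3.gY ∈ X
  hW₁ : R.gW₁ ∈ X
  hW₂ : R.gW₂ ∈ X
  nt : NT X

namespace Root3

variable (R : Root3 F)

/-- Basis `c = (0,1,-1)`, `e₀`, `(0,1,1)`. -/
def B₀ : GL (Fin 3) F where
  val := !![0, 1, 0; 1, 0, 1; -1, 0, 1]
  inv := !![0, 1 / 2, -1 / 2; 1, 0, 0; 0, 1 / 2, 1 / 2]
  val_inv := by
    have := R.two
    ext i j; fin_cases i <;> fin_cases j <;> simp [Matrix.mul_apply, Fin.sum_univ_three] <;>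
      field_simp <;> ring
  inv_val := by
    have := R.two
    ext i j; fin_cases i <;> fin_cases j <;> simp [Matrix.mul_apply, Fin.sum_univ_three] <;>
      field_simp <;> ring

/-- Basis `(1,1,1)`, `c = (0,1,-1)`, `(-2,1,1)`. -/
def B₁ : GL (Fin 3) F where
  val := !![1, 0, -2; 1, 1, 1; 1, -1, 1]
  inv := !![1 / 3, 1 / 3, 1 / 3; 0, 1 / 2, -1 / 2; -1 / 3, 1 / 6, 1 / 6]
  val_inv := by
    have := R.two; have := R.three
    have h6 : (6 : F) ≠ 0 := by rw [show (6 : F) = 2 * 3 by norm_num]; exact mul_ne_zero R.two R.three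
    ext i j; fin_cases i <;> fin_cases j <;> simp [Matrix.mul_apply, Fin.sum_univ_three] <;>
      field_simp <;> ring
  inv_val := by
    have := R.two; have := R.three
    have h6 : (6 : F) ≠ 0 := by rw [show (6 : F) = 2 * 3 by norm_num]; exact mul_ne_zero R.two R.three
    ext i j; fin_cases i <;> fin_cases j <;> simp [Matrix.mul_apply, Fin.sum_univ_three] <;>
      field_simp <;> ring

theorem cMat_eq_iff {B g : GL (Fin 3) F} {M : Matrix (Fin 3) (Fin 3) F} :
    cMat B g = M ↔ (g : Matrix (Fin 3) (Fin 3) F) * (B : Matrix (Fin 3) (Fin 3) F) =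
      (B : Matrix (Fin 3) (Fin 3) F) * M := by
  rw [cMat, Units.val_mul, Units.val_mul, mul_assoc]
  exact Units.inv_mul_eq_iff_eq_mul B

theorem cMat_B₀_H : cMat R.B₀ gH = !![1, 0, 0; 0, -1, 0; 0, 0, -1] := by
  rw [cMat_eq_iff]
  ext i j; fin_cases i <;> fin_cases j <;>
    simp [B₀, val_gH, hM, Matrix.mul_apply, Fin.sum_univ_three]

theorem cMat_B₀_W₁ : cMat R.B₀ R.gW₁ = !![1, 0, 0; 0, R.r, 2 * R.r; 0, R.r, -R.r] := by
  rw [cMat_eq_iff]
  have hr : 3 * R.r = -(R.ω - R.ω ^ 2) := by rw [r]; field_simp [R.three]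
  ext i j; fin_cases i <;> fin_cases j <;>
    simp [B₀, val_gW₁, w₁M, Matrix.mul_apply, Fin.sum_univ_three] <;>
    first
      | ring1
      | linear_combination R.r * R.eq
      | linear_combination -R.r * R.eq
      | linear_combination -R.r_sq + R.r * hr
      | linear_combination R.r_sq - R.r * hr

theorem cMat_B₀_T : cMat R.B₀ R.gT = !![R.ω, 0, 0; 0, 1, 0; 0, 0, R.ω] := by
  rw [cMat_eq_iff]
  ext i j; fin_cases i <;> fin_cases j <;>
    simp [B₀, val_gT, tM, Matrix.mul_apply, Fin.sum_univ_three]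

theorem cMat_B₀_W₂ : cMat R.B₀ R.gW₂ = !![1, 0, 0; 0, R.r, 2 * R.r * R.ω ^ 2; 0, R.r * R.ω, -R.r] := by
  have h : cMat R.B₀ R.gT⁻¹ = !![R.ω ^ 2, 0, 0; 0, 1, 0; 0, 0, R.ω ^ 2] := by
    rw [cMat_eq_iff, show ((R.gT⁻¹ : GL (Fin 3) F) : Matrix (Fin 3) (Fin 3) F) = R.tM' from rfl]
    ext i j; fin_cases i <;> fin_cases j <;>
      simp [B₀, tM', Matrix.mul_apply, Fin.sum_univ_three]
  rw [gW₂, cMat_mul, cMat_mul, cMat_B₀_T, cMat_B₀_W₁, h]
  ext i j; fin_cases i <;> fin_cases j <;> simp [Matrix.mul_apply, Fin.sum_univ_three] <;>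
    first | ring1 | linear_combination R.cube | linear_combination -R.r * R.cube | linear_combination R.r * R.cube | linear_combination 2 * R.r * R.cube | linear_combination -2 * R.r * R.cube

theorem commute_gH_iff {g : GL (Fin 3) F} : g * gH = gH * g ↔ g ∈ blk R.B₀ := by
  rw [mem_blk]
  constructor
  · intro h
    have h' := congrArg (cMat R.B₀) h
    rw [cMat_mul, cMat_mul, cMat_B₀_H] at h'
    have e := fun i j => congrFun (congrFun h' i) j
    have e01 := e 0 1; have e02 := e 0 2; have e10 := e 1 0; have e20 := e 2 0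
    simp [Matrix.mul_apply, Fin.sum_univ_three] at e01 e02 e10 e20
    have key : ∀ {a : F}, -a = a → a = 0 := fun {a} ha =>
      (mul_eq_zero.1 (show (2 : F) * a = 0 by linear_combination -ha)).resolve_left R.two
    exact ⟨key e01, key e02, key e10.symm, key e20.symm⟩
  · intro ⟨a, b, c, d⟩
    refine cMat_injective R.B₀ ?_
    rw [cMat_mul, cMat_mul, cMat_B₀_H]
    ext i j; fin_cases i <;> fin_cases j <;> simp [Matrix.mul_apply, Fin.sum_univ_three, a, b, c, d]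

/-- A diagonal matrix commutes projectively with its conjugate only if it squares to a scalar. -/
theorem conj_commute {a b k : F} (h : k • (!![a, 0; 0, b] * !![(a + 3 * b) / 4, 3 * (b - a) / 4;
      (b - a) / 4, (3 * a + b) / 4]) =
    !![(a + 3 * b) / 4, 3 * (b - a) / 4; (b - a) / 4, (3 * a + b) / 4] * !![a, 0; 0, b])
    (h3 : (3 : F) ≠ 0) (h2 : (2 : F) ≠ 0) :
    a ^ 2 = b ^ 2 ∧ (a + 3 * b ≠ 0 → a ≠ 0 → a = b) := by
  have h4 : (4 : F) ≠ 0 := by rw [show (4 : F) = 2 * 2 by norm_num]; exact mul_ne_zero h2 h2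
  have e00 := congrFun (congrFun h 0) 0
  have e01 := congrFun (congrFun h 0) 1
  have e10 := congrFun (congrFun h 1) 0
  simp [Matrix.mul_apply, Fin.sum_univ_two] at e00 e01 e10
  field_simp at e00 e01 e10
  by_cases hab : a = b
  · exact ⟨by rw [hab], fun _ _ => hab⟩
  have hne : b - a ≠ 0 := sub_ne_zero.2 (Ne.symm hab)
  have k1 : k * a = b := mul_right_cancel₀ hne (by linear_combination e01)
  have k2 : k * b = a := mul_right_cancel₀ hne (by linear_combination e10)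
  refine ⟨by linear_combination (-a) * k2 + b * k1, fun h1 ha => ?_⟩
  have k0 : k = 1 := mul_right_cancel₀ (mul_ne_zero ha h1) (by linear_combination e00)
  rw [k0, one_mul] at k1
  exact k1

end Root3

namespace Cfg

variable {R : Root3 F} {X : Subgroup (GL (Fin 3) F)}

theorem Rs_le (hc : Cfg R X) : R.Rs ≤ X := by
  rintro g ⟨a, b, c, rfl⟩
  have hZ : R.gZ ∈ X := by
    have h1 : R.gZ ^ 2 ∈ X := by
      have h := R.gY_gX
      rw [← mul_inv_eq_iff_eq_mul] at h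
      rw [← h]
      exact mul_mem (mul_mem hc.hY hc.hX) (inv_mem (mul_mem hc.hX hc.hY))
    have h2 : R.gZ = (R.gZ ^ 2) ^ 2 := by
      rw [← pow_mul, show 2 * 2 = 3 + 1 from rfl, pow_succ, R.gZ_cube, one_mul]
    rw [h2]; exact pow_mem h1 2
  exact mul_mem (pow_mem hZ a) (mul_mem (pow_mem hc.hX b) (pow_mem hc.hY c))

theorem Qs_le (hc : Cfg R X) : R.Qs ≤ X := by
  rw [Root3.Qs, Subgroup.closure_le]
  rintro g (rfl | rfl)
  exacts [hc.hW₁, hc.hW₂]

theorem gH_mem (hc : Cfg R X) : Root3.gH ∈ X := R.gW₁_sq ▸ mul_mem hc.hW₁ hc.hW₁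

theorem gZ_mem (hc : Cfg R X) : R.gZ ∈ X := hc.Rs_le R.gZ_mem

/-- The elements `Z^k` and `Z^k H`. -/
def Ker (R : Root3 F) (g : GL (Fin 3) F) : Prop := ∃ k, g = R.gZ ^ k ∨ g = R.gZ ^ k * Root3.gH

set_option maxHeartbeats 2000000 in
/-- An element of `C_X(H)` scalar on the plane lies in `Z⟨H⟩`. -/
theorem ker_of_proj (hc : Cfg R X) {g : GL (Fin 3) F} (hgX : g ∈ X) (hg : g ∈ blk R.B₀)
    (h1 : proj R.B₀ ⟨g, hg⟩ = 1) : Ker R g := by
  obtain ⟨e12, e21, e11⟩ := proj_eq_one.1 h1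
  obtain ⟨a01, a02, a10, a20⟩ := id hg
  set M := cMat R.B₀ g with hM
  set μ := M 0 0 with hμ
  set lam := M 1 1 with hlam
  have hMeq : M = !![μ, 0, 0; 0, lam, 0; 0, 0, lam] := by
    ext i j; fin_cases i <;> fin_cases j <;> simp [hμ, hlam] <;> first | assumption | exact e11.symm
  have hdet : μ * lam ^ 2 = 1 := by
    have h := det_cMat R.B₀ g
    rw [← hM, hMeq, hc.det g hgX] at h
    simp [Matrix.det_fin_three] at h
    linear_combination h
  have hl0 : lam ≠ 0 := fun h => by rw [h] at hdet; simp at hdet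
  have hg1 : cMat R.B₁ g = !![lam, 0, 0; 0, μ, 0; 0, 0, lam] := by
    have hgval : (g : Matrix (Fin 3) (Fin 3) F) =
        (R.B₀ : Matrix (Fin 3) (Fin 3) F) * M * ((R.B₀⁻¹ : GL (Fin 3) F) : Matrix (Fin 3) (Fin 3) F) := by
      exact (Units.eq_mul_inv_iff_mul_eq R.B₀).2 ((Root3.cMat_eq_iff (B := R.B₀) (g := g)).1 hM.symm)
    rw [Root3.cMat_eq_iff, hgval, hMeq,
      show ((R.B₀⁻¹ : GL (Fin 3) F) : Matrix (Fin 3) (Fin 3) F) =
        !![0, 1 / 2, -1 / 2; 1, 0, 0; 0, 1 / 2, 1 / 2] from rfl]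
    have := R.two
    ext i j; fin_cases i <;> fin_cases j <;>
      simp [Root3.B₀, Root3.B₁, Matrix.mul_apply, Fin.sum_univ_three] <;> field_simp <;> ring
  have hH1 : cMat R.B₁ Root3.gH = !![-1, 0, 0; 0, 1, 0; 0, 0, -1] := by
    rw [Root3.cMat_eq_iff]
    ext i j; fin_cases i <;> fin_cases j <;>
      simp [Root3.B₁, Root3.val_gH, Root3.hM, Matrix.mul_apply, Fin.sum_univ_three]
  have hY1 : cMat R.B₁ Root3.gY = !![1, 0, 0; 0, -1/2, -3/2; 0, 1/2, -1/2] := by
    rw [Root3.cMat_eq_iff]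
    have := R.two
    ext i j; fin_cases i <;> fin_cases j <;>
      simp [Root3.B₁, Root3.val_gY, Root3.yM, Matrix.mul_apply, Fin.sum_univ_three] <;>
      field_simp <;> ring
  have gb : g ∈ blk R.B₁ := by rw [mem_blk, hg1]; simp [IsBlock]
  have hb : Root3.gH ∈ blk R.B₁ := by rw [mem_blk, hH1]; simp [IsBlock]
  have yb : Root3.gY ∈ blk R.B₁ := by rw [mem_blk, hY1]; simp [IsBlock]
  -- the conjugates
  have conjForm : ∀ {k : GL (Fin 3) F} {z a b : F}, cMat R.B₁ k = !![z, 0, 0; 0, a, 0; 0, 0, b] →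
      lowM (cMat R.B₁ (Root3.gY * k * Root3.gY⁻¹)) =
        !![(a + 3 * b) / 4, 3 * (b - a) / 4; (b - a) / 4, (3 * a + b) / 4] := by
    intro k z a b hk
    have hYi : cMat R.B₁ Root3.gY⁻¹ = !![1, 0, 0; 0, -1/2, 3/2; 0, -1/2, -1/2] := by
      rw [Root3.cMat_eq_iff]
      have := R.two
      rw [show ((Root3.gY⁻¹ : GL (Fin 3) F) : Matrix (Fin 3) (Fin 3) F) = Root3.yM * Root3.yM from rfl]
      ext i j; fin_cases i <;> fin_cases j <;>
        simp [Root3.B₁, Root3.yM, Matrix.mul_apply, Fin.sum_univ_three] <;> field_simp <;> ring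
    rw [cMat_mul, cMat_mul, hY1, hk, hYi]
    have := R.two
    have h4 : (4 : F) ≠ 0 := by rw [show (4 : F) = 2 * 2 by norm_num]; exact mul_ne_zero R.two R.two
    ext i j; fin_cases i <;> fin_cases j <;>
      simp [lowM, Matrix.mul_apply, Fin.sum_univ_three] <;> field_simp <;> ring
  have lowDiag : ∀ {k : GL (Fin 3) F} {z a b : F}, cMat R.B₁ k = !![z, 0, 0; 0, a, 0; 0, 0, b] →
      lowM (cMat R.B₁ k) = !![a, 0; 0, b] := by
    intro k z a b hk
    rw [hk]; ext i j; fin_cases i <;> fin_cases j <;> simp [lowM]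
  have noncomm : ∀ {k : GL (Fin 3) F} (hk : k ∈ blk R.B₁) {z a b : F},
      cMat R.B₁ k = !![z, 0, 0; 0, a, 0; 0, 0, b] →
      Commute (proj R.B₁ ⟨k, hk⟩)
        (proj R.B₁ (⟨Root3.gY, yb⟩ * ⟨k, hk⟩ * ⟨Root3.gY, yb⟩⁻¹)) →
      a ^ 2 = b ^ 2 ∧ (a + 3 * b ≠ 0 → a ≠ 0 → a = b) := by
    intro k hk z a b hkM hcomm
    rw [Commute, SemiconjBy, ← map_mul, ← map_mul, proj_eq_proj] at hcomm
    obtain ⟨c, -, hck⟩ := hcomm
    have hk' : IsBlock (cMat R.B₁ k) := hk
    have hconj : IsBlock (cMat R.B₁ (Root3.gY * k * Root3.gY⁻¹)) :=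
      (mul_mem (mul_mem yb hk) (inv_mem yb) : _ ∈ blk R.B₁)
    simp only [Subgroup.coe_mul, Subgroup.coe_inv] at hck
    rw [cMat_mul, cMat_mul (g := Root3.gY * k * Root3.gY⁻¹), lowM_mul hk', lowM_mul hconj,
      conjForm hkM, lowDiag hkM] at hck
    exact Root3.conj_commute hck R.three R.two
  by_cases hsq : proj R.B₁ ⟨g, gb⟩ ^ 2 = 1
  · have h2 : lam ^ 2 = μ ^ 2 := by
      rw [← map_pow, proj_eq_one] at hsq
      obtain ⟨-, -, h3⟩ := hsq
      rw [SubmonoidClass.coe_pow, pow_two, cMat_mul, hg1] at h3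
      simp [Matrix.mul_apply, Fin.sum_univ_three] at h3
      linear_combination -h3
    have h6 : lam ^ 6 = 1 := by linear_combination (μ * lam ^ 2 + 1) * hdet + lam ^ 4 * h2
    have h3 : lam ^ 3 = 1 ∨ lam ^ 3 = -1 := by
      have : (lam ^ 3 - 1) * (lam ^ 3 + 1) = 0 := by linear_combination h6
      rcases mul_eq_zero.1 this with h | h
      exacts [Or.inl (sub_eq_zero.1 h), Or.inr (eq_neg_of_add_eq_zero_left h)]
    rcases h3 with h3 | h3
    · obtain ⟨k, -, hk⟩ := R.pow_cube lam h3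
      refine ⟨k, Or.inl (cMat_injective R.B₀ ?_)⟩
      rw [← hM, hMeq, Root3.cMat_eq_iff.2 (show ((R.gZ ^ k : GL (Fin 3) F) : Matrix (Fin 3) (Fin 3) F) *
        (R.B₀ : Matrix (Fin 3) (Fin 3) F) = (R.B₀ : Matrix (Fin 3) (Fin 3) F) * (R.ω ^ k • 1) by
          rw [R.gZ_pow_val, Matrix.smul_mul, Matrix.mul_smul, one_mul, mul_one])]
      have hμl : μ = lam := mul_right_cancel₀ (pow_ne_zero 2 hl0) (by linear_combination hdet - h3)
      rw [hμl, hk]
      ext i j; fin_cases i <;> fin_cases j <;> simp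
    · obtain ⟨k, -, hk⟩ := R.pow_cube (-lam) (by linear_combination -h3)
      refine ⟨k, Or.inr (cMat_injective R.B₀ ?_)⟩
      rw [cMat_mul, R.cMat_B₀_H, ← hM, hMeq, Root3.cMat_eq_iff.2 (show ((R.gZ ^ k : GL (Fin 3) F) : Matrix (Fin 3) (Fin 3) F) *
        (R.B₀ : Matrix (Fin 3) (Fin 3) F) = (R.B₀ : Matrix (Fin 3) (Fin 3) F) * (R.ω ^ k • 1) by
          rw [R.gZ_pow_val, Matrix.smul_mul, Matrix.mul_smul, one_mul, mul_one])]
      have hμl : μ = -lam := mul_right_cancel₀ (pow_ne_zero 2 hl0) (by linear_combination hdet + h3)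
      rw [hμl, ← hk]
      ext i j; fin_cases i <;> fin_cases j <;> simp [Matrix.mul_apply, Fin.sum_univ_three]
  · exfalso
    set Γ := (X.subgroupOf (blk R.B₁)).map (proj R.B₁)
    have mG : ∀ {k : blk R.B₁}, (k : GL (Fin 3) F) ∈ X → proj R.B₁ k ∈ Γ := fun hk =>
      Subgroup.mem_map_of_mem _ (Subgroup.mem_subgroupOf.2 hk)
    have hy : (⟨Root3.gY, yb⟩ : blk R.B₁) ∈ X.subgroupOf (blk R.B₁) := Subgroup.mem_subgroupOf.2 hc.hY
    let gg : Γ := ⟨_, mG (k := ⟨g, gb⟩) hgX⟩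
    let hh : Γ := ⟨_, mG (k := ⟨Root3.gH, hb⟩) hc.gH_mem⟩
    let yy : Γ := ⟨_, mG (k := ⟨Root3.gY, yb⟩) hc.hY⟩
    have hhne : hh ≠ 1 := by
      intro h
      obtain ⟨-, -, h3⟩ := proj_eq_one.1 (congrArg Subtype.val h :)
      rw [hH1] at h3
      simp at h3
      exact R.two (by linear_combination h3)
    have hh2 : hh ^ 2 = 1 := by
      refine Subtype.ext ?_
      rw [Subgroup.coe_pow, Subgroup.coe_one, ← map_pow,
        show (⟨Root3.gH, hb⟩ : blk R.B₁) ^ 2 = 1 from Subtype.ext (by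
          rw [Subgroup.coe_pow, pow_two]; exact Root3.gH_sq), map_one]
    have hgh : Commute gg hh := by
      refine Subtype.ext ?_
      show proj R.B₁ _ * proj R.B₁ _ = proj R.B₁ _ * proj R.B₁ _
      rw [← map_mul, ← map_mul]
      congr 1
      exact Subtype.ext (R.commute_gH_iff.2 hg)
    have hgg : gg ^ 2 ≠ 1 := fun h => hsq (by rw [← Subgroup.coe_one Γ, ← h]; rfl)
    have hrot : Rot Γ := rot_stab R.two hc.nt R.B₁
    rcases hrot.commute_or (g := gg) (g' := yy * gg * yy⁻¹) (h := hh) (h' := yy * hh * yy⁻¹)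
      hgg (by rw [conj_pow]; exact fun h => hgg (by simpa [mul_inv_eq_one] using h)) hh2 hhne
      (by rw [conj_pow, hh2, mul_one, mul_inv_cancel])
      (fun h => hhne (by simpa [mul_inv_eq_one] using h)) hgh ((Commute.conj_iff yy).2 hgh) with h | h
    · have hcc : Commute (proj R.B₁ ⟨g, gb⟩)
          (proj R.B₁ (⟨Root3.gY, yb⟩ * ⟨g, gb⟩ * ⟨Root3.gY, yb⟩⁻¹)) := by
        rw [map_mul, map_mul, map_inv]; exact h.map Γ.subtype
      obtain ⟨h2, -⟩ := noncomm gb hg1 hcc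
      apply hsq
      rw [← map_pow, proj_eq_one, SubmonoidClass.coe_pow, pow_two, cMat_mul, hg1]
      simp [Matrix.mul_apply, Fin.sum_univ_three]
      linear_combination h2
    · have hcc : Commute (proj R.B₁ ⟨Root3.gH, hb⟩)
          (proj R.B₁ (⟨Root3.gY, yb⟩ * ⟨Root3.gH, hb⟩ * ⟨Root3.gY, yb⟩⁻¹)) := by
        rw [map_mul, map_mul, map_inv]; exact h.map Γ.subtype
      obtain ⟨-, h2⟩ := noncomm hb hH1 hcc
      exact R.two (by linear_combination h2 (fun h => R.two (by linear_combination -h)) one_ne_zero)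

end Cfg

end Cfsg.Agent.SLThree.Symp
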