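import Mathlib
import Cfsg.Prelude.Def_GeometricClasses

/-!
The standard group `3^{1+2}` in `GL₃(F)`, the elements of its normaliser, and block subgroups.
-/

set_option autoImplicit false
set_option linter.unusedSectionVars false

namespace Cfsg.Agent.SLThree.Symp

open Matrix
open scoped MatrixGroups

/-- A primitive cube root of unity in a field of characteristic not two or three. -/
structure Root3 (F : Type*) [Field F] where
  ω : F
  eq : ω ^ 2 + ω + 1 = 0
  two : (2 : F) ≠ 0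
  three : (3 : F) ≠ 0

variable {F : Type*} [Field F] (R : Root3 F)

namespace Root3

theorem cube : R.ω ^ 3 = 1 := by linear_combination (R.ω - 1) * R.eq
theorem ne_one : R.ω ≠ 1 := fun h => R.three (by have := R.eq; rw [h] at this; linear_combination this)
theorem ne_zero : R.ω ≠ 0 := fun h => by have := R.eq; rw [h] at this; simp at this
theorem sub_ne : R.ω - R.ω ^ 2 ≠ 0 := fun h => R.three (by linear_combination (-(R.ω - R.ω ^ 2)) * h + (R.ω ^ 2 - 3 * R.ω + 3) * R.eq)

theorem cases_of_cube {a : F} (h : a ^ 3 = 1) : a = 1 ∨ a = R.ω ∨ a = R.ω ^ 2 := by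
  have : (a - 1) * ((a - R.ω) * (a - R.ω ^ 2)) = 0 := by
    linear_combination h + (-a ^ 2 + a * R.ω - R.ω + 1) * R.eq
  rcases mul_eq_zero.1 this with h | h
  · exact Or.inl (sub_eq_zero.1 h)
  · rcases mul_eq_zero.1 h with h | h
    · exact Or.inr (Or.inl (sub_eq_zero.1 h))
    · exact Or.inr (Or.inr (sub_eq_zero.1 h))

theorem pow_cube (a : F) (h : a ^ 3 = 1) : ∃ k < 3, a = R.ω ^ k := by
  rcases R.cases_of_cube h with h | h | h
  · exact ⟨0, by norm_num, by rw [h, pow_zero]⟩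
  · exact ⟨1, by norm_num, by rw [h, pow_one]⟩
  · exact ⟨2, by norm_num, h⟩

/-- `(ω - ω²)⁻¹`. -/
def r : F := -(R.ω - R.ω ^ 2) / 3

theorem r_sq : 3 * R.r ^ 2 = -1 := by
  rw [r]; field_simp [R.three]; linear_combination (R.ω ^ 2 - 3 * R.ω + 3) * R.eq

def xM : Matrix (Fin 3) (Fin 3) F := !![1, 0, 0; 0, R.ω, 0; 0, 0, R.ω ^ 2]
def yM : Matrix (Fin 3) (Fin 3) F := !![0, 0, 1; 1, 0, 0; 0, 1, 0]
def hM : Matrix (Fin 3) (Fin 3) F := !![-1, 0, 0; 0, 0, -1; 0, -1, 0]
def tM : Matrix (Fin 3) (Fin 3) F := !![1, 0, 0; 0, R.ω, 0; 0, 0, R.ω]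
def tM' : Matrix (Fin 3) (Fin 3) F := !![1, 0, 0; 0, R.ω ^ 2, 0; 0, 0, R.ω ^ 2]
def w₁M : Matrix (Fin 3) (Fin 3) F :=
  !![R.r, R.r, R.r; R.r, R.r * R.ω, R.r * R.ω ^ 2; R.r, R.r * R.ω ^ 2, R.r * R.ω]

def gX : GL (Fin 3) F where
  val := R.xM
  inv := R.xM * R.xM
  val_inv := by ext i j; fin_cases i <;> fin_cases j <;> simp [xM, Matrix.mul_apply, Fin.sum_univ_three] <;> first | linear_combination R.cube | linear_combination (R.ω ^ 3 + 1) * R.cube | ring
  inv_val := by ext i j; fin_cases i <;> fin_cases j <;> simp [xM, Matrix.mul_apply, Fin.sum_univ_three] <;> first | linear_combination R.cube | linear_combination (R.ω ^ 3 + 1) * R.cube | ring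

theorem val_gX : (R.gX : Matrix (Fin 3) (Fin 3) F) = R.xM := rfl

def gY : GL (Fin 3) F where
  val := yM
  inv := yM * yM
  val_inv := by ext i j; fin_cases i <;> fin_cases j <;> simp [yM, Matrix.mul_apply, Fin.sum_univ_three]
  inv_val := by ext i j; fin_cases i <;> fin_cases j <;> simp [yM, Matrix.mul_apply, Fin.sum_univ_three]

theorem val_gY : (gY : GL (Fin 3) F).val = yM := rfl

def gH : GL (Fin 3) F where
  val := hM
  inv := hM
  val_inv := by ext i j; fin_cases i <;> fin_cases j <;> simp [hM, Matrix.mul_apply, Fin.sum_univ_three]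
  inv_val := by ext i j; fin_cases i <;> fin_cases j <;> simp [hM, Matrix.mul_apply, Fin.sum_univ_three]

theorem val_gH : (gH : GL (Fin 3) F).val = hM := rfl

theorem w₁M_sq : R.w₁M * R.w₁M = hM := by
  ext i j; fin_cases i <;> fin_cases j <;> simp [w₁M, hM, Matrix.mul_apply, Fin.sum_univ_three] <;>
    first
      | linear_combination R.r_sq
      | linear_combination R.r_sq + R.r ^ 2 * 2 * R.cube + 0 * R.eq
      | linear_combination R.r ^ 2 * R.eq
      | linear_combination R.r ^ 2 * R.eq + R.r ^ 2 * R.ω * R.cube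
      | linear_combination R.r ^ 2 * R.eq + R.r ^ 2 * (R.ω + R.ω ^ 2) * 0
      | linear_combination R.r ^ 2 * (R.ω ^ 2 - R.ω + 1) * R.eq
      | linear_combination R.r_sq + R.r ^ 2 * (2 * R.cube)

def gW₁ : GL (Fin 3) F where
  val := R.w₁M
  inv := hM * R.w₁M
  val_inv := by
    have h1 : R.w₁M * hM = hM * R.w₁M := by rw [← R.w₁M_sq, mul_assoc]
    rw [← mul_assoc, h1, mul_assoc, R.w₁M_sq]
    exact (gH : GL (Fin 3) F).val_inv
  inv_val := by rw [mul_assoc, R.w₁M_sq]; exact (gH : GL (Fin 3) F).val_inv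

theorem val_gW₁ : (R.gW₁ : Matrix (Fin 3) (Fin 3) F) = R.w₁M := rfl

def gT : GL (Fin 3) F where
  val := R.tM
  inv := R.tM'
  val_inv := by ext i j; fin_cases i <;> fin_cases j <;> simp [tM, tM', Matrix.mul_apply, Fin.sum_univ_three] <;> linear_combination R.cube
  inv_val := by ext i j; fin_cases i <;> fin_cases j <;> simp [tM, tM', Matrix.mul_apply, Fin.sum_univ_three] <;> linear_combination R.cube

theorem val_gT : (R.gT : Matrix (Fin 3) (Fin 3) F) = R.tM := rfl

def gW₂ : GL (Fin 3) F := R.gT * R.gW₁ * R.gT⁻¹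

def gZ : GL (Fin 3) F where
  val := R.ω • 1
  inv := R.ω ^ 2 • 1
  val_inv := by rw [smul_mul_smul_comm, mul_one, ← pow_succ', R.cube, one_smul]
  inv_val := by rw [smul_mul_smul_comm, mul_one, ← pow_succ, R.cube, one_smul]

theorem val_gZ : (R.gZ : Matrix (Fin 3) (Fin 3) F) = R.ω • 1 := rfl

theorem gZ_comm (g : GL (Fin 3) F) : R.gZ * g = g * R.gZ :=
  Units.ext (by simp [val_gZ])

theorem gZ_pow_val (k : ℕ) : ((R.gZ ^ k : GL (Fin 3) F) : Matrix (Fin 3) (Fin 3) F) = R.ω ^ k • 1 := by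
  rw [Units.val_pow_eq_pow_val, val_gZ, smul_pow, one_pow]

theorem gZ_cube : R.gZ ^ 3 = 1 := Units.ext (by rw [gZ_pow_val, R.cube, one_smul, Units.val_one])

/-! ### relations -/

theorem gX_cube : R.gX ^ 3 = 1 := by
  rw [pow_succ', pow_two]; exact Units.ext R.gX.val_inv

theorem gY_cube : (gY : GL (Fin 3) F) ^ 3 = 1 := by
  rw [pow_succ', pow_two]; exact Units.ext (gY : GL (Fin 3) F).val_inv

theorem gH_sq : (gH : GL (Fin 3) F) * gH = 1 := Units.ext (gH : GL (Fin 3) F).val_inv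

theorem gY_gX : gY * R.gX = R.gZ ^ 2 * (R.gX * gY) := Units.ext (by
  rw [Units.val_mul, Units.val_mul, gZ_pow_val, Matrix.smul_mul, one_mul, Units.val_mul, val_gX, val_gY]
  ext i j; fin_cases i <;> fin_cases j <;> simp [xM, yM, Matrix.mul_apply, Fin.sum_univ_three] <;>
    first | linear_combination -R.cube | linear_combination -R.ω * R.cube | ring)

theorem gW₁_sq : R.gW₁ * R.gW₁ = gH := Units.ext R.w₁M_sq

theorem gT_gH : R.gT * gH = gH * R.gT := Units.ext (by
  rw [Units.val_mul, Units.val_mul, val_gT, val_gH]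
  ext i j; fin_cases i <;> fin_cases j <;> simp [tM, hM, Matrix.mul_apply, Fin.sum_univ_three])

theorem gW₂_sq : R.gW₂ * R.gW₂ = gH := by
  calc R.gW₂ * R.gW₂ = R.gT * (R.gW₁ * R.gW₁) * R.gT⁻¹ := by rw [gW₂]; group
    _ = gH := by rw [gW₁_sq, gT_gH, mul_inv_cancel_right]

theorem gH_gW₁ : gH * R.gW₁ = R.gW₁ * gH := by rw [← gW₁_sq, mul_assoc]
theorem gH_gW₂ : gH * R.gW₂ = R.gW₂ * gH := by rw [← gW₂_sq, mul_assoc]

theorem gW₁_gX : R.gW₁ * R.gX = gY ^ 2 * R.gW₁ := Units.ext (by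
  rw [Units.val_mul, Units.val_mul, Units.val_pow_eq_pow_val, val_gX, val_gY, val_gW₁, pow_two]
  ext i j; fin_cases i <;> fin_cases j <;> simp [xM, yM, w₁M, Matrix.mul_apply, Fin.sum_univ_three] <;>
    first | linear_combination R.r * R.cube | linear_combination R.r * R.ω * R.cube | ring)

theorem gW₁_gY : R.gW₁ * gY = R.gX * R.gW₁ := Units.ext (by
  rw [Units.val_mul, Units.val_mul, val_gX, val_gY, val_gW₁]
  ext i j; fin_cases i <;> fin_cases j <;> simp [xM, yM, w₁M, Matrix.mul_apply, Fin.sum_univ_three] <;>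
    first | linear_combination -R.r * R.cube | linear_combination -R.r * R.ω * R.cube
          | linear_combination -R.r * R.eq * 0 | ring)

theorem gT_gX : R.gT * R.gX = R.gX * R.gT := Units.ext (by
  rw [Units.val_mul, Units.val_mul, val_gX, val_gT]
  ext i j; fin_cases i <;> fin_cases j <;> simp [xM, tM, Matrix.mul_apply, Fin.sum_univ_three] <;> ring)

theorem gT_gY : R.gT * gY = R.gZ ^ 2 * (R.gX ^ 2 * gY) * R.gT := Units.ext (by
  rw [Units.val_mul, Units.val_mul, Units.val_mul, gZ_pow_val, Matrix.smul_mul, one_mul, Units.val_mul,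
    Units.val_pow_eq_pow_val, val_gX, val_gY, val_gT, pow_two R.xM]
  ext i j; fin_cases i <;> fin_cases j <;>
    simp [xM, yM, tM, Matrix.mul_apply, Fin.sum_univ_three] <;>
    first | linear_combination -R.cube | linear_combination -R.ω * R.cube
          | linear_combination -(R.ω ^ 4 + R.ω) * R.cube
          | linear_combination -(R.ω ^ 3 + 1) * R.cube | ring)

/-- `W₁` and `W₂` anticommute modulo the centre of their group. -/
theorem gW₁_gW₂ : R.gW₁ * R.gW₂ = gH * (R.gW₂ * R.gW₁) := Units.ext (by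
  simp only [gW₂, Units.val_mul, val_gW₁, val_gH, val_gT,
    show ((R.gT⁻¹ : GL (Fin 3) F) : Matrix (Fin 3) (Fin 3) F) = R.tM' from rfl]
  have p3 := R.cube
  have p4 : R.ω ^ 4 = R.ω := by linear_combination R.ω * p3
  have p5 : R.ω ^ 5 = R.ω ^ 2 := by linear_combination R.ω ^ 2 * p3
  have p6 : R.ω ^ 6 = 1 := by linear_combination (R.ω ^ 3 + 1) * p3
  have p7 : R.ω ^ 7 = R.ω := by linear_combination R.ω * p6
  have p8 : R.ω ^ 8 = R.ω ^ 2 := by linear_combination R.ω ^ 2 * p6
  ext i j; fin_cases i <;> fin_cases j <;>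
    simp [w₁M, tM, tM', hM, Matrix.mul_apply, Fin.sum_univ_three] <;>
    refine sub_eq_zero.1 ?_ <;> ring_nf <;> (try simp only [p3, p4, p5, p6, p7, p8]) <;>
    first
      | ring1
      | linear_combination R.r ^ 2 * R.eq
      | linear_combination (2 * R.r ^ 2) * R.eq
      | linear_combination (3 * R.r ^ 2) * R.eq
      | linear_combination -(R.r ^ 2) * R.eq
      | linear_combination -(2 * R.r ^ 2) * R.eq
      | linear_combination -(3 * R.r ^ 2) * R.eq)

end Root3

end Cfsg.Agent.SLThree.Symp
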