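import Cfsg.Agent.SLThree.SympForm
import Cfsg.Agent.SLThree.SympPlane
import Cfsg.Agent.SLThree.Basic
import Cfsg.Agent.MaxSub.SymplecticType

/-!
Overgroups of the symplectic-type normaliser in `SL(3, p)`: no transvections, properness, and
maximality from the normalisation step.
-/

set_option autoImplicit false
set_option linter.unusedSectionVars false
set_option linter.style.haveILetI false

namespace Cfsg.Agent.SLThree.Symp

open Matrix Cfsg.Geo Cfsg.Agent.GeoClasses Cfsg.Agent.MaxSub.SubfieldMax
open scoped MatrixGroups Matrix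

variable {F : Type*} [Field F]

/-- Over a prime field an irreducible group not containing `SL` has no transvection. -/
theorem nt_of_irreducible [Fintype F] {p : ℕ} [Fact p.Prime] (hF : Fintype.card F = p)
    {X : Subgroup (GL (Fin 3) F)} (hirr : ActsIrreducibly (matrixSet X))
    (hno : ¬ specialLinear (Fin 3) F ≤ X) : NT X := by
  classical
  intro g hg hsq
  by_contra hne
  set N := (g : Matrix (Fin 3) (Fin 3) F) - 1 with hN
  have hN0 : N ≠ 0 := fun h => hne (Units.ext (by simpa [hN, sub_eq_zero] using h))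
  set f := Matrix.toLin' N with hf
  have hle : LinearMap.range f ≤ LinearMap.ker f := by
    rintro _ ⟨w, rfl⟩
    rw [LinearMap.mem_ker, hf, Matrix.toLin'_apply, Matrix.toLin'_apply, Matrix.mulVec_mulVec, hsq,
      Matrix.zero_mulVec]
  have hne0 : LinearMap.range f ≠ ⊥ := fun h => hN0 (by
    have : f = 0 := LinearMap.range_eq_bot.1 h
    exact Matrix.toLin'.map_eq_zero_iff.1 this)
  have hdim : Module.finrank F (LinearMap.range f) = 1 := by
    have h1 := LinearMap.finrank_range_add_finrank_ker f
    have h2 := Submodule.finrank_mono hle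
    have h3 := Submodule.one_le_finrank_iff.2 hne0
    rw [Module.finrank_fintype_fun_eq_card, Fintype.card_fin] at h1
    omega
  obtain ⟨⟨u, hu⟩, hu0, hspan⟩ := finrank_eq_one_iff'.1 hdim
  have hu0' : u ≠ 0 := fun h => hu0 (Subtype.ext h)
  have hcol : ∀ j : Fin 3, ∃ a : F, N *ᵥ Pi.single j 1 = a • u := fun j => by
    obtain ⟨a, ha⟩ := hspan ⟨f (Pi.single j 1), LinearMap.mem_range_self f _⟩
    exact ⟨a, by rw [← Matrix.toLin'_apply, ← hf]; exact (congrArg Subtype.val ha).symm⟩
  choose a ha using hcol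
  have hNuv : N = vecMulVec u a := by
    ext i j
    have := congrFun (ha j) i
    rw [Matrix.mulVec_single_one] at this
    simpa [vecMulVec_apply, mul_comm] using this
  have ha0 : a ≠ 0 := fun h => hN0 (by rw [hNuv, h]; ext i j; simp [vecMulVec_apply])
  have hdot : a ⬝ᵥ u = 0 := by
    have h := hle hu
    rw [LinearMap.mem_ker, hf, Matrix.toLin'_apply, hNuv, Matrix.vecMulVec_mulVec] at h
    by_contra hd
    refine hu0' (funext fun i => ?_)
    have := congrFun h i
    simpa [hd] using this
  have hroot : RootIn X u a := by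
    intro c
    haveI : CharP F p := charP_of_card_eq_prime hF
    have hbij : Function.Bijective (Nat.cast : ℕ → F) ∨ ∃ k : ℕ, (k : F) = c := by
      refine Or.inr ?_
      have hinj : Function.Injective fun k : Fin p => ((k : ℕ) : F) := fun k l h => by
        apply Fin.ext
        have := (CharP.natCast_eq_natCast F p).1 h
        rwa [Nat.ModEq, Nat.mod_eq_of_lt k.2, Nat.mod_eq_of_lt l.2] at this
      obtain ⟨k, hk⟩ := ((Fintype.bijective_iff_injective_and_card _).2
        ⟨hinj, by rw [Fintype.card_fin, hF]⟩).2 c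
      exact ⟨k, hk⟩
    obtain ⟨k, rfl⟩ := hbij.elim (fun h => ⟨_, (h.2 c).choose_spec⟩) id
    refine ⟨g ^ k, pow_mem hg k, ?_⟩
    rw [Units.val_pow_eq_pow_val]
    have hgN : (g : Matrix (Fin 3) (Fin 3) F) = 1 + N := by rw [hN]; abel
    have : ∀ n : ℕ, (1 + N) ^ n = 1 + (n : F) • N := by
      intro n
      induction n with
      | zero => simp
      | succ n ih =>
        rw [pow_succ, ih, add_mul, one_mul, mul_add, mul_one, Matrix.smul_mul, hsq, smul_zero, add_zero,
          Nat.cast_succ, add_smul, one_smul]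
        abel
    rw [hgN, this, hNuv]
    ext i j
    simp [vecMulVec_apply]
  exact hno (sl_le_of_root hirr hu0' ha0 hdot hroot)

/-- `SL(3)` does not normalise the standard group. -/
theorem Root3.not_sl_le [Fintype F] (S : Root3 F) :
    ¬ specialLinear (Fin 3) F ≤ Subgroup.normalizer (S.Rs : Set (GL (Fin 3) F)) := by
  intro hle
  let t : GL (Fin 3) F :=
    { val := !![1, 1, 0; 0, 1, 0; 0, 0, 1]
      inv := !![1, -1, 0; 0, 1, 0; 0, 0, 1]
      val_inv := by
        ext i j; fin_cases i <;> fin_cases j <;> simp [Matrix.mul_apply, Fin.sum_univ_three]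
      inv_val := by
        ext i j; fin_cases i <;> fin_cases j <;> simp [Matrix.mul_apply, Fin.sum_univ_three] }
  have ht : t ∈ specialLinear (Fin 3) F := by
    rw [specialLinear, MonoidHom.mem_ker]
    ext
    simp [t, Matrix.det_fin_three]
  obtain ⟨a, b, c, he⟩ := (Subgroup.mem_normalizer_iff.1 (hle ht) S.gX).1 S.gX_mem
  rw [S.el_mod] at he
  have hb : b % 3 < 3 := Nat.mod_lt _ (by norm_num)
  have hc : c % 3 < 3 := Nat.mod_lt _ (by norm_num)
  generalize b % 3 = b' at hb he
  generalize c % 3 = c' at hc he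
  have hv := congrArg (fun g : GL (Fin 3) F => (g : Matrix (Fin 3) (Fin 3) F)) he
  simp only [Units.val_mul, Root3.val_el, Root3.val_gX, t] at hv
  have h00 := congrFun (congrFun hv 0) 0
  have h01 := congrFun (congrFun hv 0) 1
  have hw1 := S.ne_one
  interval_cases b' <;> interval_cases c'
  all_goals simp [Root3.xM, Root3.yM, pow_two, Matrix.mul_apply, Fin.sum_univ_three] at h00 h01
  all_goals exact hw1 (by linear_combination h01)

/-- The shape of the normalisation step. -/
def Normalizes (F : Type*) [Field F] [Fintype F] : Prop :=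
  ∀ (S : Root3 F) (X : Subgroup (GL (Fin 3) F)), (5 : F) ≠ 0 →
    (∀ g ∈ X, Matrix.det (g : Matrix (Fin 3) (Fin 3) F) = 1) →
    S.gX ∈ X → Root3.gY ∈ X → S.gW₁ ∈ X → S.gW₂ ∈ X → NT X →
    ∀ g ∈ X, ∀ r ∈ S.Rs, g * r * g⁻¹ ∈ S.Rs

theorem irreducible_of_le {R X : Subgroup (GL (Fin 3) F)} (h : ActsIrreducibly (matrixSet R))
    (hle : R ≤ X) : ActsIrreducibly (matrixSet X) := fun W hW =>
  h W fun s hs => hW s (Set.image_mono hle hs)

/-- Clause 5 from the normalisation step. -/
theorem maximal_of_normalizes [Fintype F] (hcore : Normalizes F) (p : ℕ)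
    (R : Subgroup (GL (Fin 3) F)) (hp : p.Prime) (hF : Fintype.card F = p) (h3 : p % 3 = 1)
    (hR : IsLinearSymplecticTypeData 3 R) :
    IsMaximalIn (specialLinear (Fin 3) F) (subgroupNormalizer R ⊓ specialLinear (Fin 3) F) := by
  classical
  haveI := Fact.mk hp
  haveI : CharP F p := charP_of_card_eq_prime hF
  have hp5 : 7 ≤ p := by
    by_contra hlt
    push Not at hlt
    interval_cases p <;> first | omega | exact absurd hp (by norm_num)
  have hn : ∀ n : ℕ, 0 < n → n < p → (n : F) ≠ 0 := fun n h0 hlt h =>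
    absurd (Nat.le_of_dvd h0 ((CharP.cast_eq_zero_iff F p n).1 h)) (not_le.2 hlt)
  have h2' : (2 : F) ≠ 0 := by exact_mod_cast hn 2 (by norm_num) (by omega)
  have h3' : (3 : F) ≠ 0 := by exact_mod_cast hn 3 (by norm_num) (by omega)
  have h5' : (5 : F) ≠ 0 := by exact_mod_cast hn 5 (by norm_num) (by omega)
  obtain ⟨hZ, h27⟩ : Nat.card (Subgroup.center R) = 3 ∧ Nat.card R = 27 := by
    have hp3 : p ≠ 3 := by omega
    obtain ⟨p', e, -, hmin, hcase⟩ := hR.field
    rcases hcase with ⟨-, -, hZ, m, hm, hcard⟩ | ⟨h, -⟩ | ⟨h, -⟩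
    · refine ⟨hZ, ?_⟩
      haveI : Group.IsNilpotent R :=
        haveI : Fact (Nat.Prime 3) := ⟨Nat.prime_three⟩
        hR.symplecticType.pGroup.isNilpotent
      have hx : Monoid.exponent R = Nat.card (Subgroup.center R) := by
        rw [hR.symplecticType.exponent_eq, hZ]; rfl
      have hsq := Cfsg.Agent.MaxSub.sq_card_eq_index_center hR.absIrred
        (Cfsg.Agent.MaxSub.commutator_le_center_of_cyclic_char
          hR.symplecticType.cyclic_of_characteristic hx)
      rw [← (Subgroup.center R).card_mul_index, hZ, ← hsq, Fintype.card_fin]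
      norm_num
    · omega
    · omega
  have hexp : ∀ g ∈ R, g ^ 3 = 1 := fun g hg => by
    have h := Monoid.pow_exponent_eq_one (⟨g, hg⟩ : R)
    rw [hR.symplecticType.exponent_eq] at h
    simpa using congrArg Subtype.val h
  obtain ⟨S, B, hRB⟩ := exists_std hR.absIrred h27 hZ hexp h2' h3'
  have hdetRs : S.Rs ≤ specialLinear (Fin 3) F := by
    rw [S.Rs_eq_closure, Subgroup.closure_le]
    rintro g (rfl | rfl)
    · rw [SetLike.mem_coe, specialLinear, MonoidHom.mem_ker]; ext; simpa using S.det_gX
    · rw [SetLike.mem_coe, specialLinear, MonoidHom.mem_ker]; ext; simpa using Root3.det_gY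
  have hnorm : subgroupNormalizer R =
      (Subgroup.normalizer (S.Rs : Set (GL (Fin 3) F))).map (MulAut.conj B).toMonoidHom := by
    rw [subgroupNormalizer, hRB, Subgroup.coe_map]
    exact (Subgroup.map_equiv_normalizer_eq S.Rs (MulAut.conj B)).symm
  have hirr : ActsIrreducibly (matrixSet S.Rs) := by
    intro W hW
    have key := hR.absIrred.1 (W.map (Matrix.toLin' (B : Matrix (Fin 3) (Fin 3) F))) ?_
    · have hinj : Function.Injective (Matrix.toLin' (B : Matrix (Fin 3) (Fin 3) F)) := by
        intro v w h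
        simp only [Matrix.toLin'_apply] at h
        exact Matrix.mulVec_injective_iff_isUnit.2 B.isUnit h
      rcases key with h | h
      · exact Or.inl (Submodule.map_injective_of_injective hinj (h.trans (Submodule.map_bot _).symm))
      · refine Or.inr (Submodule.map_injective_of_injective hinj (h.trans ?_))
        rw [Submodule.map_top, LinearMap.range_eq_top.2 (LinearMap.injective_iff_surjective.1 hinj)]
    · rintro _ ⟨g, hg, rfl⟩
      rw [hRB] at hg
      obtain ⟨r, hr, rfl⟩ := hg
      rintro _ ⟨_, ⟨w, hw, rfl⟩, rfl⟩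
      refine ⟨(r : Matrix (Fin 3) (Fin 3) F) *ᵥ w, hW _ ⟨r, hr, rfl⟩ ⟨w, hw, by simp⟩, ?_⟩
      simp only [MulEquiv.coe_toMonoidHom, MulAut.conj_apply, Matrix.toLin'_apply,
        Matrix.mulVec_mulVec, ← Units.val_mul]
      congr 2; group
  have hstd : IsMaximalIn (specialLinear (Fin 3) F)
      (Subgroup.normalizer (S.Rs : Set (GL (Fin 3) F)) ⊓ specialLinear (Fin 3) F) := by
    refine isMaximalIn_of S.not_sl_le fun X hMX hX hno g hg => ?_
    have hin : ∀ w : GL (Fin 3) F, w ∈ Subgroup.normalizer (S.Rs : Set (GL (Fin 3) F)) →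
        Matrix.det (w : Matrix (Fin 3) (Fin 3) F) = 1 → w ∈ X := fun w hw hd => hMX ⟨hw, by
      show Matrix.GeneralLinearGroup.det w = 1
      exact Units.ext (by simpa using hd)⟩
    have hRX : S.Rs ≤ X := fun r hr => hMX ⟨Subgroup.le_normalizer hr, hdetRs hr⟩
    have hdet : ∀ g ∈ X, Matrix.det (g : Matrix (Fin 3) (Fin 3) F) = 1 := fun g hg => by
      have := hX hg
      rw [specialLinear, MonoidHom.mem_ker] at this
      simpa using congrArg Units.val this
    have key := hcore S X h5' hdet (hRX S.gX_mem) (hRX S.gY_mem)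
      (hin _ S.gW₁_normalizer S.det_Qs_gen.1) (hin _ S.gW₂_normalizer S.det_Qs_gen.2)
      (nt_of_irreducible hF (irreducible_of_le hirr hRX) hno)
    exact S.mem_normalizer_of_conj (key g hg)
  rw [hnorm]
  exact isMaximalIn_conj B hstd

end Cfsg.Agent.SLThree.Symp
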