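import Cfsg.Agent.SLThree.UnitStd
import Cfsg.Agent.GeoClasses.UnitBase
import Cfsg.Agent.GeoClasses.FieldInvol

/-!
Similarity groups of non-degenerate unitary forms are maximal in `SL(3, F)`.
-/

set_option autoImplicit false
set_option linter.unusedSectionVars false
set_option linter.unusedSimpArgs false

namespace Cfsg.Agent.SLThree.Unit

open Matrix Cfsg.Geo Cfsg.Agent.GeoClasses Cfsg.Agent.MaxSub.SubfieldMax
open scoped MatrixGroups Matrix
open Cfsg.Agent.Classical.U (SqField)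

variable {F : Type*} [Field F] {σ : F ≃+* F}

/-- The value of the form on a representative. -/
def val (σ : F ≃+* F) (P : Pt F) : F := f₁ σ (rep P) (rep P)

theorem val_inl (a b : F) : val σ (Sum.inl (a, b) : Pt F) = a + σ a + b * σ b := by
  simp [val, rep, f₁]
  ring

theorem val_mid (a : F) : val σ (Sum.inr (Sum.inl a) : Pt F) = 1 := by simp [val, rep, f₁]

theorem val_base (u : Unit) : val σ (Sum.inr (Sum.inr u) : Pt F) = 0 := by simp [val, rep, f₁]

variable (hσ : Inv σ)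

include hσ

theorem iso_orbit (P : Pt F) : P ∈ ptOrbit (H₁ σ) e₀ ↔ val σ P = 0 := by
  constructor
  · rintro ⟨g, ⟨⟨c, hc⟩, -⟩, e⟩
    obtain ⟨d, -, ed⟩ := (line_eq_iff (rep_ne_zero P)).1 e.symm
    have h0 : f₁ σ ((g : Matrix (Fin 3) (Fin 3) F) *ᵥ e₀) ((g : Matrix (Fin 3) (Fin 3) F) *ᵥ e₀) = 0 := by
      rw [hc]; simp [f₁, e₀]
    have hsm : ∀ (d : F) (v : Fin 3 → F), f₁ σ (d • v) (d • v) = d * σ d * f₁ σ v v := fun d v => by
      simp [f₁]; ring
    rw [val, ed, hsm, h0, mul_zero]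
  · intro h
    rcases P with ⟨a, b⟩ | a | ⟨⟩
    · rw [val_inl] at h
      have hu : a + σ a + (-σ b) * σ (-σ b) = 0 := by
        rw [map_neg, hσ.invol]; linear_combination h
      refine ⟨u σ (-σ b) a * mk3 wM wM_det, mul_mem (u_mem hσ hu) (w_mem hσ), ?_⟩
      rw [Units.val_mul, u_val, mk3_val]
      congr 1
      ext i; fin_cases i <;> simp [rep, e₀, uM, wM, Matrix.mulVec, dotProduct, Fin.sum_univ_three,
        Matrix.mul_apply, hσ.invol, Matrix.vecHead, Matrix.vecTail]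
    · exact absurd (val_mid (σ := σ) a ▸ h) one_ne_zero
    · exact ⟨1, one_mem _, by simp [rep, e₀]⟩

/-- The normal anisotropic point. -/
def P₁ : Pt F := Sum.inl (hσ.τ₀, 0)

/-- Every anisotropic point moves to the normal one. -/
theorem exists_to_P₁ (P : Pt F) (hP : val σ P ≠ 0) :
    ∃ g ∈ H₁ σ, ∃ c : F, c ≠ 0 ∧ (g : Matrix (Fin 3) (Fin 3) F) *ᵥ rep P = c • rep (P₁ hσ) := by
  have inl : ∀ a b : F, val σ (Sum.inl (a, b) : Pt F) ≠ 0 →
      ∃ g ∈ H₁ σ, ∃ c : F, c ≠ 0 ∧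
        (g : Matrix (Fin 3) (Fin 3) F) *ᵥ rep (Sum.inl (a, b)) = c • rep (P₁ hσ) := by
    intro a b hab
    rw [val_inl] at hab
    set v := a + σ a + b * σ b with hv
    have hvfix : σ v = v := by simp only [hv, map_add, map_mul, hσ.invol]; ring
    obtain ⟨t, ht, hnt⟩ := hσ.norm v⁻¹ (by rw [map_inv₀, hvfix]) (inv_ne_zero hab)
    have ht' : σ t ≠ 0 := by simpa using ht
    set g₁ := u σ (σ b) (-(σ b * σ (σ b) * hσ.τ₀))
    set z := a + σ b * b + -(σ b * σ (σ b) * hσ.τ₀) with hz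
    set d := hσ.τ₀ - z * v⁻¹ with hd
    have hztr : z + σ z = v := by
      simp only [hz, map_add, map_neg, map_mul, hσ.invol, hv]
      linear_combination (-(σ b * b)) * hσ.trace_τ₀
    have hdsk : d + σ d + 0 * σ 0 = 0 := by
      simp only [hd, map_sub, map_mul, map_inv₀, hvfix, zero_mul, add_zero]
      have : (z + σ z) * v⁻¹ = 1 := by rw [hztr, mul_inv_cancel₀ hab]
      linear_combination hσ.trace_τ₀ - this
    refine ⟨u σ 0 d * (mk3 (hdM σ t) (hdM_det ht) * g₁), mul_mem (u_mem hσ hdsk)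
      (mul_mem (hd_mem hσ ht) (u_mem hσ (gam_spec hσ (σ b)))), (σ t)⁻¹, inv_ne_zero ht', ?_⟩
    simp only [Units.val_mul, ← Matrix.mulVec_mulVec, u_val, mk3_val, g₁]
    have e1 : uM σ (σ b) (-(σ b * σ (σ b) * hσ.τ₀)) *ᵥ rep (Sum.inl (a, b)) = ![z, 0, 1] := by
      ext i; fin_cases i <;> simp [rep, uM, hz, hσ.invol, Matrix.mulVec, dotProduct,
        Fin.sum_univ_three, Matrix.vecHead, Matrix.vecTail]
    rw [e1]
    ext i; fin_cases i <;> simp [rep, P₁, hdM, uM, Matrix.mulVec, dotProduct, Fin.sum_univ_three,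
      Matrix.vecHead, Matrix.vecTail]
    rw [hd, ← hnt]
    field_simp
    ring
  rcases P with ⟨a, b⟩ | a | ⟨⟩
  · exact inl a b hP
  · obtain ⟨g, hg, c, hc, e⟩ := inl 0 (-1) (by rw [val_inl]; simp)
    set g₁ := mk3 (wM : Matrix (Fin 3) (Fin 3) F) wM_det * u σ (1 - a) (-((1 - a) * σ (1 - a) * hσ.τ₀))
    refine ⟨g * g₁, mul_mem hg (mul_mem (w_mem hσ) (u_mem hσ (gam_spec hσ _))), c, hc, ?_⟩
    rw [← e, Units.val_mul, ← Matrix.mulVec_mulVec]
    congr 1
    simp only [g₁, Units.val_mul, u_val, mk3_val]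
    ext i; fin_cases i <;> simp [rep, wM, uM, Matrix.mulVec, dotProduct, Fin.sum_univ_three,
      Matrix.mul_apply, Matrix.vecHead, Matrix.vecTail]
  · exact absurd (val_base ()) hP

/-- The anisotropic points form one orbit. -/
theorem mem_of_aniso {X : Subgroup (GL (Fin 3) F)} (hX : H₁ σ ≤ X) {P Q : Pt F}
    (hP : P ∈ ptOrbit X e₀) (hP0 : val σ P ≠ 0) (hQ0 : val σ Q ≠ 0) : Q ∈ ptOrbit X e₀ := by
  obtain ⟨g, hg, c, hc, e⟩ := exists_to_P₁ hσ P hP0
  have h1 : P₁ hσ ∈ ptOrbit X e₀ := mem_ptOrbit_smul hP (hX hg)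
    ((line_eq_iff (mulVec_ne_zero g (rep_ne_zero P))).2 ⟨c, hc, e⟩)
  obtain ⟨g', hg', c', hc', e'⟩ := exists_to_P₁ hσ Q hQ0
  refine mem_ptOrbit_smul h1 (hX (inv_mem hg'))
    ((line_eq_iff (mulVec_ne_zero _ (rep_ne_zero _))).2 ⟨c'⁻¹, inv_ne_zero hc', ?_⟩)
  have := congrArg ((((g'⁻¹ : GL (Fin 3) F) : Matrix (Fin 3) (Fin 3) F)) *ᵥ ·) e'
  simp only [Matrix.mulVec_mulVec, ← Units.val_mul, inv_mul_cancel, Units.val_one, Matrix.one_mulVec,
    Matrix.mulVec_smul] at this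
  rw [this, smul_smul, inv_mul_cancel₀ hc', one_smul]

/-- The skew elements number the square root of `q`, and the isotropic points its cube plus one. -/
theorem exists_sqrt_card [Fintype F] : ∃ s : ℕ, Fintype.card F = s ^ 2 ∧
    Nat.card (ptOrbit (H₁ σ) e₀) = s ^ 3 + 1 := by
  classical
  set T : F →+ F := AddMonoidHom.id F + σ.toAddMonoidHom with hT
  have hTa : ∀ x, T x = x + σ x := fun _ => rfl
  let e : T.ker ≃ T.range :=
    { toFun := fun x => ⟨hσ.δ₀ * x.1, ⟨hσ.τ₀ * (hσ.δ₀ * x.1), by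
        have hx : x.1 + σ x.1 = 0 := hTa x.1 ▸ AddMonoidHom.mem_ker.1 x.2
        have hfix : σ (hσ.δ₀ * x.1) = hσ.δ₀ * x.1 := by
          rw [map_mul]
          linear_combination (σ x.1) * hσ.skew_δ₀ + (-hσ.δ₀) * hx
        rw [hTa, map_mul σ hσ.τ₀, hfix, ← add_mul, hσ.trace_τ₀, one_mul]⟩⟩
      invFun := fun y => ⟨y.1 / hσ.δ₀, by
        obtain ⟨z, hz⟩ := y.2
        rw [AddMonoidHom.mem_ker, hTa, map_div₀]
        have hs : σ hσ.δ₀ = -hσ.δ₀ := eq_neg_of_add_eq_zero_right hσ.skew_δ₀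
        have hf : σ y.1 = y.1 := by rw [← hz, hTa, map_add, hσ.invol, add_comm]
        rw [hs, hf, div_neg, add_neg_cancel]⟩
      left_inv := fun x => Subtype.ext (mul_div_cancel_left₀ _ hσ.δ₀_ne)
      right_inv := fun y => Subtype.ext (mul_div_cancel₀ _ hσ.δ₀_ne) }
  set s := Nat.card T.ker with hs
  have hq : Fintype.card F = s ^ 2 := by
    rw [← Nat.card_eq_fintype_card, AddSubgroup.card_eq_card_quotient_mul_card_addSubgroup T.ker,
      Nat.card_congr (QuotientAddGroup.quotientKerEquivRange T).toEquiv, ← Nat.card_congr e, ← hs, pow_two]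
  refine ⟨s, hq, ?_⟩
  -- fibres over the second coordinate are translates of the skew elements
  let Φ : {P : Pt F // val σ P = 0} ≃ (F × T.ker) ⊕ Unit :=
    { toFun := fun P => match P with
        | ⟨Sum.inl (a, b), h⟩ => Sum.inl (b, ⟨a + b * σ b * hσ.τ₀, by
            rw [val_inl] at h
            rw [AddMonoidHom.mem_ker, hTa]
            simp only [map_add, map_mul, hσ.invol]
            linear_combination h + (b * σ b) * hσ.trace_τ₀⟩)
        | ⟨Sum.inr (Sum.inl a), h⟩ => absurd (val_mid (σ := σ) a ▸ h) one_ne_zero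
        | ⟨Sum.inr (Sum.inr _), _⟩ => Sum.inr ()
      invFun := fun x => match x with
        | Sum.inl (b, d) => ⟨Sum.inl (d.1 - b * σ b * hσ.τ₀, b), by
            have hd : d.1 + σ d.1 = 0 := hTa d.1 ▸ AddMonoidHom.mem_ker.1 d.2
            rw [val_inl]
            simp only [map_sub, map_mul, hσ.invol]
            linear_combination hd - (b * σ b) * hσ.trace_τ₀⟩
        | Sum.inr _ => ⟨Sum.inr (Sum.inr ()), val_base ()⟩
      left_inv := fun P => by
        rcases P with ⟨⟨a, b⟩ | a | ⟨⟩, h⟩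
        · simp
        · exact absurd (val_mid (σ := σ) a ▸ h) one_ne_zero
        · rfl
      right_inv := fun x => by
        rcases x with ⟨b, d⟩ | ⟨⟩
        · simp
        · rfl }
  rw [show ptOrbit (H₁ σ) e₀ = {P | val σ P = 0} from Set.ext (iso_orbit hσ)]
  show Nat.card {P : Pt F // val σ P = 0} = _
  rw [Nat.card_congr Φ, Nat.card_sum, Nat.card_prod, Nat.card_eq_fintype_card (α := F), hq, ← hs]
  simp
  ring

/-- The standard similarity group has no proper overgroup in `SL`. -/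
theorem le_H₁ [Fintype F] {X : Subgroup (GL (Fin 3) F)} (hX : H₁ σ ≤ X)
    (hXS : X ≤ specialLinear (Fin 3) F) (hno : ¬ specialLinear (Fin 3) F ≤ X) : X ≤ H₁ σ := by
  classical
  have he : (e₀ : Fin 3 → F) ≠ 0 := fun h => by simpa [e₀] using congrFun h 0
  have hstab := stab_le hσ hX hXS hno
  by_cases horb : ptOrbit X e₀ ⊆ ptOrbit (H₁ σ) e₀
  · exact le_of_stab_le hX hstab horb he
  exfalso
  obtain ⟨P₀, hP₀, hP₀'⟩ := Set.not_subset.1 horb
  rw [iso_orbit hσ] at hP₀'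
  have hall : ∀ P, P ∈ ptOrbit X e₀ := fun P => by
    by_cases hP : val σ P = 0
    · exact ptOrbit_mono hX _ ((iso_orbit hσ P).2 hP)
    · exact mem_of_aniso hσ hX hP₀ hP₀' hP
  have hA := card_eq_orbit X he
  have hB := card_eq_orbit (H₁ σ) he
  have heq : (X ⊓ subspaceStabilizer (line (e₀ : Fin 3 → F))) =
      (H₁ σ ⊓ subspaceStabilizer (line (e₀ : Fin 3 → F))) :=
    le_antisymm (le_inf hstab inf_le_right) (inf_le_inf_right _ hX)
  rw [heq] at hA
  have hdvd : Nat.card (ptOrbit (H₁ σ) e₀) ∣ Nat.card (ptOrbit X e₀) := by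
    have h := Subgroup.card_dvd_of_le hX
    rw [hA, hB] at h
    exact Nat.dvd_of_mul_dvd_mul_right Nat.card_pos h
  obtain ⟨s, hq, hiso⟩ := exists_sqrt_card hσ
  rw [hiso, show Nat.card (ptOrbit X e₀) = Nat.card (Pt F) from
    Nat.card_congr (Equiv.subtypeUnivEquiv hall), card_pt, hq] at hdvd
  have hs : 2 ≤ s := by
    have h1 := Fintype.one_lt_card (α := F)
    rw [hq] at h1
    by_contra hlt
    interval_cases s <;> simp at h1
  have hrem : (s ^ 2) ^ 2 + s ^ 2 + 1 + s = s * (s ^ 3 + 1) + (s ^ 2 + 1) := by ring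
  obtain ⟨k, hk⟩ := hdvd
  have hk1 : s ≤ k := by
    by_contra hlt
    have : (s ^ 3 + 1) * (k + 1) ≤ (s ^ 3 + 1) * s := Nat.mul_le_mul_left _ (by omega)
    nlinarith
  have hk2 : k ≤ s := by
    by_contra hlt
    have : (s ^ 3 + 1) * (s + 1) ≤ (s ^ 3 + 1) * k := Nat.mul_le_mul_left _ (by omega)
    have hcube : s ^ 2 + 1 < s ^ 3 + 1 := by
      have : s ^ 2 * 1 < s ^ 2 * s := Nat.mul_lt_mul_of_pos_left (by omega) (by positivity)
      nlinarith
    nlinarith
  obtain rfl : k = s := le_antisymm hk2 hk1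
  nlinarith

omit hσ

/-- Clause (7): the similarity group of a unitary form is maximal. -/
theorem unitary_maximal [Fintype F] (σ : F ≃+* F) (f : (Fin 3 → F) → (Fin 3 → F) → F)
    (hf : IsUnitaryForm σ f) :
    IsMaximalIn (specialLinear (Fin 3) F) (similarityGroup f ⊓ specialLinear (Fin 3) F) := by
  classical
  obtain ⟨q, hF, hσq⟩ := exists_sqField_of_involution hf.involutive hf.ne_refl
  obtain ⟨τ, hτ⟩ := hF.exists_trace (c := 1) (one_pow q)
  obtain ⟨δ, hδ0, hδ⟩ := hF.exists_skew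
  have I : Inv σ :=
    { invol := hf.involutive
      τ₀ := τ
      trace_τ₀ := by rw [hσq]; exact hτ
      δ₀ := δ
      δ₀_ne := hδ0
      skew_δ₀ := by rw [hσq, hδ, add_neg_cancel]
      norm := fun l hl hl0 => by
        rw [hσq] at hl
        obtain ⟨x, hx⟩ := hF.exists_norm hl
        refine ⟨x, fun h => hl0 (by rw [← hx, h, zero_pow (Nat.succ_ne_zero q)]), ?_⟩
        rw [hσq, ← hx, pow_succ]; ring }
  have hstd : IsMaximalIn (specialLinear (Fin 3) F)
      (similarityGroup (f₁ σ) ⊓ specialLinear (Fin 3) F) :=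
    isMaximalIn_of (not_le I) fun X hX hXS hno => (le_H₁ I hX hXS hno).trans inf_le_left
  -- congruence
  have hfJ := unitaryForm_eq_formOf hf
  set J := gramMatrix f with hJ
  have hherm : starMat σ J = J := formOf_injective fun a b => by
    rw [formOf_star hf.involutive, ← hfJ]; exact (hf.herm a b).symm
  have hJu : IsUnit J := isUnit_of_isNondegenerateForm (σ := σ) (by rw [← hfJ]; exact hf.nondegenerate)
  set J₁ : Matrix (Fin 3) (Fin 3) F := !![0, 0, 1; 0, 1, 0; 1, 0, 0] with hJ₁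
  have hf₁ : ∀ a b, f₁ σ a b = formOf σ J₁ a b := fun a b => by
    simp [f₁, formOf, hJ₁, Matrix.mulVec, dotProduct, Fin.sum_univ_three, Matrix.vecHead, Matrix.vecTail]
  obtain ⟨D, hD⟩ := exists_congr_one hf.involutive hf.ne_refl hJu hherm
  obtain ⟨D₁, hD₁⟩ := exists_congr_one (J := J₁) hf.involutive hf.ne_refl
    (by rw [Matrix.isUnit_iff_isUnit_det]; simp [hJ₁, Matrix.det_fin_three])
    (by ext i j; fin_cases i <;> fin_cases j <;> simp [starMat, hJ₁])
  set E := D * D₁⁻¹ with hE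
  have hfE : ∀ a b, f ((E : Matrix (Fin 3) (Fin 3) F) *ᵥ a) ((E : Matrix (Fin 3) (Fin 3) F) *ᵥ b) =
      f₁ σ a b := by
    intro a b
    rw [hE, Units.val_mul, ← Matrix.mulVec_mulVec, ← Matrix.mulVec_mulVec, hfJ, formOf_mulVec, hD]
    have h := formOf_mulVec σ J₁ (D₁ : Matrix (Fin 3) (Fin 3) F)
      (((D₁⁻¹ : GL (Fin 3) F) : Matrix (Fin 3) (Fin 3) F) *ᵥ a)
      (((D₁⁻¹ : GL (Fin 3) F) : Matrix (Fin 3) (Fin 3) F) *ᵥ b)
    rw [hD₁, mulVec_inv_cancel, mulVec_inv_cancel] at h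
    rw [hf₁, h]
  have hconj : similarityGroup f = (similarityGroup (f₁ σ)).map (MulAut.conj E).toMonoidHom := by
    ext g
    constructor
    · rintro ⟨c, hc⟩
      refine ⟨E⁻¹ * g * E, ⟨c, fun a b => ?_⟩, by simp [mul_assoc]⟩
      rw [← hfE, ← hfE]
      simp only [Units.val_mul, ← Matrix.mulVec_mulVec, mulVec_inv_cancel]
      exact hc _ _
    · rintro ⟨k, ⟨c, hc⟩, rfl⟩
      refine ⟨c, fun a b => ?_⟩
      simp only [MulEquiv.coe_toMonoidHom, MulAut.conj_apply, Units.val_mul, ← Matrix.mulVec_mulVec]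
      rw [hfE, hc, ← hfE, mulVec_inv_cancel, mulVec_inv_cancel]
  rw [hconj]
  exact isMaximalIn_conj E hstd

end Cfsg.Agent.SLThree.Unit
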