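import Cfsg.Agent.SLThree.Stab

/-!
The similarity group of the standard unitary form `x₀σy₂ + x₁σy₁ + x₂σy₀`: the stabiliser of an
isotropic point does not grow in a proper overgroup.
-/

set_option autoImplicit false
set_option linter.unusedSectionVars false
set_option linter.unusedSimpArgs false

namespace Cfsg.Agent.SLThree.Unit

open Matrix Cfsg.Geo Cfsg.Agent.GeoClasses Cfsg.Agent.MaxSub.SubfieldMax
open scoped MatrixGroups Matrix

variable {F : Type*} [Field F]

/-- What is used about the involutory automorphism. -/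
structure Inv (σ : F ≃+* F) where
  invol : ∀ a, σ (σ a) = a
  τ₀ : F
  trace_τ₀ : τ₀ + σ τ₀ = 1
  δ₀ : F
  δ₀_ne : δ₀ ≠ 0
  skew_δ₀ : δ₀ + σ δ₀ = 0
  norm : ∀ l : F, σ l = l → l ≠ 0 → ∃ t : F, t ≠ 0 ∧ t * σ t = l

variable {σ : F ≃+* F} (hσ : Inv σ)

/-- The standard hermitian form. -/
def f₁ (σ : F ≃+* F) (x y : Fin 3 → F) : F := x 0 * σ (y 2) + x 1 * σ (y 1) + x 2 * σ (y 0)

def uM (σ : F ≃+* F) (β γ : F) : Matrix (Fin 3) (Fin 3) F := !![1, β, γ; 0, 1, -σ β; 0, 0, 1]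

theorem uM_det (β γ : F) : (uM σ β γ).det = 1 := by simp [uM, Matrix.det_fin_three]

/-- Unipotent isometries fixing the first base point. -/
noncomputable def u (σ : F ≃+* F) (β γ : F) : GL (Fin 3) F := mk3 (uM σ β γ) (uM_det β γ)

theorem u_val (β γ : F) : (u σ β γ : Matrix (Fin 3) (Fin 3) F) = uM σ β γ := rfl

def hdM (σ : F ≃+* F) (t : F) : Matrix (Fin 3) (Fin 3) F := !![t, 0, 0; 0, σ t / t, 0; 0, 0, (σ t)⁻¹]

theorem hdM_det {t : F} (h : t ≠ 0) : (hdM σ t).det = 1 := by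
  have h' : σ t ≠ 0 := by simpa using h
  simp [hdM, Matrix.det_fin_three, h, h']
  field_simp

def wM : Matrix (Fin 3) (Fin 3) F := !![0, 0, 1; 0, -1, 0; 1, 0, 0]

theorem wM_det : (wM : Matrix (Fin 3) (Fin 3) F).det = 1 := by simp [wM, Matrix.det_fin_three]

/-- The group: determinant one similitudes. -/
def H₁ (σ : F ≃+* F) : Subgroup (GL (Fin 3) F) :=
  similarityGroup (f₁ σ) ⊓ specialLinear (Fin 3) F

theorem mk3_mem_H₁ {A : Matrix (Fin 3) (Fin 3) F} (h : A.det = 1) (c : Fˣ)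
    (hA : ∀ x y, f₁ σ (A *ᵥ x) (A *ᵥ y) = (c : F) * f₁ σ x y) : mk3 A h ∈ H₁ σ :=
  ⟨⟨c, by simpa using hA⟩, mk3_mem A h⟩

include hσ

theorem u_mem {β γ : F} (h : γ + σ γ + β * σ β = 0) : u σ β γ ∈ H₁ σ :=
  mk3_mem_H₁ _ 1 fun x y => by
    simp [f₁, uM, Matrix.mulVec, dotProduct, Fin.sum_univ_three, hσ.invol, Matrix.vecHead, Matrix.vecTail]
    linear_combination (x 2 * σ (y 2)) * h

theorem u_inv {β γ : F} (h : γ + σ γ + β * σ β = 0) : (u σ β γ)⁻¹ = u σ (-β) (σ γ) := by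
  refine inv_eq_of_mul_eq_one_right (Units.ext ?_)
  rw [Units.val_mul, u_val, u_val, Units.val_one]
  ext i j
  fin_cases i <;> fin_cases j <;> simp [uM, Matrix.mul_apply, Fin.sum_univ_three]
  linear_combination h

theorem gam_spec (β : F) : -(β * σ β * hσ.τ₀) + σ (-(β * σ β * hσ.τ₀)) + β * σ β = 0 := by
  simp only [map_neg, map_mul, hσ.invol]
  linear_combination (-(β * σ β)) * hσ.trace_τ₀

theorem hd_mem {t : F} (h : t ≠ 0) : mk3 (hdM σ t) (hdM_det h) ∈ H₁ σ :=
  mk3_mem_H₁ _ 1 fun x y => by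
    have h' : σ t ≠ 0 := by simpa using h
    simp [f₁, hdM, Matrix.mulVec, dotProduct, Fin.sum_univ_three, hσ.invol]
    field_simp

theorem w_mem : mk3 (wM : Matrix (Fin 3) (Fin 3) F) wM_det ∈ H₁ σ :=
  mk3_mem_H₁ _ 1 fun x y => by
    simp [f₁, wM, Matrix.mulVec, dotProduct, Fin.sum_univ_three]
    ring

theorem delta_mem : u σ 0 hσ.δ₀ ∈ H₁ σ := u_mem hσ (by simp [hσ.skew_δ₀])

/-- An overgroup is irreducible. -/
theorem irreducible {X : Subgroup (GL (Fin 3) F)} (hX : H₁ σ ≤ X) :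
    ActsIrreducibly (matrixSet X) := by
  intro W hW
  have hinv : ∀ g ∈ H₁ σ, ∀ v ∈ W, (g : Matrix (Fin 3) (Fin 3) F) *ᵥ v ∈ W := fun g hg v hv =>
    hW _ ⟨g, hX hg, rfl⟩ ⟨v, hv, Matrix.toLin'_apply _ _⟩
  by_cases hb : W = ⊥
  · exact Or.inl hb
  refine Or.inr (eq_top_iff.2 fun v _ => ?_)
  obtain ⟨x, hx, hx0⟩ := W.exists_mem_ne_zero_of_ne_bot hb
  set γ₁ := -(1 * σ 1 * hσ.τ₀) with hγ₁
  have hu : ∀ y ∈ W, uM σ 1 γ₁ *ᵥ y - y ∈ W := fun y hy =>
    sub_mem (hinv _ (u_mem hσ (gam_spec hσ 1)) y hy) hy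
  have he0 : (![1, 0, 0] : Fin 3 → F) ∈ W := by
    by_cases h2x : x 2 = 0
    · by_cases h1x : x 1 = 0
      · have h0x : x 0 ≠ 0 := fun h0 => hx0 (by ext i; fin_cases i <;> assumption)
        convert W.smul_mem (x 0)⁻¹ hx using 1
        ext i; fin_cases i <;> simp [h1x, h2x, h0x]
      · convert W.smul_mem (x 1)⁻¹ (hu x hx) using 1
        ext i; fin_cases i <;> simp [uM, Matrix.mulVec, dotProduct, Fin.sum_univ_three, h2x, h1x, Matrix.vecHead, Matrix.vecTail]
    · have := sub_mem (hinv _ (delta_mem hσ) x hx) hx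
      convert W.smul_mem (hσ.δ₀ * x 2)⁻¹ this using 1
      ext i; fin_cases i <;> simp [u_val, uM, Matrix.mulVec, dotProduct, Fin.sum_univ_three, Matrix.vecHead, Matrix.vecTail]
      field_simp [hσ.δ₀_ne]
  have he2 : (![0, 0, 1] : Fin 3 → F) ∈ W := by
    convert hinv _ (w_mem hσ) _ he0 using 1
    ext i; fin_cases i <;> simp [wM, Matrix.mulVec, dotProduct, Fin.sum_univ_three]
  have he1 : (![0, 1, 0] : Fin 3 → F) ∈ W := by
    convert W.neg_mem (sub_mem (hu _ he2) (W.smul_mem γ₁ he0)) using 1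
    ext i; fin_cases i <;> simp [uM, Matrix.mulVec, dotProduct, Fin.sum_univ_three, Matrix.vecHead, Matrix.vecTail]
  convert add_mem (add_mem (W.smul_mem (v 0) he0) (W.smul_mem (v 1) he1)) (W.smul_mem (v 2) he2) using 1
  ext i; fin_cases i <;> simp

theorem not_le : ¬ specialLinear (Fin 3) F ≤ similarityGroup (f₁ σ) := by
  intro h
  have hd : (!![1, 0, 0; 1, 1, 0; 0, 0, 1] : Matrix (Fin 3) (Fin 3) F).det = 1 := by
    simp [Matrix.det_fin_three]
  obtain ⟨c, hc⟩ := h (mk3_mem _ hd)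
  have := hc ![1, 0, 0] ![1, 0, 0]
  simp [f₁, Matrix.mulVec, dotProduct, Fin.sum_univ_three] at this

theorem trace_nondeg {x : F} (h : ∀ β : F, x * β + σ (x * β) = 0) : x = 0 := by
  by_contra hx
  have := h (hσ.τ₀ / x)
  rw [mul_div_cancel₀ _ hx, hσ.trace_τ₀] at this
  exact one_ne_zero this

/-- Transvections centred at the base point of a proper overgroup. -/
theorem root_cases {X : Subgroup (GL (Fin 3) F)} (hX : H₁ σ ≤ X)
    (hno : ¬ specialLinear (Fin 3) F ≤ X) {x y : F} (h : InM X e₀ ![0, x, y]) :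
    x = 0 ∧ y + σ y = 0 := by
  have hd : ∀ x y : F, (![0, x, y] : Fin 3 → F) ⬝ᵥ e₀ = 0 := fun x y => by
    simp [e₀, dotProduct, Fin.sum_univ_three]
  have hroot : ¬ RootIn X e₀ ![0, 0, 1] := fun hr => hno (sl_le_of_root (irreducible hσ hX)
    (fun h => by simpa [e₀] using congrFun h 0) (fun h => by simpa using congrFun h 2) (hd 0 1) hr)
  have hx0 : x = 0 := by
    by_contra hx
    refine hroot fun c => ?_
    have hg := gam_spec hσ (σ (c / x))
    have h' := h.conj (hX (u_mem hσ hg))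
    rw [u_inv hσ hg, u_val, u_val] at h'
    set γ := -(σ (c / x) * σ (σ (c / x)) * hσ.τ₀)
    have e1 : uM σ (σ (c / x)) γ *ᵥ e₀ = e₀ := by
      ext i; fin_cases i <;> simp [uM, e₀, Matrix.mulVec, dotProduct, Fin.sum_univ_three]
    have e2 : (![0, x, y] : Fin 3 → F) ᵥ* uM σ (-σ (c / x)) (σ γ) = ![0, x, c + y] := by
      ext i; fin_cases i <;>
        simp [uM, Matrix.vecMul, dotProduct, Fin.sum_univ_three, hσ.invol, mul_div_cancel₀ _ hx,
          Matrix.vecHead, Matrix.vecTail]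
    rw [e1, e2] at h'
    convert h'.add_right (InM.neg h (hd x y)) (hd _ _) using 1
    ext i; fin_cases i <;> simp
  subst hx0
  refine ⟨rfl, ?_⟩
  by_contra hy
  refine hroot fun c => ?_
  -- `c = l y + d` with `l` fixed and `d` skew
  set l := (c + σ c) / (y + σ y) with hl
  have hfix : σ l = l := by
    simp only [hl, map_div₀, map_add, hσ.invol]
    rw [add_comm (σ c), add_comm (σ y)]
  have hskew : (c - l * y) + σ (c - l * y) = 0 := by
    rw [map_sub, map_mul, hfix]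
    have : l * (y + σ y) = c + σ c := by rw [hl, div_mul_cancel₀ _ hy]
    linear_combination -this
  have hd' : InM X e₀ ![0, 0, c - l * y] := by
    refine ⟨u σ 0 (c - l * y), hX (u_mem hσ (by simpa using hskew)), ?_⟩
    rw [u_val]
    ext i j; fin_cases i <;> fin_cases j <;> simp [uM, vecMulVec_apply, e₀]
  have hl' : InM X e₀ ![0, 0, l * y] := by
    rcases eq_or_ne l 0 with h0 | h0
    · exact ⟨1, one_mem _, by ext i j; fin_cases i <;> fin_cases j <;> simp [vecMulVec_apply, h0]⟩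
    obtain ⟨t, ht, hnt⟩ := hσ.norm l hfix h0
    have ht' : σ t ≠ 0 := by simpa using ht
    have h' := h.conj (hX (hd_mem hσ ht))
    have einv : (((mk3 (hdM σ t) (hdM_det ht))⁻¹ : GL (Fin 3) F) : Matrix (Fin 3) (Fin 3) F) =
        hdM σ t⁻¹ := by
      refine Units.inv_eq_of_mul_eq_one_right ?_
      rw [mk3_val]
      ext i j
      fin_cases i <;> fin_cases j <;> simp [hdM, Matrix.mul_apply, Fin.sum_univ_three, ht, ht'] <;>
        field_simp
    rw [einv, mk3_val] at h'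
    refine h'.congr ?_
    ext i j
    fin_cases i <;> fin_cases j <;>
      simp [vecMulVec_apply, hdM, e₀, Matrix.mulVec, Matrix.vecMul, dotProduct, Fin.sum_univ_three]
    rw [← hnt]; ring
  convert hl'.add_right hd' (hd _ _) using 1
  ext i; fin_cases i <;> simp

/-- An element fixing the base point with trivial block lies in the group. -/
theorem kernel_form {X : Subgroup (GL (Fin 3) F)} (hX : H₁ σ ≤ X)
    (hXS : X ≤ specialLinear (Fin 3) F) (hno : ¬ specialLinear (Fin 3) F ≤ X) {k : GL (Fin 3) F}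
    (hk : k ∈ X) (fk : Fix0 (k : Matrix (Fin 3) (Fin 3) F))
    (bk : blk (k : Matrix (Fin 3) (Fin 3) F) = 1) : ∃ y, y + σ y = 0 ∧ k = u σ 0 y := by
  have h00 : (k : Matrix (Fin 3) (Fin 3) F) 0 0 = 1 := by
    have := mem_specialLinear_iff.1 (hXS hk)
    rwa [det_fix0 fk, bk, Matrix.det_one, mul_one] at this
  have b11 := congrFun (congrFun bk 0) 0
  have b12 := congrFun (congrFun bk 0) 1
  have b21 := congrFun (congrFun bk 1) 0
  have b22 := congrFun (congrFun bk 1) 1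
  simp [blk] at b11 b12 b21 b22
  have hval : (k : Matrix (Fin 3) (Fin 3) F) =
      1 + vecMulVec e₀ ![0, (k : Matrix (Fin 3) (Fin 3) F) 0 1, (k : Matrix (Fin 3) (Fin 3) F) 0 2] := by
    ext i j
    fin_cases i <;> fin_cases j <;>
      simp [vecMulVec_apply, e₀, h00, fk.1, fk.2, b11, b12, b21, b22]
  obtain ⟨hx, hy⟩ := root_cases hσ hX hno ⟨k, hk, hval⟩
  refine ⟨_, hy, Units.ext ?_⟩
  rw [u_val]
  ext i j
  fin_cases i <;> fin_cases j <;> simp [uM, h00, hx, fk.1, fk.2, b11, b12, b21, b22]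

theorem stab_le {X : Subgroup (GL (Fin 3) F)} (hX : H₁ σ ≤ X)
    (hXS : X ≤ specialLinear (Fin 3) F) (hno : ¬ specialLinear (Fin 3) F ≤ X) :
    X ⊓ subspaceStabilizer (line (e₀ : Fin 3 → F)) ≤ H₁ σ := by
  rintro g ⟨hgX, hg0⟩
  have fg := fix0_iff.1 hg0
  have fu : ∀ β γ : F, Fix0 (uM σ β γ) := fun β γ => by simp [Fix0, uM]
  have bu : ∀ β γ : F, blk (uM σ β γ) = !![1, -σ β; 0, 1] := fun β γ => by simp [blk, uM]
  set G : Matrix (Fin 3) (Fin 3) F := (g : Matrix (Fin 3) (Fin 3) F) with hG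
  have hdet : G.det = 1 := mem_specialLinear_iff.1 (hXS hgX)
  rw [det_fix0 fg] at hdet
  have ha : G 0 0 ≠ 0 := fun h => by rw [h, zero_mul] at hdet; exact zero_ne_one hdet
  -- the element is triangular
  have hr : G 2 1 = 0 := by
    have hroot : InM X e₀ ![0, 0, hσ.δ₀] := by
      refine ⟨u σ 0 hσ.δ₀, hX (delta_mem hσ), ?_⟩
      rw [u_val]
      ext i j; fin_cases i <;> fin_cases j <;> simp [uM, vecMulVec_apply, e₀]
    have h' := hroot.conj (inv_mem hgX)
    rw [inv_inv, ← hG] at h'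
    have e1 : ((g⁻¹ : GL (Fin 3) F) : Matrix (Fin 3) (Fin 3) F) *ᵥ e₀ = (G 0 0)⁻¹ • e₀ := by
      have hge : G *ᵥ e₀ = G 0 0 • e₀ := by
        ext i; fin_cases i <;> simp [e₀, Matrix.mulVec, dotProduct, Fin.sum_univ_three, fg.1, fg.2, Matrix.vecHead, Matrix.vecTail]
      have := congrArg ((((g⁻¹ : GL (Fin 3) F)) : Matrix (Fin 3) (Fin 3) F) *ᵥ ·) hge
      simp only [hG, Matrix.mulVec_mulVec, ← Units.val_mul, inv_mul_cancel, Units.val_one,
        Matrix.one_mulVec, Matrix.mulVec_smul] at this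
      rw [← hG] at this
      conv_rhs => rw [this, smul_smul, inv_mul_cancel₀ ha, one_smul]
    rw [e1, inM_smul_left] at h'
    have h'' : InM X e₀ ![0, (G 0 0)⁻¹ * (hσ.δ₀ * G 2 1), (G 0 0)⁻¹ * (hσ.δ₀ * G 2 2)] := by
      convert h' using 1
      ext i; fin_cases i <;> simp [Matrix.vecMul, dotProduct, Fin.sum_univ_three, fg.2, Matrix.vecHead, Matrix.vecTail]
    simpa [ha, hσ.δ₀_ne] using (root_cases hσ hX hno h'').1
  have hbc : G 1 1 * G 2 2 ≠ 0 := fun h => by
    simp [blk, Matrix.det_fin_two, hr, h] at hdet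
  obtain ⟨hb, hc⟩ := mul_ne_zero_iff.1 hbc
  set β := σ (G 1 2 / G 1 1) with hβ
  set γ := -(β * σ β * hσ.τ₀) with hγ
  set g' := g * u σ β γ with hg'
  have hum : u σ β γ ∈ H₁ σ := u_mem hσ (gam_spec hσ β)
  have hg'X : g' ∈ X := mul_mem hgX (hX hum)
  suffices g' ∈ H₁ σ by
    have h := mul_mem this (inv_mem hum)
    rwa [hg', mul_inv_cancel_right] at h
  set A : Matrix (Fin 3) (Fin 3) F := (g' : Matrix (Fin 3) (Fin 3) F) with hA
  have hAval : A = G * uM σ β γ := by rw [hA, hg', Units.val_mul, u_val, hG]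
  have fA : Fix0 A := hAval ▸ fg.mul (fu β γ)
  have a12 : A 1 2 = 0 := by
    simp [hAval, uM, Matrix.mul_apply, Fin.sum_univ_three, fg.1, hβ, hσ.invol]
    rw [mul_div_cancel₀ _ hb]; ring
  have a21 : A 2 1 = 0 := by
    simp [hAval, uM, Matrix.mul_apply, Fin.sum_univ_three, fg.2, hr]
  have hb' : A 1 1 ≠ 0 := by simpa [hAval, uM, Matrix.mul_apply, Fin.sum_univ_three, fg.1] using hb
  have hc' : A 2 2 ≠ 0 := by
    simpa [hAval, uM, Matrix.mul_apply, Fin.sum_univ_three, fg.2, hr] using hc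
  -- commutation with the unipotent radical
  have key : ∀ β : F, A 0 0 * β = β * σ (A 1 1 / A 2 2) * A 1 1 ∧ ∃ y, y + σ y = 0 ∧
      A 0 0 * -(β * σ β * hσ.τ₀) - A 0 1 * σ β =
        (y + -(β * σ (A 1 1 / A 2 2) * σ (β * σ (A 1 1 / A 2 2)) * hσ.τ₀)) * A 2 2 := by
    intro β
    set β' := β * σ (A 1 1 / A 2 2) with hβ'
    set U := u σ β (-(β * σ β * hσ.τ₀))
    set V := u σ β' (-(β' * σ β' * hσ.τ₀))
    have hU : U ∈ X := hX (u_mem hσ (gam_spec hσ β))
    have hV : V ∈ X := hX (u_mem hσ (gam_spec hσ β'))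
    set k := g' * U * g'⁻¹ * V⁻¹ with hk
    have hkX : k ∈ X := mul_mem (mul_mem (mul_mem hg'X hU) (inv_mem hg'X)) (inv_mem hV)
    have fV : Fix0 (V : Matrix (Fin 3) (Fin 3) F) := fu _ _
    have fk : Fix0 (k : Matrix (Fin 3) (Fin 3) F) := by
      rw [hk, Units.val_mul, Units.val_mul, Units.val_mul]
      exact (((fA).mul (fu _ _)).mul fA.inv).mul fV.inv
    have bk : blk (k : Matrix (Fin 3) (Fin 3) F) = 1 := by
      have hmul : k * (V * g') = g' * U := by rw [hk]; group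
      have h1 : blk (k : Matrix (Fin 3) (Fin 3) F) * (blk (V : Matrix (Fin 3) (Fin 3) F) * blk A) =
          blk A * blk (U : Matrix (Fin 3) (Fin 3) F) := by
        rw [← blk_mul fV, ← blk_mul fk, ← blk_mul fA, hA, ← Units.val_mul, ← Units.val_mul,
          ← Units.val_mul, hmul]
      have h2 : blk (V : Matrix (Fin 3) (Fin 3) F) * blk A = blk A * blk (U : Matrix (Fin 3) (Fin 3) F) := by
        rw [show (V : Matrix (Fin 3) (Fin 3) F) = uM σ β' (-(β' * σ β' * hσ.τ₀)) from rfl,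
          show (U : Matrix (Fin 3) (Fin 3) F) = uM σ β (-(β * σ β * hσ.τ₀)) from rfl, bu, bu]
        ext i j
        fin_cases i <;> fin_cases j <;> simp [blk, Matrix.mul_apply, a12, a21, hβ', hσ.invol]
        field_simp
      rw [h2] at h1
      have hu' : IsUnit (blk A * blk (U : Matrix (Fin 3) (Fin 3) F)) := by
        rw [Matrix.isUnit_iff_isUnit_det, Matrix.det_mul,
          show (U : Matrix (Fin 3) (Fin 3) F) = uM σ β (-(β * σ β * hσ.τ₀)) from rfl, bu]
        simp [blk, Matrix.det_fin_two, a12, a21, hb', hc']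
      exact hu'.mul_left_injective (show _ * _ = 1 * _ by rw [h1, one_mul])
    obtain ⟨y, hy, ey⟩ := kernel_form hσ hX hXS hno hkX fk bk
    have hmul : u σ 0 y * (V * g') = g' * U := by rw [← ey, hk]; group
    have hm := congrArg (fun k : GL (Fin 3) F => (k : Matrix (Fin 3) (Fin 3) F)) hmul
    simp only [Units.val_mul, u_val, ← hA] at hm
    rw [show (V : Matrix (Fin 3) (Fin 3) F) = uM σ β' (-(β' * σ β' * hσ.τ₀)) from rfl,
      show (U : Matrix (Fin 3) (Fin 3) F) = uM σ β (-(β * σ β * hσ.τ₀)) from rfl] at hm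
    have m01 := congrFun (congrFun hm 0) 1
    have m02 := congrFun (congrFun hm 0) 2
    simp [uM, Matrix.mul_apply, Matrix.vecMul, dotProduct, Matrix.vecHead, Matrix.vecTail, Fin.sum_univ_three, fA.1, fA.2, a12, a21] at m01 m02
    exact ⟨by linear_combination -m01, y, hy, by linear_combination -m02⟩
  have hac : A 0 0 * σ (A 2 2) = A 1 1 * σ (A 1 1) := by
    have h1 := (key 1).1
    simp only [map_div₀, mul_one, one_mul] at h1
    have hc'' : σ (A 2 2) ≠ 0 := by simpa using hc'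
    field_simp at h1
    linear_combination h1
  have hx : A 0 1 = 0 := by
    suffices A 0 1 / A 2 2 = 0 by simpa [hc'] using this
    refine trace_nondeg hσ fun z => ?_
    obtain ⟨-, y, hy, h2⟩ := key (σ z)
    have hyv : y = -(A 0 1 / A 2 2 * z) := by
      have hc'' : σ (A 2 2) ≠ 0 := by simpa using hc'
      simp only [map_mul, map_div₀, hσ.invol] at h2
      field_simp at h2 ⊢
      apply mul_left_cancel₀ hc''
      linear_combination -h2 - (z * σ z * hσ.τ₀) * hac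
    rw [hyv] at hy
    simp only [map_neg] at hy
    linear_combination -hy
  have hdetA : A 0 0 * (A 1 1 * A 2 2) = 1 := by
    have := mem_specialLinear_iff.1 (hXS hg'X)
    rw [← hA, det_fix0 fA, Matrix.det_fin_two] at this
    simpa [blk, a12, a21] using this
  set D : Matrix (Fin 3) (Fin 3) F := !![A 0 0, 0, 0; 0, A 1 1, 0; 0, 0, A 2 2] with hD
  have hDdet : D.det = 1 := by
    rw [hD, Matrix.det_fin_three]; simp; linear_combination hdetA
  have hac' : A 2 2 * σ (A 0 0) = A 1 1 * σ (A 1 1) := by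
    have := congrArg σ hac
    simp only [map_mul, hσ.invol] at this
    linear_combination this
  have hDmem : mk3 D hDdet ∈ H₁ σ :=
    mk3_mem_H₁ _ (Units.mk0 (A 1 1 * σ (A 1 1)) (mul_ne_zero hb' (by simpa using hb'))) fun x y => by
      simp [hD, f₁, Matrix.mulVec, dotProduct, Fin.sum_univ_three]
      linear_combination (x 0 * σ (y 2)) * hac + (x 2 * σ (y 0)) * hac'
  set k := g' * (mk3 D hDdet)⁻¹ with hk
  have fD : Fix0 D := by simp [Fix0, hD]
  have fD' : Fix0 ((mk3 D hDdet : GL (Fin 3) F) : Matrix (Fin 3) (Fin 3) F) := fD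
  obtain ⟨y, hy, ey⟩ := kernel_form hσ hX hXS hno
    (mul_mem hg'X (inv_mem (hX hDmem)) : k ∈ X)
    (by rw [Units.val_mul]; exact fA.mul fD'.inv) (by
      have hAD : blk A = blk ((mk3 D hDdet : GL (Fin 3) F) : Matrix (Fin 3) (Fin 3) F) := by
        ext i j; fin_cases i <;> fin_cases j <;> simp [blk, hD, a12, a21]
      rw [Units.val_mul, blk_mul fA, hAD, ← blk_mul fD', ← Units.val_mul, mul_inv_cancel,
        Units.val_one, blk_one])
  have : g' = u σ 0 y * mk3 D hDdet := by rw [← ey, inv_mul_cancel_right]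
  rw [this]
  exact mul_mem (u_mem hσ (by simpa using hy)) hDmem

end Cfsg.Agent.SLThree.Unit
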