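import Cfsg.Agent.SLThree.Root
import Cfsg.Agent.Linear.Orders

/-!
Upper triangular matrices in `GL(3, q)`; a Sylow `p`-subgroup of a proper irreducible subgroup of
`SL(3, q)` has order at most `q² / p`, otherwise it contains a full root group.
-/

set_option autoImplicit false
set_option linter.unusedSectionVars false
set_option linter.style.haveILetI false

namespace Cfsg.Agent.SLThree.Unitri

open Matrix Cfsg.Geo Cfsg.Agent.MaxSub.SubfieldMax
open scoped MatrixGroups Matrix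

variable {F : Type*} [Field F] [Fintype F]

/-- A finite submonoid is a subgroup. -/
theorem inv_mem_submonoid {G : Type*} [Group G] [Finite G] (S : Submonoid G) {x : G} (hx : x ∈ S) :
    x⁻¹ ∈ S := by
  have e : x⁻¹ = x ^ (orderOf x - 1) := inv_eq_of_mul_eq_one_right (by
    rw [← pow_succ', Nat.sub_add_cancel (orderOf_pos x), pow_orderOf_eq_one])
  rw [e]
  exact S.pow_mem hx _

/-- Upper triangular invertible matrices. -/
def upperSub (F : Type*) [Field F] [Fintype F] : Subgroup (GL (Fin 3) F) :=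
  let S : Submonoid (GL (Fin 3) F) :=
    { carrier := {g | (g : Matrix (Fin 3) (Fin 3) F) 1 0 = 0 ∧ (g : Matrix (Fin 3) (Fin 3) F) 2 0 = 0 ∧
        (g : Matrix (Fin 3) (Fin 3) F) 2 1 = 0}
      mul_mem' := by
        rintro a b ⟨a1, a2, a3⟩ ⟨b1, b2, b3⟩
        simp [Matrix.mul_apply, Fin.sum_univ_three, a1, a2, a3, b1, b2, b3]
      one_mem' := by simp }
  { S with inv_mem' := fun h => inv_mem_submonoid S h }

theorem mem_upperSub {g : GL (Fin 3) F} : g ∈ upperSub F ↔
    (g : Matrix (Fin 3) (Fin 3) F) 1 0 = 0 ∧ (g : Matrix (Fin 3) (Fin 3) F) 2 0 = 0 ∧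
      (g : Matrix (Fin 3) (Fin 3) F) 2 1 = 0 := Iff.rfl

/-- Entries of a product of upper triangular matrices. -/
theorem upper_mul_apply {a b : GL (Fin 3) F} (ha : a ∈ upperSub F) (hb : b ∈ upperSub F) :
    (∀ i, ((a * b : GL (Fin 3) F) : Matrix (Fin 3) (Fin 3) F) i i =
      (a : Matrix (Fin 3) (Fin 3) F) i i * (b : Matrix (Fin 3) (Fin 3) F) i i) ∧
    ((a * b : GL (Fin 3) F) : Matrix (Fin 3) (Fin 3) F) 0 1 =
      (a : Matrix (Fin 3) (Fin 3) F) 0 0 * (b : Matrix (Fin 3) (Fin 3) F) 0 1 +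
        (a : Matrix (Fin 3) (Fin 3) F) 0 1 * (b : Matrix (Fin 3) (Fin 3) F) 1 1 ∧
    ((a * b : GL (Fin 3) F) : Matrix (Fin 3) (Fin 3) F) 1 2 =
      (a : Matrix (Fin 3) (Fin 3) F) 1 1 * (b : Matrix (Fin 3) (Fin 3) F) 1 2 +
        (a : Matrix (Fin 3) (Fin 3) F) 1 2 * (b : Matrix (Fin 3) (Fin 3) F) 2 2 ∧
    ((a * b : GL (Fin 3) F) : Matrix (Fin 3) (Fin 3) F) 0 2 =
      (a : Matrix (Fin 3) (Fin 3) F) 0 0 * (b : Matrix (Fin 3) (Fin 3) F) 0 2 +
        (a : Matrix (Fin 3) (Fin 3) F) 0 1 * (b : Matrix (Fin 3) (Fin 3) F) 1 2 +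
        (a : Matrix (Fin 3) (Fin 3) F) 0 2 * (b : Matrix (Fin 3) (Fin 3) F) 2 2 := by
  obtain ⟨a1, a2, a3⟩ := ha
  obtain ⟨b1, b2, b3⟩ := hb
  refine ⟨fun i => ?_, ?_, ?_, ?_⟩
  · fin_cases i <;> simp [Matrix.mul_apply, Fin.sum_univ_three, a1, a2, a3, b1, b2, b3]
  all_goals simp [Matrix.mul_apply, Fin.sum_univ_three, a1, a2, a3, b1, b2, b3]

/-- Upper unitriangular matrices. -/
def unitriSub (F : Type*) [Field F] [Fintype F] : Subgroup (GL (Fin 3) F) :=
  let S : Submonoid (GL (Fin 3) F) :=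
    { carrier := {g | g ∈ upperSub F ∧ ∀ i, (g : Matrix (Fin 3) (Fin 3) F) i i = 1}
      mul_mem' := fun {a b} ha hb => ⟨mul_mem ha.1 hb.1, fun i => by
        rw [(upper_mul_apply ha.1 hb.1).1 i, ha.2, hb.2, one_mul]⟩
      one_mem' := ⟨one_mem _, fun i => by simp⟩ }
  { S with inv_mem' := fun h => inv_mem_submonoid S h }

theorem mem_unitriSub {g : GL (Fin 3) F} : g ∈ unitriSub F ↔
    g ∈ upperSub F ∧ ∀ i, (g : Matrix (Fin 3) (Fin 3) F) i i = 1 := Iff.rfl

theorem ext_upper {a b : GL (Fin 3) F} (ha : a ∈ upperSub F) (hb : b ∈ upperSub F)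
    (hd : ∀ i, (a : Matrix (Fin 3) (Fin 3) F) i i = (b : Matrix (Fin 3) (Fin 3) F) i i)
    (h01 : (a : Matrix (Fin 3) (Fin 3) F) 0 1 = (b : Matrix (Fin 3) (Fin 3) F) 0 1)
    (h12 : (a : Matrix (Fin 3) (Fin 3) F) 1 2 = (b : Matrix (Fin 3) (Fin 3) F) 1 2)
    (h02 : (a : Matrix (Fin 3) (Fin 3) F) 0 2 = (b : Matrix (Fin 3) (Fin 3) F) 0 2) : a = b := by
  apply Units.ext
  ext i j
  fin_cases i <;> fin_cases j <;> first
    | exact hd _
    | exact h01
    | exact h12
    | exact h02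
    | exact ha.1.trans hb.1.symm
    | exact ha.2.1.trans hb.2.1.symm
    | exact ha.2.2.trans hb.2.2.symm

/-- The unitriangular matrix with given entries. -/
def unitriMk (x y z : F) : GL (Fin 3) F :=
  ⟨!![1, x, y; 0, 1, z; 0, 0, 1], !![1, -x, x * z - y; 0, 1, -z; 0, 0, 1],
    by ext i j; fin_cases i <;> fin_cases j <;> simp [Matrix.mul_apply, Fin.sum_univ_three] <;> ring,
    by ext i j; fin_cases i <;> fin_cases j <;> simp [Matrix.mul_apply, Fin.sum_univ_three] <;> ring⟩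

theorem unitriMk_mem (x y z : F) : unitriMk x y z ∈ unitriSub F := by
  refine ⟨⟨?_, ?_, ?_⟩, fun i => ?_⟩
  · simp [unitriMk]
  · simp [unitriMk]
  · simp [unitriMk]
  · fin_cases i <;> simp [unitriMk]

/-- Entries parametrise unitriangular matrices. -/
def unitriEquiv : unitriSub F ≃ F × F × F where
  toFun g := (((g : GL (Fin 3) F) : Matrix (Fin 3) (Fin 3) F) 0 1,
    ((g : GL (Fin 3) F) : Matrix (Fin 3) (Fin 3) F) 0 2, ((g : GL (Fin 3) F) : Matrix (Fin 3) (Fin 3) F) 1 2)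
  invFun v := ⟨unitriMk v.1 v.2.1 v.2.2, unitriMk_mem _ _ _⟩
  left_inv g := Subtype.ext (ext_upper (unitriMk_mem _ _ _).1 g.2.1
    (fun i => ((unitriMk_mem _ _ _).2 i).trans (g.2.2 i).symm) rfl rfl rfl)
  right_inv v := rfl

theorem card_unitriSub : Nat.card (unitriSub F) = Fintype.card F ^ 3 := by
  rw [Nat.card_congr unitriEquiv]
  simp [Nat.card_eq_fintype_card]
  ring

theorem card_GL_three : Nat.card (GL (Fin 3) F) = Fintype.card F ^ 3 *
    ((Fintype.card F - 1) ^ 3 * (Fintype.card F + 1) * (Fintype.card F ^ 2 + Fintype.card F + 1)) := by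
  rw [Matrix.card_GL_field, Fin.prod_univ_three]
  obtain ⟨m, hm⟩ : ∃ m, Fintype.card F = m + 1 := ⟨Fintype.card F - 1, by
    have := Fintype.one_lt_card (α := F); omega⟩
  simp only [hm, Fin.val_zero, Fin.val_one, Fin.val_two, pow_zero, pow_one, Nat.add_sub_cancel]
  have e0 : (m + 1) ^ 3 - 1 = m * ((m + 1) ^ 2 + (m + 1) + 1) := by
    apply Nat.sub_eq_of_eq_add; ring
  have e1 : (m + 1) ^ 3 - (m + 1) = (m + 1) * (m * (m + 2)) := by
    apply Nat.sub_eq_of_eq_add; ring
  have e2 : (m + 1) ^ 3 - (m + 1) ^ 2 = (m + 1) ^ 2 * m := by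
    apply Nat.sub_eq_of_eq_add; ring
  rw [e0, e1, e2]
  ring

variable {p : ℕ} [Fact p.Prime] [CharP F p]

theorem not_dvd_cofactor :
    ¬ p ∣ (Fintype.card F - 1) ^ 3 * (Fintype.card F + 1) * (Fintype.card F ^ 2 + Fintype.card F + 1) := by
  intro h
  have hq0 : (Fintype.card F : F) = 0 := FiniteField.cast_card_eq_zero F
  have hF : (((Fintype.card F - 1) ^ 3 * (Fintype.card F + 1) *
      (Fintype.card F ^ 2 + Fintype.card F + 1) : ℕ) : F) = 0 := (CharP.cast_eq_zero_iff F p _).2 h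
  rw [Nat.cast_mul, Nat.cast_mul, Nat.cast_pow, Nat.cast_sub Fintype.card_pos] at hF
  simp [hq0] at hF

theorem isPGroup_unitriSub : IsPGroup p (unitriSub F) := by
  obtain ⟨n, -, hn⟩ := FiniteField.card F p
  exact IsPGroup.of_card (n := (n : ℕ) * 3) (by rw [card_unitriSub, hn, ← pow_mul])

theorem not_dvd_index : ¬ p ∣ (unitriSub F).index := by
  have h := Subgroup.card_mul_index (unitriSub F)
  rw [card_unitriSub, card_GL_three] at h
  rw [Nat.eq_of_mul_eq_mul_left (pow_pos Fintype.card_pos 3) h]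
  exact not_dvd_cofactor

/-- `p`-subgroups are conjugate to unitriangular ones. -/
theorem exists_conj_le_unitri (P : Subgroup (GL (Fin 3) F)) (hP : IsPGroup p P) :
    ∃ g : GL (Fin 3) F, ∀ x ∈ P, g⁻¹ * x * g ∈ unitriSub F := by
  obtain ⟨Q, hQ⟩ := hP.exists_le_sylow
  obtain ⟨g, hg⟩ := MulAction.exists_smul_eq (GL (Fin 3) F) ((isPGroup_unitriSub (F := F) (p := p)).toSylow not_dvd_index) Q
  refine ⟨g, fun x hx => ?_⟩
  have h1 : x ∈ (Q : Subgroup (GL (Fin 3) F)) := hQ hx
  rw [← hg, Sylow.coe_subgroup_smul, Subgroup.mem_pointwise_smul_iff_inv_smul_mem] at h1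
  simpa [MulAut.smul_def, mul_assoc] using h1

/-- Two additive subgroups with products in a proper subgroup. -/
theorem card_mul_card_le {A B Γ : AddSubgroup F} (hΓ : Γ ≠ ⊤) (h : ∀ a ∈ A, ∀ b ∈ B, a * b ∈ Γ) :
    Nat.card A * Nat.card B ≤ Fintype.card F ∧ p * Nat.card Γ ≤ Fintype.card F := by
  letI : Algebra (ZMod p) F := ZMod.algebra F p
  let toS : AddSubgroup F ≃o Submodule (ZMod p) F := AddSubgroup.toZModSubmodule p
  have hcard : ∀ S : AddSubgroup F, Nat.card S = p ^ Module.finrank (ZMod p) (toS S) := by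
    intro S
    have hh := Module.natCard_eq_pow_finrank (K := ZMod p) (V := toS S)
    rw [Nat.card_zmod] at hh
    rw [← hh]
    rfl
  have hq : Fintype.card F = p ^ Module.finrank (ZMod p) F := by
    have hh := Module.natCard_eq_pow_finrank (K := ZMod p) (V := F)
    rwa [Nat.card_zmod, Nat.card_eq_fintype_card] at hh
  have hlt : toS Γ < ⊤ := by
    refine lt_top_iff_ne_top.2 fun e => hΓ ?_
    exact toS.injective (e.trans (map_top toS).symm)
  obtain ⟨ψ, hψ0, hψ⟩ := Submodule.exists_le_ker_of_lt_top _ hlt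
  refine ⟨?_, ?_⟩
  · let β : LinearMap.BilinForm (ZMod p) F := (LinearMap.mul (ZMod p) F).compr₂ ψ
    have hβ : ∀ x y, β x y = ψ (x * y) := fun x y => rfl
    have hker : ∀ x, (∀ y, ψ (x * y) = 0) → x = 0 := by
      intro x hx
      by_contra h0
      refine hψ0 (LinearMap.ext fun y => ?_)
      simpa [mul_div_cancel₀ y h0] using hx (y / x)
    have hnd : β.Nondegenerate := ⟨fun x hx => hker x fun y => hx y,
      fun x hx => hker x fun y => by rw [mul_comm]; exact hx y⟩
    have hle : toS B ≤ β.orthogonal (toS A) := by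
      intro b hb
      rw [LinearMap.BilinForm.mem_orthogonal_iff]
      intro a ha
      show ψ (a * b) = 0
      exact LinearMap.mem_ker.1 (hψ (h a ha b hb))
    have h1 := Submodule.finrank_mono hle
    rw [LinearMap.BilinForm.finrank_orthogonal hnd] at h1
    have h2 := Submodule.finrank_le (toS A)
    rw [hcard A, hcard B, hq, ← pow_add]
    exact Nat.pow_le_pow_right (Fact.out : p.Prime).pos (by omega)
  · rw [hcard Γ, hq, ← pow_succ']
    exact Nat.pow_le_pow_right (Fact.out : p.Prime).pos (Submodule.finrank_lt hlt.ne)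

/-- The two superdiagonal entries. -/
def superHom (P : Subgroup (GL (Fin 3) F)) (hP : P ≤ unitriSub F) : P →* Multiplicative (F × F) where
  toFun g := Multiplicative.ofAdd (((g : GL (Fin 3) F) : Matrix (Fin 3) (Fin 3) F) 0 1,
    ((g : GL (Fin 3) F) : Matrix (Fin 3) (Fin 3) F) 1 2)
  map_one' := by simp
  map_mul' a b := by
    obtain ⟨-, e1, e2, -⟩ := upper_mul_apply (hP a.2).1 (hP b.2).1
    rw [Subgroup.coe_mul, ← ofAdd_add, Prod.mk_add_mk, e1, e2, (hP a.2).2, (hP a.2).2, (hP b.2).2,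
      (hP b.2).2]
    simp [add_comm]

/-- A unitriangular `p`-group without the full long root group is small. -/
theorem card_le_of_not_root {P : Subgroup (GL (Fin 3) F)} (hP : P ≤ unitriSub F)
    (hroot : ∃ γ : F, unitriMk 0 γ 0 ∉ P) : p * Nat.card P ≤ Fintype.card F ^ 2 := by
  have hmul02 : ∀ γ δ : F, unitriMk 0 γ 0 * unitriMk 0 δ 0 = unitriMk 0 (γ + δ) 0 := by
    intro γ δ
    obtain ⟨hd, e1, e2, e3⟩ := upper_mul_apply (unitriMk_mem 0 γ 0).1 (unitriMk_mem (0 : F) δ 0).1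
    refine ext_upper (mul_mem (unitriMk_mem 0 γ 0).1 (unitriMk_mem 0 δ 0).1) (unitriMk_mem 0 _ 0).1
      (fun i => ?_) ?_ ?_ ?_
    · rw [hd, (unitriMk_mem 0 γ 0).2, (unitriMk_mem 0 δ 0).2, (unitriMk_mem 0 _ 0).2, one_mul]
    · rw [e1]; simp [unitriMk]
    · rw [e2]; simp [unitriMk]
    · rw [e3]; simp [unitriMk, add_comm]
  have hone : unitriMk (0 : F) 0 0 = 1 := by
    refine ext_upper (unitriMk_mem 0 0 0).1 (one_mem _) (fun i => ?_) ?_ ?_ ?_
    · rw [(unitriMk_mem 0 0 0).2]; simp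
    all_goals simp [unitriMk]
  let Γ : AddSubgroup F :=
    { carrier := {γ | unitriMk 0 γ 0 ∈ P}
      zero_mem' := show unitriMk 0 0 0 ∈ P by rw [hone]; exact one_mem _
      add_mem' := fun {a b} ha hb => show unitriMk 0 (a + b) 0 ∈ P from hmul02 a b ▸ mul_mem ha hb
      neg_mem' := fun {a} ha => show unitriMk 0 (-a) 0 ∈ P by
        have : unitriMk 0 (-a) 0 = (unitriMk 0 a 0)⁻¹ :=
          eq_inv_of_mul_eq_one_left (by rw [hmul02, neg_add_cancel, hone])
        rw [this]; exact inv_mem ha }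
  have hΓ : Γ ≠ ⊤ := by
    obtain ⟨γ, hγ⟩ := hroot
    exact fun e => hγ (show γ ∈ Γ by rw [e]; trivial)
  set π := superHom P hP with hπ
  let Pi' : AddSubgroup (F × F) := π.range.toAddSubgroup'
  let A : AddSubgroup F := Pi'.map (AddMonoidHom.fst F F)
  let B : AddSubgroup F := Pi'.comap (AddMonoidHom.inr F F)
  -- kernel
  have hker : Nat.card π.ker ≤ Nat.card Γ := by
    have hmem : ∀ g : π.ker, ((g : P) : GL (Fin 3) F) =
        unitriMk 0 ((((g : P) : GL (Fin 3) F) : Matrix (Fin 3) (Fin 3) F) 0 2) 0 := by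
      intro g
      have h := MonoidHom.mem_ker.1 g.2
      have h' := congrArg Multiplicative.toAdd h
      simp [π, superHom, Prod.ext_iff] at h'
      refine ext_upper (hP (g : P).2).1 (unitriMk_mem 0 _ 0).1
        (fun i => ((hP (g : P).2).2 i).trans ((unitriMk_mem 0 _ 0).2 i).symm) ?_ ?_ ?_
      · simp [unitriMk, h'.1]
      · simp [unitriMk, h'.2]
      · simp [unitriMk]
    refine Nat.card_le_card_of_injective
      (fun g => (⟨_, show unitriMk 0 _ 0 ∈ P from hmem g ▸ (g : P).2⟩ : Γ)) fun g g' e => ?_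
    apply Subtype.ext; apply Subtype.ext
    rw [hmem g, hmem g']
    have e' := congrArg Subtype.val e
    simp only at e'
    rw [e']
  -- products
  have hAB : ∀ a ∈ A, ∀ b ∈ B, a * b ∈ Γ := by
    rintro a ⟨⟨x, y⟩, ⟨u, hu⟩, rfl⟩ b ⟨v, hv⟩
    have hu' := congrArg Multiplicative.toAdd hu
    have hv' := congrArg Multiplicative.toAdd hv
    simp [π, superHom, Prod.ext_iff] at hu' hv'
    have hu1 : ((u : GL (Fin 3) F) : Matrix (Fin 3) (Fin 3) F) 0 1 = x := hu'.1
    have hv1 : ((v : GL (Fin 3) F) : Matrix (Fin 3) (Fin 3) F) 0 1 = 0 := hv'.1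
    have hv2 : ((v : GL (Fin 3) F) : Matrix (Fin 3) (Fin 3) F) 1 2 = b := hv'.2
    show unitriMk 0 (x * b) 0 ∈ P
    have e : unitriMk 0 (x * b) 0 * ((v : GL (Fin 3) F) * u) = (u : GL (Fin 3) F) * v := by
      have hc := (unitriMk_mem (0 : F) (x * b) 0)
      have huv := upper_mul_apply (hP u.2).1 (hP v.2).1
      have hvu := upper_mul_apply (hP v.2).1 (hP u.2).1
      have hh := upper_mul_apply hc.1 (mul_mem (hP v.2).1 (hP u.2).1)
      refine ext_upper (mul_mem hc.1 (mul_mem (hP v.2).1 (hP u.2).1)) (mul_mem (hP u.2).1 (hP v.2).1)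
        (fun i => ?_) ?_ ?_ ?_
      · rw [hh.1, hvu.1, huv.1, hc.2, (hP u.2).2, (hP v.2).2]; simp
      · rw [hh.2.1, hvu.2.1, huv.2.1, hvu.1, hc.2, (hP u.2).2, (hP v.2).2, (hP v.2).2, (hP u.2).2]
        simp [unitriMk, add_comm]
      · rw [hh.2.2.1, hvu.2.2.1, huv.2.2.1, hvu.1, hc.2, (hP u.2).2, (hP v.2).2, (hP v.2).2, (hP u.2).2]
        simp [unitriMk, add_comm]
      · rw [hh.2.2.2, hvu.2.2.1, hvu.2.2.2, huv.2.2.2, hvu.1, hc.2, (hP u.2).2, (hP v.2).2, (hP v.2).2, (hP u.2).2]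
        simp [unitriMk, hu1, hv1, hv2, (hP u.2).2, (hP v.2).2]
        ring
    have := mul_mem (mul_mem u.2 v.2) (inv_mem (mul_mem v.2 u.2))
    rwa [← eq_mul_inv_of_mul_eq e] at this
  -- range
  have hran : Nat.card π.range ≤ Nat.card A * Nat.card B := by
    let f : Pi' →+ F := (AddMonoidHom.fst F F).comp Pi'.subtype
    have h1 := AddSubgroup.card_eq_card_quotient_mul_card_addSubgroup f.ker
    have h2 : Nat.card (Pi' ⧸ f.ker) = Nat.card A := by
      rw [Nat.card_congr (QuotientAddGroup.quotientKerEquivRange f).toEquiv]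
      have : f.range = A := by
        rw [AddMonoidHom.range_comp, AddSubgroup.range_subtype]
      rw [this]
    have h3 : Nat.card f.ker ≤ Nat.card B := by
      refine Nat.card_le_card_of_injective (fun x => (⟨(x : Pi').1.2, ?_⟩ : B)) fun x y e => ?_
      · have hx : (x : Pi').1.1 = 0 := AddMonoidHom.mem_ker.1 x.2
        show (0, (x : Pi').1.2) ∈ Pi'
        rw [← hx]
        exact (x : Pi').2
      · apply Subtype.ext; apply Subtype.ext
        exact Prod.ext ((AddMonoidHom.mem_ker.1 x.2).trans (AddMonoidHom.mem_ker.1 y.2).symm)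
          (congrArg Subtype.val e)
    calc Nat.card π.range = Nat.card Pi' := rfl
      _ = _ := h1
      _ ≤ _ := by rw [h2]; exact Nat.mul_le_mul_left _ h3
  obtain ⟨h1, h2⟩ := card_mul_card_le (p := p) hΓ hAB
  rw [Subgroup.card_eq_card_quotient_mul_card_subgroup π.ker,
    Nat.card_congr (QuotientGroup.quotientKerEquivRange π).toEquiv]
  calc p * (Nat.card π.range * Nat.card π.ker) = Nat.card π.range * (p * Nat.card π.ker) := by ring
    _ ≤ Fintype.card F * Fintype.card F :=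
      Nat.mul_le_mul (hran.trans h1) ((Nat.mul_le_mul_left p hker).trans h2)
    _ = _ := by ring

/-- The bound on Sylow `p`-subgroups. -/
theorem sylow_bound {X : Subgroup (GL (Fin 3) F)} (hirr : ActsIrreducibly (matrixSet X))
    (hX : ¬ specialLinear (Fin 3) F ≤ X) (P : Sylow p X) :
    Nat.card P ∣ Fintype.card F ^ 3 ∧ p * Nat.card P ≤ Fintype.card F ^ 2 := by
  obtain ⟨g, hg⟩ := exists_conj_le_unitri (p := p) ((P : Subgroup X).map X.subtype) (P.2.map _)
  set P' : Subgroup (GL (Fin 3) F) :=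
    ((P : Subgroup X).map X.subtype).map (MulAut.conj g⁻¹).toMonoidHom with hP'
  have hle : P' ≤ unitriSub F := by
    rintro _ ⟨x, hx, rfl⟩
    simpa using hg x hx
  have hc : Nat.card P' = Nat.card P := by
    rw [hP', Subgroup.card_map_of_injective (MulAut.conj g⁻¹).injective,
      Subgroup.card_map_of_injective X.subtype_injective]
  constructor
  · rw [← hc, ← card_unitriSub]
    exact Subgroup.card_dvd_of_le hle
  · rw [← hc]
    refine card_le_of_not_root (p := p) hle ?_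
    by_contra hcon
    push Not at hcon
    refine hX (sl_le_of_root hirr (u := (g : Matrix (Fin 3) (Fin 3) F) *ᵥ ev F 0)
      (a := ev F 2 ᵥ* ((g⁻¹ : GL (Fin 3) F) : Matrix (Fin 3) (Fin 3) F)) ?_ ?_ ?_ ?_)
    · intro h
      have := congrArg (((g⁻¹ : GL (Fin 3) F) : Matrix (Fin 3) (Fin 3) F) *ᵥ ·) h
      simp only [Matrix.mulVec_mulVec, Matrix.mulVec_zero, ← Units.val_mul, inv_mul_cancel, Units.val_one,
        Matrix.one_mulVec] at this
      simpa [ev] using congrFun this 0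
    · intro h
      have := congrArg (· ᵥ* (g : Matrix (Fin 3) (Fin 3) F)) h
      simp only [Matrix.vecMul_vecMul, Matrix.zero_vecMul, ← Units.val_mul, inv_mul_cancel, Units.val_one,
        Matrix.vecMul_one] at this
      simpa [ev] using congrFun this 2
    · rw [dot_conj]; exact ev_dot_ev (by decide)
    · intro c
      obtain ⟨x, ⟨y, hy, rfl⟩, hx⟩ := hcon c
      refine ⟨(y : GL (Fin 3) F), y.2, ?_⟩
      have hy' : ((y : X) : GL (Fin 3) F) = g * unitriMk 0 c 0 * g⁻¹ := by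
        rw [← hx]; simp [mul_assoc]
      have he : ((unitriMk 0 c 0 : GL (Fin 3) F) : Matrix (Fin 3) (Fin 3) F) =
          1 + vecMulVec (ev F 0) (c • ev F 2) := by
        ext i j
        fin_cases i <;> fin_cases j <;> simp [unitriMk, ev, vecMulVec_apply]
      rw [hy', Units.val_mul, Units.val_mul, he, mul_add, mul_one, add_mul, ← Units.val_mul,
        mul_inv_cancel, Units.val_one, Matrix.mul_vecMulVec, Matrix.vecMulVec_mul, smul_vecMul]

end Cfsg.Agent.SLThree.Unitri
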